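import Mathlib
import Cfsg.Agent.Lib.Helper56.TC

set_option autoImplicit false

/-!
Upper bound for the index of a subgroup from a coset enumeration certificate, in any group whose
generators satisfy the relators of the certificate (no universal property is needed).
-/

namespace Cfsg.Agent.Lib.Helper56.TC

namespace Tabs

variable {T : Tabs} {G : Type*} [Group G] {H : Subgroup G} {g : ℕ → G}

/-- The semantic hypotheses from a certificate. -/
theorem Cert.sem (hC : T.Cert)
    (hinv : ∀ l < T.K, g (T.inv l) = (g l)⁻¹)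
    (hrel : ∀ w ∈ T.rels1, ew g w = 1)
    (hsub : ∀ s ∈ T.subs, ew g s ∈ H) : T.Sem H g :=
  have hP := hC.p1
  { hNN := hP.hNN
    hinvK := hP.hinvK
    hinv := hinv
    hsubH := hsub
    hsubK := hP.hsubK
    hrel := hrel
    hrelK := hP.hrelK
    hrx := hC.hrx
    hchk := hC.hname
    hfin := fun v hv => by
      have h := hC.hV v hv
      unfold chkV at h
      simp only [Bool.and_eq_true] at h
      exact h.1 }

/-- In any group generated by `g l` (`l < K`) in which the relators hold, a subgroup containing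
the subgroup words of the certificate has at most `N` cosets. -/
theorem index_le_of_cert (hC : T.Cert)
    (hgen : Subgroup.closure {x | ∃ l < T.K, x = g l} = ⊤)
    (hinv : ∀ l < T.K, g (T.inv l) = (g l)⁻¹)
    (hrel : ∀ w ∈ T.rels1, ew g w = 1)
    (hsub : ∀ s ∈ T.subs, ew g s ∈ H) :
    Finite (G ⧸ H) ∧ Nat.card (G ⧸ H) ≤ T.N := by
  have hS : T.Sem H g := hC.sem hinv hrel hsub
  have hP := hC.p1
  have hsurj : Function.Surjective (fun v : Fin T.N => T.val H g v) := by
    intro q
    obtain ⟨v, hv, rfl⟩ := cover hS hP.hN hgen q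
    exact ⟨⟨v, hv⟩, rfl⟩
  have hfin : Finite (G ⧸ H) := Finite.of_surjective _ hsurj
  refine ⟨hfin, ?_⟩
  have h := Nat.card_le_card_of_surjective _ hsurj
  rwa [Nat.card_fin] at h

/-- The same as a bound on the index. -/
theorem index_le_of_cert' (hC : T.Cert)
    (hgen : Subgroup.closure {x | ∃ l < T.K, x = g l} = ⊤)
    (hinv : ∀ l < T.K, g (T.inv l) = (g l)⁻¹)
    (hrel : ∀ w ∈ T.rels1, ew g w = 1)
    (hsub : ∀ s ∈ T.subs, ew g s ∈ H) :
    H.index ≠ 0 ∧ H.index ≤ T.N := by
  obtain ⟨hfin, hle⟩ := index_le_of_cert hC hgen hinv hrel hsub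
  constructor
  · unfold Subgroup.index
    exact Nat.card_pos.ne'
  · exact hle

/-- Bound on the order of the group when the subgroup is finite. -/
theorem card_le_of_cert (hC : T.Cert)
    (hgen : Subgroup.closure {x | ∃ l < T.K, x = g l} = ⊤)
    (hinv : ∀ l < T.K, g (T.inv l) = (g l)⁻¹)
    (hrel : ∀ w ∈ T.rels1, ew g w = 1)
    (hsub : ∀ s ∈ T.subs, ew g s ∈ H) [Finite H] :
    Finite G ∧ Nat.card G ≤ T.N * Nat.card H := by
  obtain ⟨hfin, hle⟩ := index_le_of_cert hC hgen hinv hrel hsub
  have hG : Finite G := by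
    have e := Subgroup.groupEquivQuotientProdSubgroup (s := H)
    exact Finite.of_equiv _ e.symm
  refine ⟨hG, ?_⟩
  rw [← Subgroup.index_mul_card H]
  exact Nat.mul_le_mul_right _ hle

end Tabs

end Cfsg.Agent.Lib.Helper56.TC
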