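import Mathlib
import Cfsg.Prelude.Def_SporCoxeter
import Cfsg.Agent.Lib.Helper56.TC
import Cfsg.Agent.Lib.Helper56.TCCox

set_option autoImplicit false

/-!
Coset enumeration certificates for Coxeter-style presentations in which some generators are not
nodes of the graph (so not involutions): such a generator has a second letter for its inverse.
-/

namespace Cfsg.Agent.Lib.Helper56.TC

open Cfsg.Spor

section coxG

variable {α : Type} [DecidableEq α]

/-- The letter of a signed generator: the generators in `ninv` have a letter for the inverse. -/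
def codeOf (gens ninv : List α) (p : α × Bool) : ℕ :=
  if p.2 then gens.idxOf p.1
  else if p.1 ∈ ninv then gens.length + ninv.idxOf p.1 else gens.idxOf p.1

/-- The word of a free group element. -/
def wordOfG (gens ninv : List α) (r : FreeGroup α) : List ℕ := r.toWord.map (codeOf gens ninv)

/-- The words of the Coxeter relators of the pairs of distinct nodes. -/
def coxWG (edges : List (α × ℕ × α)) (gens : List α) : List (List ℕ) :=
  gens.flatMap fun x => gens.flatMap fun y =>
    if x ∈ coxNodes edges ∧ y ∈ coxNodes edges ∧ gens.idxOf x < gens.idxOf y then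
      [(List.replicate (coxLabel edges x y) [gens.idxOf x, gens.idxOf y]).flatten]
    else []

/-- The group element of a letter. -/
def letG {G' : Type*} [Group G'] (γ : α → G') (gens ninv : List α) (l : ℕ) : G' :=
  if h : l < gens.length then γ gens[l]
  else ((ninv[l - gens.length]?).map (fun x => (γ x)⁻¹)).getD 1

theorem letG_pos {G' : Type*} [Group G'] (γ : α → G') (gens ninv : List α) (l : ℕ)
    (h : l < gens.length) : letG γ gens ninv l = γ gens[l] := by
  unfold letG
  rw [dif_pos h]

theorem letG_neg {G' : Type*} [Group G'] (γ : α → G') (gens ninv : List α) (j : ℕ)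
    (h : j < ninv.length) : letG γ gens ninv (gens.length + j) = (γ ninv[j])⁻¹ := by
  unfold letG
  rw [dif_neg (by omega)]
  have h1 : gens.length + j - gens.length = j := by omega
  rw [h1, List.getElem?_eq_getElem h]
  rfl

theorem lift_eq_ewG {G' : Type*} [Group G'] (code : α × Bool → ℕ) (γ : α → G') (γ' : ℕ → G')
    (hγ : ∀ x b, γ' (code (x, b)) = if b then γ x else (γ x)⁻¹) (r : FreeGroup α) :
    FreeGroup.lift γ r = ew γ' (r.toWord.map code) := by
  conv_lhs => rw [← FreeGroup.mk_toWord (x := r)]
  rw [FreeGroup.lift_mk]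
  unfold ew
  rw [List.map_map]
  congr 1
  apply List.map_congr_left
  intro p _
  rcases p with ⟨x, b⟩
  cases b
  · simp [hγ]
  · simp [hγ]

theorem mem_coxWG (edges : List (α × ℕ × α)) (gens : List α) (w : List ℕ) :
    w ∈ coxWG edges gens ↔ ∃ x ∈ gens, ∃ y ∈ gens,
      (x ∈ coxNodes edges ∧ y ∈ coxNodes edges ∧ gens.idxOf x < gens.idxOf y) ∧
      w = (List.replicate (coxLabel edges x y) [gens.idxOf x, gens.idxOf y]).flatten := by
  unfold coxWG
  simp only [List.mem_flatMap]
  constructor
  · rintro ⟨x, hx, y, hy, h⟩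
    by_cases hlt : x ∈ coxNodes edges ∧ y ∈ coxNodes edges ∧ gens.idxOf x < gens.idxOf y
    · rw [if_pos hlt] at h
      exact ⟨x, hx, y, hy, hlt, by simpa using h⟩
    · rw [if_neg hlt] at h
      exact absurd h (by simp)
  · rintro ⟨x, hx, y, hy, hlt, rfl⟩
    exact ⟨x, hx, y, hy, by rw [if_pos hlt]; simp⟩

/-- Index and orbit sizes from a certificate, for a Coxeter-style presentation in which the
generators in `ninv` are not nodes. -/
theorem cox_mainG (edges : List (α × ℕ × α)) (extra : List (FreeGroup α))
    (T : Tabs) (gens ninv : List α) (subL : List (FreeGroup α))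
    (hC : T.Cert)
    (hK : T.K = gens.length + ninv.length) (hnd : gens.Nodup) (hnd2 : ninv.Nodup)
    (hall : ∀ x : α, x ∈ gens)
    (hnode : ∀ x : α, x ∉ ninv → x ∈ coxNodes edges)
    (hnode2 : ∀ x ∈ coxNodes edges, x ∉ ninv)
    (hinvT : ∀ x : α, T.inv (gens.idxOf x) = codeOf gens ninv (x, false))
    (hrels : T.rels1 = coxWG edges gens ++ extra.map (wordOfG gens ninv))
    (hsubs : T.subs = subL.map (wordOfG gens ninv)) :
    (((Subgroup.closure {r | r ∈ subL}).map
      (PresentedGroup.mk (coxRelators edges ∪ {r | r ∈ extra}))).index = T.N) ∧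
    ∀ c, T.orep c < T.N → T.ol (T.orep c) = c →
      ∃ q : PresentedGroup (coxRelators edges ∪ {r | r ∈ extra}) ⧸
          ((Subgroup.closure {r | r ∈ subL}).map
            (PresentedGroup.mk (coxRelators edges ∪ {r | r ∈ extra}))),
        (MulAction.orbit ((Subgroup.closure {r | r ∈ subL}).map
            (PresentedGroup.mk (coxRelators edges ∪ {r | r ∈ extra}))) q).ncard =
          countLt (fun v => Nat.beq (T.ol v) c) T.N := by
  set rels := coxRelators edges ∪ {r | r ∈ extra} with hrelsdef
  have hP := hC.p1
  let γ : α → PresentedGroup rels := fun x => PresentedGroup.of x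
  let g : ℕ → PresentedGroup rels := letG γ gens ninv
  have hidx : ∀ x, gens.idxOf x < gens.length := fun x => List.idxOf_lt_length_of_mem (hall x)
  have hidxK : ∀ x, gens.idxOf x < T.K := fun x => by rw [hK]; have := hidx x; omega
  have hcodeF : ∀ x, x ∉ ninv → codeOf gens ninv (x, false) = gens.idxOf x := by
    intro x hx
    unfold codeOf
    simp only [Bool.false_eq_true, if_false]
    rw [if_neg hx]
  have hcodeN : ∀ x, x ∈ ninv → codeOf gens ninv (x, false) = gens.length + ninv.idxOf x := by
    intro x hx
    unfold codeOf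
    simp only [Bool.false_eq_true, if_false]
    rw [if_pos hx]
  have hcodeT : ∀ x, codeOf gens ninv (x, true) = gens.idxOf x := by
    intro x
    unfold codeOf
    simp
  have hsq : ∀ x, x ∉ ninv → γ x * γ x = 1 := by
    intro x hxn
    have hx := hnode x hxn
    have hmem : (FreeGroup.of x * FreeGroup.of x) ^ coxLabel edges x x ∈ rels :=
      Or.inl ⟨x, hx, x, hx, rfl⟩
    have h1 : coxLabel edges x x = 1 := by unfold coxLabel; rw [if_pos rfl]
    rw [h1, pow_one] at hmem
    have h2 := PresentedGroup.one_of_mem hmem
    rw [map_mul] at h2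
    exact h2
  have hγinv : ∀ x, x ∉ ninv → (γ x)⁻¹ = γ x :=
    fun x hx => inv_eq_of_mul_eq_one_right (hsq x hx)
  have hgpos : ∀ x, g (gens.idxOf x) = γ x := by
    intro x
    show letG γ gens ninv (gens.idxOf x) = γ x
    rw [letG_pos γ gens ninv _ (hidx x), List.getElem_idxOf (hidx x)]
  have hg : ∀ x b, g (codeOf gens ninv (x, b)) = if b then γ x else (γ x)⁻¹ := by
    intro x b
    cases b
    · simp only [Bool.false_eq_true, if_false]
      by_cases hx : x ∈ ninv
      · rw [hcodeN x hx]
        have hj := List.idxOf_lt_length_of_mem hx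
        show letG γ gens ninv (gens.length + ninv.idxOf x) = _
        rw [letG_neg γ gens ninv _ hj, List.getElem_idxOf hj]
      · rw [hcodeF x hx, hgpos x]
        exact (hγinv x hx).symm
    · simp only [if_true]
      rw [hcodeT x, hgpos x]
  have hmkl : PresentedGroup.mk rels = FreeGroup.lift γ :=
    FreeGroup.ext_hom _ _ (fun a => by rw [FreeGroup.lift_apply_of]; rfl)
  have hmk : ∀ r : FreeGroup α, PresentedGroup.mk rels r = ew g (wordOfG gens ninv r) := by
    intro r
    rw [hmkl]
    exact lift_eq_ewG (codeOf gens ninv) γ g hg r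
  have hgen : Subgroup.closure {x | ∃ l < T.K, x = g l} = ⊤ := by
    rw [eq_top_iff, ← PresentedGroup.closure_range_of rels]
    apply Subgroup.closure_mono
    rintro _ ⟨x, rfl⟩
    exact ⟨gens.idxOf x, hidxK x, (hgpos x).symm⟩
  have hinvg : ∀ l < T.K, g (T.inv l) = (g l)⁻¹ := by
    intro l hl
    by_cases hl' : l < gens.length
    · have hxl : gens.idxOf gens[l] = l := List.Nodup.idxOf_getElem hnd l hl'
      have h1 := hinvT gens[l]
      rw [hxl] at h1
      rw [h1]
      have h2 := hg gens[l] false
      simp only [Bool.false_eq_true, if_false] at h2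
      rw [h2]
      have h3 := hgpos gens[l]
      rw [hxl] at h3
      rw [h3]
    · have hj : l - gens.length < ninv.length := by rw [hK] at hl; omega
      set j := l - gens.length with hjdef
      have hlj : l = gens.length + j := by omega
      have hxmem : ninv[j] ∈ ninv := List.getElem_mem hj
      have hxj : ninv.idxOf ninv[j] = j := List.Nodup.idxOf_getElem hnd2 j hj
      have h1 := hinvT ninv[j]
      rw [hcodeN _ hxmem, hxj, ← hlj] at h1
      have h2 := hP.hinv2 _ (hidxK ninv[j])
      rw [h1] at h2
      rw [h2, hgpos]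
      have h3 : g l = (γ ninv[j])⁻¹ := by
        rw [hlj]
        exact letG_neg γ gens ninv j hj
      rw [h3, inv_inv]
  have hrel : ∀ w ∈ T.rels1, ew g w = 1 := by
    intro w hw
    rw [hrels] at hw
    rcases List.mem_append.mp hw with h | h
    · obtain ⟨x, hx, y, hy, ⟨hxn, hyn, -⟩, rfl⟩ := (mem_coxWG edges gens w).mp h
      rw [ew_rep, ew_cons, ew_cons, ew_nil, mul_one, hgpos, hgpos]
      have hmem : (FreeGroup.of x * FreeGroup.of y) ^ coxLabel edges x y ∈ rels :=
        Or.inl ⟨x, hxn, y, hyn, rfl⟩
      have h2 := PresentedGroup.one_of_mem hmem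
      rw [map_pow, map_mul] at h2
      exact h2
    · obtain ⟨r, hr, rfl⟩ := List.mem_map.mp h
      rw [← hmk r]
      exact PresentedGroup.one_of_mem (Or.inr hr)
  have hH : (Subgroup.closure {r | r ∈ subL}).map (PresentedGroup.mk rels) =
      Subgroup.closure {x | ∃ s ∈ T.subs, x = ew g s} := by
    rw [MonoidHom.map_closure]
    congr 1
    ext x
    constructor
    · rintro ⟨r, hr, rfl⟩
      exact ⟨wordOfG gens ninv r, by rw [hsubs]; exact List.mem_map_of_mem hr, hmk r⟩
    · rintro ⟨s, hs, rfl⟩
      rw [hsubs] at hs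
      obtain ⟨r, hr, rfl⟩ := List.mem_map.mp hs
      exact ⟨r, hr, hmk r⟩
  have hlift : ∀ hP : T.P1, ∃ φ : PresentedGroup rels →* Equiv.Perm (Fin T.N),
      ∀ l < T.K, φ (g l) = Tabs.sigma hP l := by
    intro hP
    let σ' : α → Equiv.Perm (Fin T.N) := fun x => Tabs.sigma hP (gens.idxOf x)
    have hσ : ∀ x b, Tabs.sigma hP (codeOf gens ninv (x, b)) =
        if b then σ' x else (σ' x)⁻¹ := by
      intro x b
      cases b
      · simp only [Bool.false_eq_true, if_false]
        rw [← hinvT x]
        exact Tabs.sigma_inv hP _ (hidxK x)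
      · simp only [if_true]
        rw [hcodeT x]
    have hσinv : ∀ x, x ∉ ninv → (σ' x)⁻¹ = σ' x := by
      intro x hx
      have h1 := hσ x false
      simp only [Bool.false_eq_true, if_false] at h1
      rw [hcodeF x hx] at h1
      exact h1.symm
    have hliftw : ∀ r, FreeGroup.lift σ' r = ew (Tabs.sigma hP) (wordOfG gens ninv r) :=
      lift_eq_ewG (codeOf gens ninv) σ' (Tabs.sigma hP) hσ
    have hpair : ∀ x y, x ∈ coxNodes edges → y ∈ coxNodes edges →
        gens.idxOf x < gens.idxOf y → (σ' x * σ' y) ^ coxLabel edges x y = 1 := by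
      intro x y hxn hyn hlt
      have hmem : (List.replicate (coxLabel edges x y) [gens.idxOf x, gens.idxOf y]).flatten ∈
          T.rels1 := by
        rw [hrels]
        exact List.mem_append_left _
          ((mem_coxWG edges gens _).mpr ⟨x, hall x, y, hall y, ⟨hxn, hyn, hlt⟩, rfl⟩)
      have h1 := Tabs.sigma_rel hP _ hmem
      rw [ew_rep, ew_cons, ew_cons, ew_nil, mul_one] at h1
      exact h1
    have hσrel : ∀ r ∈ rels, FreeGroup.lift σ' r = 1 := by
      rintro r (⟨x, hx, y, hy, rfl⟩ | hr)
      · rw [map_pow, map_mul, FreeGroup.lift_apply_of, FreeGroup.lift_apply_of]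
        rcases lt_trichotomy (gens.idxOf x) (gens.idxOf y) with hlt | heq | hgt
        · exact hpair x y hx hy hlt
        · have hxy : x = y := (List.idxOf_inj (hall x)).mp heq
          subst hxy
          have h1 : coxLabel edges x x = 1 := by unfold coxLabel; rw [if_pos rfl]
          rw [h1, pow_one]
          have h2 := hσinv x (hnode2 x hx)
          calc σ' x * σ' x = (σ' x)⁻¹ * σ' x := by rw [h2]
            _ = 1 := inv_mul_cancel _
        · rw [coxLabel_comm]
          exact pow_comm_eq_one _ _ _ (hpair y x hy hx hgt)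
      · rw [hliftw]
        exact Tabs.sigma_rel hP _ (by
          rw [hrels]; exact List.mem_append_right _ (List.mem_map_of_mem hr))
    refine ⟨PresentedGroup.toGroup hσrel, fun l hl => ?_⟩
    by_cases hl' : l < gens.length
    · have h1 : g l = γ gens[l] := letG_pos γ gens ninv l hl'
      rw [h1]
      show PresentedGroup.toGroup hσrel (PresentedGroup.of gens[l]) = _
      rw [PresentedGroup.toGroup.of]
      show Tabs.sigma hP (gens.idxOf gens[l]) = _
      rw [List.Nodup.idxOf_getElem hnd]
    · have hj : l - gens.length < ninv.length := by rw [hK] at hl; omega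
      set j := l - gens.length with hjdef
      have hlj : l = gens.length + j := by omega
      have hxmem : ninv[j] ∈ ninv := List.getElem_mem hj
      have hxj : ninv.idxOf ninv[j] = j := List.Nodup.idxOf_getElem hnd2 j hj
      have h1 : g l = (γ ninv[j])⁻¹ := by
        rw [hlj]
        exact letG_neg γ gens ninv j hj
      rw [h1, map_inv]
      show (PresentedGroup.toGroup hσrel (PresentedGroup.of ninv[j]))⁻¹ = _
      rw [PresentedGroup.toGroup.of]
      have h2 := hσ ninv[j] false
      simp only [Bool.false_eq_true, if_false] at h2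
      rw [← h2, hcodeN _ hxmem, hxj, ← hlj]
  exact Tabs.final hC hgen hinvg hrel hH hlift

end coxG

end Cfsg.Agent.Lib.Helper56.TC
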