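import Mathlib
import Cfsg.Prelude.Def_SporCoxeter
import Cfsg.Prelude.Def_KGroupFacts

set_option autoImplicit false

/-!
Central extensions of groups presented on a Coxeter graph: lifting the generators, the commutators
of the lifts, and a grading argument which measures by how much a relation among involutions fails
for elements whose squares are a fixed central element.
-/

namespace Cfsg.Agent.Lib.Helper56.Stem

open Cfsg.Spor
open scoped commutatorElement

section pres

variable {α : Type} [DecidableEq α] (edges : List (α × ℕ × α)) (extra : List (FreeGroup α))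

/-- A homomorphism from a Coxeter-style presented group, from the relations in label form. -/
theorem cox_toGroup {M : Type*} [Group M] (Y : α → M)
    (hcox : ∀ x y : α, (Y x * Y y) ^ coxLabel edges x y = 1)
    (hextra : ∀ r ∈ extra, FreeGroup.lift Y r = 1) :
    ∃ ψ : CoxPresented α edges extra →* M, ∀ x, ψ (PresentedGroup.of x) = Y x := by
  have hrel : ∀ r ∈ coxRelators edges ∪ {r | r ∈ extra}, FreeGroup.lift Y r = 1 := by
    rintro r (⟨x, _, y, _, rfl⟩ | hr)
    · rw [map_pow, map_mul, FreeGroup.lift_apply_of, FreeGroup.lift_apply_of]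
      exact hcox x y
    · exact hextra r hr
  exact ⟨PresentedGroup.toGroup hrel, fun x => PresentedGroup.toGroup.of hrel⟩

/-- The Coxeter relations in label form hold in the presented group. -/
theorem of_cox (hnode : ∀ x : α, x ∈ coxNodes edges) (x y : α) :
    ((PresentedGroup.of x : CoxPresented α edges extra) * PresentedGroup.of y) ^
      coxLabel edges x y = 1 := by
  have hmem : (FreeGroup.of x * FreeGroup.of y) ^ coxLabel edges x y ∈
      coxRelators edges ∪ {r | r ∈ extra} := Or.inl ⟨x, hnode x, y, hnode y, rfl⟩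
  have h2 := PresentedGroup.one_of_mem hmem
  rw [map_pow, map_mul] at h2
  exact h2

/-- The quotient map is the lift of the generators. -/
theorem mk_eq_lift : (PresentedGroup.mk (coxRelators edges ∪ {r | r ∈ extra}) :
      FreeGroup α →* CoxPresented α edges extra) =
      FreeGroup.lift (fun x => (PresentedGroup.of x : CoxPresented α edges extra)) :=
  FreeGroup.ext_hom _ _ (fun a => by rw [FreeGroup.lift_apply_of]; rfl)

/-- The extra relators hold in the presented group. -/
theorem lift_extra (r : FreeGroup α) (hr : r ∈ extra) :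
    FreeGroup.lift (fun x => (PresentedGroup.of x : CoxPresented α edges extra)) r = 1 := by
  rw [← mk_eq_lift]
  exact PresentedGroup.one_of_mem (Or.inr hr)

/-- A homomorphism of a presented group is determined by the images of the generators. -/
theorem hom_eq_lift {M : Type*} [Group M] (ψ : CoxPresented α edges extra →* M) (Y : α → M)
    (h : ∀ x, ψ (PresentedGroup.of x) = Y x) (r : FreeGroup α) :
    ψ (FreeGroup.lift (fun x => (PresentedGroup.of x : CoxPresented α edges extra)) r) =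
      FreeGroup.lift Y r := by
  have : ψ.comp (FreeGroup.lift (fun x => (PresentedGroup.of x : CoxPresented α edges extra))) =
      FreeGroup.lift Y :=
    FreeGroup.ext_hom _ _ (fun a => by
      rw [MonoidHom.comp_apply, FreeGroup.lift_apply_of, FreeGroup.lift_apply_of]; exact h a)
  rw [← this]
  rfl

end pres

section central

variable {Γ : Type*} [Group Γ]

theorem central3 (c1 c2 c3 a b d : Γ) (h2 : c2 ∈ Subgroup.center Γ)
    (h3 : c3 ∈ Subgroup.center Γ) :
    (c1 * a) * (c2 * b) * (c3 * d) = (c1 * c2 * c3) * (a * b * d) := by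
  have e2 : a * c2 = c2 * a := Subgroup.mem_center_iff.mp h2 a
  have e3 : (a * b) * c3 = c3 * (a * b) := Subgroup.mem_center_iff.mp h3 (a * b)
  calc (c1 * a) * (c2 * b) * (c3 * d) = c1 * (a * c2) * b * (c3 * d) := by group
    _ = c1 * (c2 * a) * b * (c3 * d) := by rw [e2]
    _ = c1 * c2 * ((a * b) * c3) * d := by group
    _ = c1 * c2 * (c3 * (a * b)) * d := by rw [e3]
    _ = (c1 * c2 * c3) * (a * b * d) := by group

/-- If conjugation by `x` multiplies `l` and `m` by central elements and `l`, `m` satisfy the braid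
relation, the two central elements agree. -/
theorem braid_move (x l m ζ ζ' : Γ) (hζ : ζ ∈ Subgroup.center Γ) (hζ' : ζ' ∈ Subgroup.center Γ)
    (hl : x * l * x⁻¹ = ζ * l) (hm : x * m * x⁻¹ = ζ' * m) (hb : l * m * l = m * l * m) :
    ζ' = ζ := by
  have h1 : x * (l * m * l) * x⁻¹ = (ζ * ζ' * ζ) * (l * m * l) := by
    calc x * (l * m * l) * x⁻¹ = (x * l * x⁻¹) * (x * m * x⁻¹) * (x * l * x⁻¹) := by group
      _ = (ζ * l) * (ζ' * m) * (ζ * l) := by rw [hl, hm]
      _ = _ := central3 _ _ _ _ _ _ hζ' hζ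
  have h2 : x * (m * l * m) * x⁻¹ = (ζ' * ζ * ζ') * (m * l * m) := by
    calc x * (m * l * m) * x⁻¹ = (x * m * x⁻¹) * (x * l * x⁻¹) * (x * m * x⁻¹) := by group
      _ = (ζ' * m) * (ζ * l) * (ζ' * m) := by rw [hl, hm]
      _ = _ := central3 _ _ _ _ _ _ hζ hζ'
  rw [hb, h2] at h1
  have h3 : ζ' * ζ * ζ' = ζ * ζ' * ζ := mul_right_cancel h1
  have e : ζ * ζ' = ζ' * ζ := Subgroup.mem_center_iff.mp hζ' ζ
  rw [e] at h3
  exact mul_left_cancel h3

/-- If the square of `x` is central and conjugation by `x` multiplies `l` by a central element,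
that element is an involution. -/
theorem sq_move (x l ζ : Γ) (hζ : ζ ∈ Subgroup.center Γ) (hx : x * x ∈ Subgroup.center Γ)
    (hl : x * l * x⁻¹ = ζ * l) : ζ * ζ = 1 := by
  have h1 : (x * x) * l * (x * x)⁻¹ = l := by
    have e : l * (x * x) = (x * x) * l := Subgroup.mem_center_iff.mp hx l
    rw [← e]
    group
  have h2 : (x * x) * l * (x * x)⁻¹ = ζ * ζ * l := by
    calc (x * x) * l * (x * x)⁻¹ = x * (x * l * x⁻¹) * x⁻¹ := by group
      _ = x * (ζ * l) * x⁻¹ := by rw [hl]
      _ = (x * ζ) * l * x⁻¹ := by group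
      _ = (ζ * x) * l * x⁻¹ := by rw [Subgroup.mem_center_iff.mp hζ x]
      _ = ζ * (x * l * x⁻¹) := by group
      _ = ζ * (ζ * l) := by rw [hl]
      _ = ζ * ζ * l := by group
  rw [h1] at h2
  have h3 : 1 * l = ζ * ζ * l := by rw [one_mul]; exact h2
  exact (mul_right_cancel h3).symm

end central

section lift

variable {Γ G : Type*} [Group Γ] [Group G] (σ : Γ →* G)

/-- Lifting a generator along a braid relation. -/
theorem lift_step (hsurj : Function.Surjective σ) (hc : σ.ker ≤ Subgroup.center Γ)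
    (x : Γ) (a b : G) (hx : σ x = a) (ha : a * a = 1) (hab : a * b * a = b * a * b) :
    ∃ y : Γ, σ y = b ∧ x * y * x = y * x * y ∧ y * y = x * x := by
  obtain ⟨y0, hy0⟩ := hsurj b
  have hxx : x * x ∈ Subgroup.center Γ := by
    apply hc
    rw [MonoidHom.mem_ker, map_mul, hx, ha]
  refine ⟨(x * y0) * x * (x * y0)⁻¹, ?_, ?_, ?_⟩
  · rw [map_mul, map_mul, map_inv, map_mul, hx, hy0]
    have : a * b * a = b * (a * b) := by rw [hab]; group
    rw [this]
    group
  · set y := (x * y0) * x * (x * y0)⁻¹ with hy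
    have hσy : σ y = b := by
      rw [hy, map_mul, map_mul, map_inv, map_mul, hx, hy0]
      have : a * b * a = b * (a * b) := by rw [hab]; group
      rw [this]
      group
    have hζ : y⁻¹ * y0 ∈ Subgroup.center Γ := by
      apply hc
      rw [MonoidHom.mem_ker, map_mul, map_inv, hσy, hy0, inv_mul_cancel]
    have e : x * (y⁻¹ * y0) = (y⁻¹ * y0) * x := Subgroup.mem_center_iff.mp hζ x
    have h1 : y = (x * y) * x * (x * y)⁻¹ := by
      calc y = (x * y0) * x * (x * y0)⁻¹ := hy
        _ = (x * y) * ((y⁻¹ * y0) * x) * (y⁻¹ * y0)⁻¹ * (x * y)⁻¹ := by group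
        _ = (x * y) * (x * (y⁻¹ * y0)) * (y⁻¹ * y0)⁻¹ * (x * y)⁻¹ := by rw [e]
        _ = (x * y) * x * (x * y)⁻¹ := by group
    have h2 : y * (x * y) = (x * y) * x := eq_mul_inv_iff_mul_eq.mp h1
    calc x * y * x = y * (x * y) := h2.symm
      _ = y * x * y := by group
  · have e : (x * y0) * (x * x) = (x * x) * (x * y0) := Subgroup.mem_center_iff.mp hxx _
    calc (x * y0) * x * (x * y0)⁻¹ * ((x * y0) * x * (x * y0)⁻¹)
        = ((x * y0) * (x * x)) * (x * y0)⁻¹ := by group
      _ = ((x * x) * (x * y0)) * (x * y0)⁻¹ := by rw [e]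
      _ = x * x := by group

end lift

section graded

variable {Γ : Type} [Group Γ] (s : Γ)

/-- The central element of `Γ × ℤ` by which we divide. -/
def zeta : Γ × Multiplicative ℤ := (s, Multiplicative.ofAdd 2)

theorem zeta_zpow (n : ℤ) : zeta s ^ n = (s ^ n, Multiplicative.ofAdd (2 * n)) := by
  unfold zeta
  rw [Prod.pow_mk]
  congr 1
  rw [← ofAdd_zsmul, smul_eq_mul, mul_comm]

theorem zeta_normal (hs : s ∈ Subgroup.center Γ) : (Subgroup.zpowers (zeta s)).Normal where
  conj_mem := by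
    rintro _ ⟨n, rfl⟩ g
    refine ⟨n, ?_⟩
    show zeta s ^ n = g * zeta s ^ n * g⁻¹
    have hcomm : g * zeta s = zeta s * g := by
      unfold zeta
      ext
      · exact Subgroup.mem_center_iff.mp hs g.1
      · exact mul_comm g.2 (Multiplicative.ofAdd (2 : ℤ))
    have : g * zeta s ^ n = zeta s ^ n * g := (Commute.zpow_right hcomm n).eq
    rw [this]
    group

/-- A quotient of `Γ × ℤ` in which `(s, 2)` dies and nothing else of importance. -/
theorem graded_exists (hs : s ∈ Subgroup.center Γ) :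
    ∃ (Q : Type) (_ : Group Q) (q : Γ × Multiplicative ℤ →* Q),
      q (s, Multiplicative.ofAdd 2) = 1 ∧
      ∀ (γ : Γ) (L : ℤ), q (γ, Multiplicative.ofAdd L) = 1 → ∃ n : ℤ, L = 2 * n ∧ γ = s ^ n := by
  have := zeta_normal s hs
  refine ⟨(Γ × Multiplicative ℤ) ⧸ Subgroup.zpowers (zeta s), inferInstance,
    QuotientGroup.mk' (Subgroup.zpowers (zeta s)), ?_, ?_⟩
  · rw [QuotientGroup.mk'_apply, QuotientGroup.eq_one_iff]
    exact Subgroup.mem_zpowers (zeta s)
  · intro γ L h
    rw [QuotientGroup.mk'_apply, QuotientGroup.eq_one_iff] at h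
    obtain ⟨n, hn⟩ := h
    have hn' : zeta s ^ n = (γ, Multiplicative.ofAdd L) := hn
    rw [zeta_zpow] at hn'
    have h1 := congrArg Prod.fst hn'
    have h2 := congrArg Prod.snd hn'
    simp only at h1 h2
    exact ⟨n, (Multiplicative.ofAdd.injective h2).symm, h1.symm⟩

variable {Q : Type*} [Group Q] (q : Γ × Multiplicative ℤ →* Q)

theorem q_mul (x y : Γ) (m n : ℤ) :
    q (x, Multiplicative.ofAdd m) * q (y, Multiplicative.ofAdd n) =
      q (x * y, Multiplicative.ofAdd (m + n)) := by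
  rw [← map_mul]
  rfl

theorem q_pow (x : Γ) (m : ℤ) (k : ℕ) :
    q (x, Multiplicative.ofAdd m) ^ k = q (x ^ k, Multiplicative.ofAdd ((k : ℤ) * m)) := by
  rw [← map_pow, Prod.pow_mk, ← ofAdd_nsmul, nsmul_eq_mul]

theorem q_comm (w x : Γ) (hw : w ∈ Subgroup.center Γ) (m n : ℤ) :
    q (w, Multiplicative.ofAdd m) * q (x, Multiplicative.ofAdd n) =
      q (x, Multiplicative.ofAdd n) * q (w, Multiplicative.ofAdd m) := by
  rw [q_mul, q_mul, Subgroup.mem_center_iff.mp hw x, add_comm]

end graded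

section braid

variable {α : Type} [DecidableEq α] (edges : List (α × ℕ × α))

/-- Relations in label form from the braid form. -/
theorem cox_of_braid {M : Type*} [Group M] (Y : α → M)
    (hlab : ∀ x y : α, coxLabel edges x y = 1 ∨ coxLabel edges x y = 2 ∨ coxLabel edges x y = 3)
    (hdiag : ∀ x y : α, coxLabel edges x y = 1 → x = y)
    (hsq : ∀ x, Y x * Y x = 1)
    (h3 : ∀ x y, coxLabel edges x y = 3 → Y x * Y y * Y x = Y y * Y x * Y y)
    (h2 : ∀ x y, coxLabel edges x y = 2 → Y x * Y y = Y y * Y x) :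
    ∀ x y : α, (Y x * Y y) ^ coxLabel edges x y = 1 := by
  intro x y
  rcases hlab x y with h | h | h
  · have hxy := hdiag x y h
    subst hxy
    rw [h, pow_one]
    exact hsq x
  · rw [h, pow_two]
    calc Y x * Y y * (Y x * Y y) = Y x * Y y * (Y y * Y x) := by rw [h2 x y h]
      _ = Y x * (Y y * Y y) * Y x := by group
      _ = 1 := by rw [hsq y, mul_one, hsq x]
  · rw [h, pow_succ, pow_two]
    calc Y x * Y y * (Y x * Y y) * (Y x * Y y) = (Y x * Y y * Y x) * (Y y * Y x * Y y) := by group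
      _ = (Y y * Y x * Y y) * (Y y * Y x * Y y) := by rw [h3 x y h]
      _ = Y y * (Y x * (Y y * Y y) * Y x) * Y y := by group
      _ = 1 := by rw [hsq y, mul_one, hsq x, mul_one, hsq y]

/-- The braid form of the relations from the label form. -/
theorem braid_of_cox {M : Type*} [Group M] (Y : α → M)
    (hcox : ∀ x y : α, (Y x * Y y) ^ coxLabel edges x y = 1) :
    (∀ x, Y x * Y x = 1) ∧
    (∀ x y, coxLabel edges x y = 3 → Y x * Y y * Y x = Y y * Y x * Y y) ∧
    (∀ x y, coxLabel edges x y = 2 → Y x * Y y = Y y * Y x) := by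
  have hsq : ∀ x, Y x * Y x = 1 := by
    intro x
    have h := hcox x x
    have h1 : coxLabel edges x x = 1 := by unfold coxLabel; rw [if_pos rfl]
    rw [h1, pow_one] at h
    exact h
  have hinv : ∀ x, (Y x)⁻¹ = Y x := fun x => inv_eq_of_mul_eq_one_right (hsq x)
  refine ⟨hsq, ?_, ?_⟩
  · intro x y h
    have h1 := hcox x y
    rw [h, pow_succ, pow_two] at h1
    have h2 : Y x * Y y * Y x = (Y y * Y x * Y y)⁻¹ := by
      apply eq_inv_of_mul_eq_one_left
      rw [← h1]
      group
    rw [h2, mul_inv_rev, mul_inv_rev, hinv, hinv, mul_assoc]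
  · intro x y h
    have h1 := hcox x y
    rw [h, pow_two] at h1
    have h2 : Y x * Y y = (Y x * Y y)⁻¹ := eq_inv_of_mul_eq_one_left h1
    rw [h2, mul_inv_rev, hinv, hinv]

variable {Γ : Type} [Group Γ] {Q : Type*} [Group Q] (q : Γ × Multiplicative ℤ →* Q)

/-- Elements with a common central square and the braid relations become Coxeter generators in the
graded quotient. -/
theorem graded_cox (s : Γ) (hq : q (s, Multiplicative.ofAdd 2) = 1) (X : α → Γ)
    (hlab : ∀ x y : α, coxLabel edges x y = 1 ∨ coxLabel edges x y = 2 ∨ coxLabel edges x y = 3)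
    (hdiag : ∀ x y : α, coxLabel edges x y = 1 → x = y)
    (hsq : ∀ x, X x * X x = s)
    (h3 : ∀ x y, coxLabel edges x y = 3 → X x * X y * X x = X y * X x * X y)
    (h2 : ∀ x y, coxLabel edges x y = 2 → X x * X y = X y * X x) :
    ∀ x y : α, (q (X x, Multiplicative.ofAdd 1) * q (X y, Multiplicative.ofAdd 1)) ^
      coxLabel edges x y = 1 := by
  apply cox_of_braid edges (fun x => q (X x, Multiplicative.ofAdd 1)) hlab hdiag
  · intro x
    show q (X x, Multiplicative.ofAdd 1) * q (X x, Multiplicative.ofAdd 1) = 1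
    rw [q_mul, hsq]
    exact hq
  · intro x y h
    show q (X x, Multiplicative.ofAdd 1) * q (X y, Multiplicative.ofAdd 1) *
        q (X x, Multiplicative.ofAdd 1) = q (X y, Multiplicative.ofAdd 1) *
        q (X x, Multiplicative.ofAdd 1) * q (X y, Multiplicative.ofAdd 1)
    rw [q_mul, q_mul, q_mul, q_mul, h3 x y h]
  · intro x y h
    show q (X x, Multiplicative.ofAdd 1) * q (X y, Multiplicative.ofAdd 1) =
        q (X y, Multiplicative.ofAdd 1) * q (X x, Multiplicative.ofAdd 1)
    rw [q_mul, q_mul, h2 x y h]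

end braid

section twist

variable {Γ : Type*} [Group Γ]

/-- Collecting central factors. -/
theorem cmul (c a b : Γ) (hc : c ∈ Subgroup.center Γ) (n : ℕ) :
    (c ^ n * a) * (c * b) = c ^ (n + 1) * (a * b) := by
  have e : a * c = c * a := Subgroup.mem_center_iff.mp hc a
  calc (c ^ n * a) * (c * b) = c ^ n * (a * c) * b := by group
    _ = c ^ n * (c * a) * b := by rw [e]
    _ = c ^ (n + 1) * (a * b) := by rw [pow_succ]; group

theorem cpow (c a : Γ) (hc : c ∈ Subgroup.center Γ) (n k : ℕ) :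
    (c ^ n * a) ^ k = c ^ (n * k) * a ^ k := by
  have e : Commute c a := (Subgroup.mem_center_iff.mp hc a).symm
  rw [(e.pow_left n).mul_pow, ← pow_mul]

theorem cmul0 (c a b : Γ) (hc : c ∈ Subgroup.center Γ) :
    (c * a) * (c * b) = c ^ 2 * (a * b) := by
  have e : a * c = c * a := Subgroup.mem_center_iff.mp hc a
  calc (c * a) * (c * b) = c * (a * c) * b := by group
    _ = c * (c * a) * b := by rw [e]
    _ = c ^ 2 * (a * b) := by rw [pow_two]; group

/-- A central element whose square is the `63`-rd power of `s` gives a square root of `s`. -/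
theorem sqrt_central (s u : Γ) (hu : ∀ g, g * u = u * g) (h : u * u = s ^ 63) :
    ∃ e : Γ, e = u * (s ^ 31)⁻¹ ∧ e * e = s ∧ e ^ 63 = u := by
  refine ⟨u * (s ^ 31)⁻¹, rfl, ?_, ?_⟩
  · calc u * (s ^ 31)⁻¹ * (u * (s ^ 31)⁻¹) = u * ((s ^ 31)⁻¹ * u) * (s ^ 31)⁻¹ := by group
      _ = u * (u * (s ^ 31)⁻¹) * (s ^ 31)⁻¹ := by rw [hu]
      _ = (u * u) * (s ^ 31)⁻¹ * (s ^ 31)⁻¹ := by group
      _ = s ^ 63 * (s ^ 31)⁻¹ * (s ^ 31)⁻¹ := by rw [h]
      _ = s := by group
  · have hcomm : Commute u (s ^ 31)⁻¹ := (hu _).symm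
    have h63 : u ^ 63 = (u * u) ^ 31 * u := by
      calc u ^ 63 = u ^ (2 * 31 + 1) := by norm_num
        _ = (u * u) ^ 31 * u := by rw [pow_succ, pow_mul, pow_two]
    calc (u * (s ^ 31)⁻¹) ^ 63 = u ^ 63 * ((s ^ 31)⁻¹) ^ 63 := hcomm.mul_pow 63
      _ = (s ^ 63) ^ 31 * (u * ((s ^ 31)⁻¹) ^ 63) := by rw [h63, h, mul_assoc]
      _ = (s ^ 63) ^ 31 * (((s ^ 31)⁻¹) ^ 63 * u) := by rw [hu]
      _ = ((s ^ 63) ^ 31 * ((s ^ 31)⁻¹) ^ 63) * u := by rw [mul_assoc]
      _ = 1 * u := by
          congr 1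
          group
      _ = u := one_mul u

/-- Commutators do not see central factors. -/
theorem comm_central (n1 n2 z1 z2 : Γ) (h1 : z1 ∈ Subgroup.center Γ)
    (h2 : z2 ∈ Subgroup.center Γ) : ⁅n1 * z1, n2 * z2⁆ = ⁅n1, n2⁆ := by
  have e1 : ∀ g, g * z1 = z1 * g := Subgroup.mem_center_iff.mp h1
  have e2 : ∀ g, g * z2 = z2 * g := Subgroup.mem_center_iff.mp h2
  rw [commutatorElement_def, commutatorElement_def]
  calc n1 * z1 * (n2 * z2) * (n1 * z1)⁻¹ * (n2 * z2)⁻¹
      = n1 * (z1 * n2) * z2 * z1⁻¹ * n1⁻¹ * z2⁻¹ * n2⁻¹ := by group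
    _ = n1 * (n2 * z1) * z2 * z1⁻¹ * n1⁻¹ * z2⁻¹ * n2⁻¹ := by rw [← e1 n2]
    _ = n1 * n2 * (z1 * z2) * z1⁻¹ * n1⁻¹ * z2⁻¹ * n2⁻¹ := by group
    _ = n1 * n2 * (z2 * z1) * z1⁻¹ * n1⁻¹ * z2⁻¹ * n2⁻¹ := by rw [e2 z1]
    _ = n1 * n2 * (z2 * n1⁻¹) * z2⁻¹ * n2⁻¹ := by group
    _ = n1 * n2 * (n1⁻¹ * z2) * z2⁻¹ * n2⁻¹ := by rw [← e2 n1⁻¹]
    _ = n1 * n2 * n1⁻¹ * n2⁻¹ := by group

end twist

end Cfsg.Agent.Lib.Helper56.Stem
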