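import Mathlib
import Cfsg.Agent.Lib.Helper56.TCSimple
import Cfsg.Agent.Lib.Helper56.StemCox
import Cfsg.Agent.Lib.Helper56.ME7T.Cert
import Cfsg.Agent.Lib.Helper56.ME7S.Orb
import Cfsg.Agent.Lib.Helper56.ME7U0.Cert
import Cfsg.Agent.Lib.Helper56.ME7U1.Cert
import Cfsg.Agent.Lib.Helper56.ME7U2.Cert
import Cfsg.Agent.Lib.Helper56.ME7U3.Cert
import Cfsg.Agent.Lib.Helper56.ME7U4.Cert
import Cfsg.Agent.Lib.Helper56.ME7U5.Cert
import Cfsg.Agent.Lib.Helper56.ME7U6.Cert
set_option autoImplicit false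
set_option maxRecDepth 1000000

/-!
In a group generated by involutions satisfying the Coxeter relations of the diagram of type E7,
the eighteenth power of the product of the generators is trivial; and the corresponding statement
for elements whose squares are a common central element.
-/

namespace Cfsg.Agent.Lib.Helper56.MultE

open Cfsg.Spor Cfsg.Agent.Lib.Helper56.TC Cfsg.Agent.Lib.Helper56.TC.Tabs
open Cfsg.Agent.Lib.Helper56.Stem Cfsg.Agent.Lib.Helper56.ME7S
open Cfsg.Agent.Lib.Helper19.Cox (L L_mono mem_L L_zero)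

/-- The diagram: a path `0 - 1 - 2 - 3 - 4 - 5` with the further node `6` joined to `3`. -/
def edges : List (Fin 7 × ℕ × Fin 7) :=
  [(0, 3, 1), (1, 3, 2), (2, 3, 3), (3, 3, 4), (3, 3, 6), (4, 3, 5)]

/-- The Coxeter group of the diagram. -/
abbrev P : Type := CoxPresented (Fin 7) edges []

/-- the generators in the order of the letters -/
def gens : List (Fin 7) := [0, 1, 2, 3, 4, 5, 6]

theorem hall : ∀ x : Fin 7, x ∈ gens := by decide
theorem hnode : ∀ x ∈ gens, x ∈ coxNodes edges := by decide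
theorem hnodeAll : ∀ x : Fin 7, x ∈ coxNodes edges := by decide
theorem hlab : ∀ x y : Fin 7, coxLabel edges x y = 1 ∨ coxLabel edges x y = 2 ∨
    coxLabel edges x y = 3 := by decide
theorem hdiag : ∀ x y : Fin 7, coxLabel edges x y = 1 → x = y := by decide

/-- part 1 of the certificate of the permutation representation -/
theorem hP : ME7T.T.P1 := ME7T.cert.p1

theorem hrels : ME7T.T.rels1 =
    coxW edges gens ++ ([] : List (FreeGroup (Fin 7))).map (wordOf gens) := by
  decide +kernel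

theorem lower : 1451520 ≤ Nat.card (L (sigma hP) ME7T.T.K) := by
  have h0 := chain_step hP [] o0R 0 (by decide +kernel) o0_all o0_hg
  have e0 : o0R.m = 63 := rfl
  rw [e0] at h0
  have h1 := chain_step hP [0] o1R 1 (by decide +kernel) o1_all o1_hg
  have e1 : o1R.m = 32 := rfl
  rw [e1] at h1
  have h2 := chain_step hP [1, 0] o2R 3 (by decide +kernel) o2_all o2_hg
  have e2 : o2R.m = 15 := rfl
  rw [e2] at h2
  have h3 := chain_step hP [3, 1, 0] o3R 5 (by decide +kernel) o3_all o3_hg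
  have e3 : o3R.m = 8 := rfl
  rw [e3] at h3
  have h4 := chain_step hP [5, 3, 1, 0] o4R 8 (by decide +kernel) o4_all o4_hg
  have e4 : o4R.m = 3 := rfl
  rw [e4] at h4
  have h5 := chain_step hP [8, 5, 3, 1, 0] o5R 13 (by decide +kernel) o5_all o5_hg
  have e5 : o5R.m = 2 := rfl
  rw [e5] at h5
  have hlast : 0 < Nat.card (stabs hP [13, 8, 5, 3, 1, 0]) := Nat.card_pos
  have hfirst : Nat.card (stabs hP []) = Nat.card (L (sigma hP) ME7T.T.K) := rfl
  rw [← hfirst]
  omega

/-- the generators of the presented group as a sequence -/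
noncomputable abbrev u : ℕ → P := pgen edges [] gens

theorem hu : ∀ i, u i * u i = 1 := pgen_sq edges [] hall hnode

theorem relU : ∀ w ∈ coxW edges gens ++ ([] : List (FreeGroup (Fin 7))).map (wordOf gens),
    ew u w = 1 :=
  pgen_rel edges [] hall hnode

theorem up0 : Finite (L u 0) ∧ Nat.card (L u 0) ≤ 1 := chain_zero u

theorem sub0 : ∀ w ∈ ME7U0.T.rels1, w ∈ coxW edges gens ++ ([] : List (FreeGroup (Fin 7))).map (wordOf gens) := by
  decide +kernel

theorem up1 : Finite (L u 1) ∧ Nat.card (L u 1) ≤ 2 := by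
  have h := chain_upper u ME7U0.T 0 1 ME7U0.cert (by decide +kernel) (fun _ _ => rfl)
    (by decide +kernel) hu (fun w hw => relU w (sub0 w hw)) up0
  have e : ME7U0.T.N = 2 := rfl
  rw [e] at h
  exact ⟨h.1, le_trans h.2 (by norm_num)⟩

theorem sub1 : ∀ w ∈ ME7U1.T.rels1, w ∈ coxW edges gens ++ ([] : List (FreeGroup (Fin 7))).map (wordOf gens) := by
  decide +kernel

theorem up2 : Finite (L u 2) ∧ Nat.card (L u 2) ≤ 6 := by
  have h := chain_upper u ME7U1.T 1 2 ME7U1.cert (by decide +kernel) (fun _ _ => rfl)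
    (by decide +kernel) hu (fun w hw => relU w (sub1 w hw)) up1
  have e : ME7U1.T.N = 3 := rfl
  rw [e] at h
  exact ⟨h.1, le_trans h.2 (by norm_num)⟩

theorem sub2 : ∀ w ∈ ME7U2.T.rels1, w ∈ coxW edges gens ++ ([] : List (FreeGroup (Fin 7))).map (wordOf gens) := by
  decide +kernel

theorem up3 : Finite (L u 3) ∧ Nat.card (L u 3) ≤ 24 := by
  have h := chain_upper u ME7U2.T 2 6 ME7U2.cert (by decide +kernel) (fun _ _ => rfl)
    (by decide +kernel) hu (fun w hw => relU w (sub2 w hw)) up2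
  have e : ME7U2.T.N = 4 := rfl
  rw [e] at h
  exact ⟨h.1, le_trans h.2 (by norm_num)⟩

theorem sub3 : ∀ w ∈ ME7U3.T.rels1, w ∈ coxW edges gens ++ ([] : List (FreeGroup (Fin 7))).map (wordOf gens) := by
  decide +kernel

theorem up4 : Finite (L u 4) ∧ Nat.card (L u 4) ≤ 120 := by
  have h := chain_upper u ME7U3.T 3 24 ME7U3.cert (by decide +kernel) (fun _ _ => rfl)
    (by decide +kernel) hu (fun w hw => relU w (sub3 w hw)) up3
  have e : ME7U3.T.N = 5 := rfl
  rw [e] at h
  exact ⟨h.1, le_trans h.2 (by norm_num)⟩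

theorem sub4 : ∀ w ∈ ME7U4.T.rels1, w ∈ coxW edges gens ++ ([] : List (FreeGroup (Fin 7))).map (wordOf gens) := by
  decide +kernel

theorem up5 : Finite (L u 5) ∧ Nat.card (L u 5) ≤ 720 := by
  have h := chain_upper u ME7U4.T 4 120 ME7U4.cert (by decide +kernel) (fun _ _ => rfl)
    (by decide +kernel) hu (fun w hw => relU w (sub4 w hw)) up4
  have e : ME7U4.T.N = 6 := rfl
  rw [e] at h
  exact ⟨h.1, le_trans h.2 (by norm_num)⟩

theorem sub5 : ∀ w ∈ ME7U5.T.rels1, w ∈ coxW edges gens ++ ([] : List (FreeGroup (Fin 7))).map (wordOf gens) := by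
  decide +kernel

theorem up6 : Finite (L u 6) ∧ Nat.card (L u 6) ≤ 5040 := by
  have h := chain_upper u ME7U5.T 5 720 ME7U5.cert (by decide +kernel) (fun _ _ => rfl)
    (by decide +kernel) hu (fun w hw => relU w (sub5 w hw)) up5
  have e : ME7U5.T.N = 7 := rfl
  rw [e] at h
  exact ⟨h.1, le_trans h.2 (by norm_num)⟩

theorem sub6 : ∀ w ∈ ME7U6.T.rels1, w ∈ coxW edges gens ++ ([] : List (FreeGroup (Fin 7))).map (wordOf gens) := by
  decide +kernel

theorem up7 : Finite (L u 7) ∧ Nat.card (L u 7) ≤ 2903040 := by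
  have h := chain_upper u ME7U6.T 6 5040 ME7U6.cert (by decide +kernel) (fun _ _ => rfl)
    (by decide +kernel) hu (fun w hw => relU w (sub6 w hw)) up6
  have e : ME7U6.T.N = 576 := rfl
  rw [e] at h
  exact ⟨h.1, le_trans h.2 (by norm_num)⟩

theorem card_le : Finite P ∧ Nat.card P ≤ 2903040 := by
  obtain ⟨f, h⟩ := up7
  have htop : L u 7 = ⊤ := pgen_top edges [] hall
  rw [htop] at h f
  rw [Subgroup.card_top] at h
  exact ⟨Finite.of_equiv _ Subgroup.topEquiv.toEquiv, h⟩

/-- The eighteenth power of the product of the generators is trivial. -/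
theorem e7_key : ((PresentedGroup.of 0 : P) * PresentedGroup.of 1 * PresentedGroup.of 2 * PresentedGroup.of 3 * PresentedGroup.of 4 * PresentedGroup.of 5 * PresentedGroup.of 6) ^ 18 = 1 := by
  obtain ⟨φ, hφ⟩ := cox_hom edges [] ME7T.T hP (by decide +kernel) (by decide) hall
    (fun _ _ => rfl) hrels
  obtain ⟨hfin, hle⟩ := card_le
  have hφof : ∀ x : Fin 7, φ (PresentedGroup.of x) = sigma hP (gens.idxOf x) := by
    intro x
    rw [← pgen_idx edges [] hall x, hφ]
  have hrange : L (sigma hP) ME7T.T.K ≤ φ.range := by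
    unfold L
    rw [Subgroup.closure_le]
    rintro _ ⟨l, _, rfl⟩
    exact ⟨pgen edges [] gens l, hφ l⟩
  have h1 : 1451520 ≤ Nat.card φ.range := le_trans lower (Subgroup.card_le_of_le hrange)
  have h2 : Nat.card φ.ker * Nat.card φ.range = Nat.card P := by
    rw [← Subgroup.index_ker]
    exact Subgroup.card_mul_index φ.ker
  have h3 : Nat.card φ.ker ≤ 2 := by
    by_contra hcon
    have hcon' : 3 ≤ Nat.card φ.ker := by omega
    have h4 : 3 * 1451520 ≤ Nat.card φ.ker * Nat.card φ.range := Nat.mul_le_mul hcon' h1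
    omega
  have hpos : 0 < Nat.card φ.ker := Nat.card_pos
  have e : φ ((PresentedGroup.of 0 : P) * PresentedGroup.of 1 * PresentedGroup.of 2 * PresentedGroup.of 3 * PresentedGroup.of 4 * PresentedGroup.of 5 * PresentedGroup.of 6) = ew (sigma hP) [0, 1, 2, 3, 4, 5, 6] := by
    rw [map_mul, map_mul, map_mul, map_mul, map_mul, map_mul, hφof, hφof, hφof, hφof, hφof,
      hφof, hφof]
    simp only [ew_cons, ew_nil, mul_one, mul_assoc]
    rfl
  have hker : ((PresentedGroup.of 0 : P) * PresentedGroup.of 1 * PresentedGroup.of 2 * PresentedGroup.of 3 * PresentedGroup.of 4 * PresentedGroup.of 5 * PresentedGroup.of 6) ^ 9 ∈ φ.ker := by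
    rw [MonoidHom.mem_ker, map_pow, e]
    exact sigma_pow hP [0, 1, 2, 3, 4, 5, 6] (by decide) 9 (by decide +kernel)
  have hpow : (⟨_, hker⟩ : φ.ker) ^ Nat.card φ.ker = 1 := pow_card_eq_one'
  have hpow' : (((PresentedGroup.of 0 : P) * PresentedGroup.of 1 * PresentedGroup.of 2 * PresentedGroup.of 3 * PresentedGroup.of 4 * PresentedGroup.of 5 * PresentedGroup.of 6) ^ 9) ^ Nat.card φ.ker = 1 := by
    have h5 := congrArg Subtype.val hpow
    rw [Subgroup.coe_pow] at h5
    exact h5
  have hc : Nat.card φ.ker = 1 ∨ Nat.card φ.ker = 2 := by omega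
  rw [show (18 : ℕ) = 9 * 2 from rfl, pow_mul]
  rcases hc with hc | hc
  · rw [hc, pow_one] at hpow'
    rw [hpow', one_pow]
  · rw [hc] at hpow'
    exact hpow'

/-- In any group, involutions satisfying the relations of the diagram have a product whose
eighteenth power is trivial. -/
theorem e7_pow {M : Type*} [Group M] (Y : Fin 7 → M)
    (hcox : ∀ x y : Fin 7, (Y x * Y y) ^ coxLabel edges x y = 1) :
    (Y 0 * Y 1 * Y 2 * Y 3 * Y 4 * Y 5 * Y 6) ^ 18 = 1 := by
  obtain ⟨ψ, hψ⟩ := cox_toGroup edges [] Y hcox (fun r hr => absurd hr List.not_mem_nil)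
  have h := congrArg ψ e7_key
  rw [map_one, map_pow, map_mul, map_mul, map_mul, map_mul, map_mul, map_mul, hψ, hψ, hψ, hψ, hψ,
    hψ, hψ] at h
  exact h

/-- The version for elements whose squares are a common central element `s`. -/
theorem e7_twisted {Γ : Type} [Group Γ] (s : Γ) (hs : s ∈ Subgroup.center Γ) (X : Fin 7 → Γ)
    (hsq : ∀ x, X x * X x = s)
    (h3 : ∀ x y, coxLabel edges x y = 3 → X x * X y * X x = X y * X x * X y)
    (h2 : ∀ x y, coxLabel edges x y = 2 → X x * X y = X y * X x) :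
    (X 0 * X 1 * X 2 * X 3 * X 4 * X 5 * X 6) ^ 18 = s ^ 63 := by
  obtain ⟨Q, _, q, hq1, hq2⟩ := graded_exists s hs
  have hcox := graded_cox edges q s hq1 X hlab hdiag hsq h3 h2
  have h := e7_pow (fun x => q (X x, Multiplicative.ofAdd 1)) hcox
  simp only [q_mul, q_pow] at h
  obtain ⟨n, hn1, hn2⟩ := hq2 _ _ h
  have hn : n = 63 := by
    push_cast at hn1
    omega
  subst hn
  rw [hn2]
  exact zpow_ofNat s 63

end Cfsg.Agent.Lib.Helper56.MultE
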