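import Mathlib
import Cfsg.Agent.Lib.Helper56.TCSimple
import Cfsg.Agent.Lib.Helper56.StemCox
import Cfsg.Agent.Lib.Helper56.MYT1.Cert
import Cfsg.Agent.Lib.Helper56.MYT2.Cert
import Cfsg.Agent.Lib.Helper56.MYS.Orb
import Cfsg.Agent.Lib.Helper56.MYU0.Cert
import Cfsg.Agent.Lib.Helper56.MYU1.Cert
import Cfsg.Agent.Lib.Helper56.MYU2.Cert
import Cfsg.Agent.Lib.Helper56.MYU3.Cert
import Cfsg.Agent.Lib.Helper56.MYU4.Cert
import Cfsg.Agent.Lib.Helper56.MYU5.Cert
import Cfsg.Agent.Lib.Helper56.MYU6.Cert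
import Cfsg.Agent.Lib.Helper56.MYU7.Cert
import Cfsg.Agent.Lib.Helper56.MYU8.Cert
set_option autoImplicit false
set_option maxRecDepth 1000000

/-!
In a group generated by involutions satisfying the Coxeter relations of the diagram with three
arms of lengths 2, 3 and 4, if the tenth power of the spider element commutes with two of the
generators, it is trivial; and the corresponding statement for elements whose squares are a
common central element.
-/

namespace Cfsg.Agent.Lib.Helper56.MultY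

open Cfsg.Spor Cfsg.Agent.Lib.Helper56.TC Cfsg.Agent.Lib.Helper56.TC.Tabs
open Cfsg.Agent.Lib.Helper56.Stem Cfsg.Agent.Lib.Helper56.MYS
open Cfsg.Agent.Lib.Helper19.Cox (L L_mono mem_L L_zero)

/-- The diagram: centre `4`, arms `4 - 5 - 6`, `4 - 3 - 2 - 1 - 0` and `4 - 7 - 8`. -/
def edges : List (Fin 9 × ℕ × Fin 9) :=
  [(6, 3, 5), (5, 3, 4), (4, 3, 3), (4, 3, 7), (3, 3, 2), (2, 3, 1), (1, 3, 0), (7, 3, 8)]

/-- The spider word. -/
def vF : FreeGroup (Fin 9) :=
  FreeGroup.of (4 : Fin 9) * FreeGroup.of (5 : Fin 9) * FreeGroup.of (6 : Fin 9) * FreeGroup.of (4 : Fin 9) * FreeGroup.of (3 : Fin 9) * FreeGroup.of (2 : Fin 9) * FreeGroup.of (4 : Fin 9) * FreeGroup.of (7 : Fin 9) * FreeGroup.of (8 : Fin 9)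

/-- The tenth power of the spider word commutes with the generators `1` and `2`. -/
def extraR : List (FreeGroup (Fin 9)) :=
  [vF ^ 10 * FreeGroup.of (1 : Fin 9) * (vF ^ 10)⁻¹ * (FreeGroup.of (1 : Fin 9))⁻¹,
   vF ^ 10 * FreeGroup.of (2 : Fin 9) * (vF ^ 10)⁻¹ * (FreeGroup.of (2 : Fin 9))⁻¹]

/-- The tenth power of the spider word is trivial. -/
def extraS : List (FreeGroup (Fin 9)) := [vF ^ 10]

/-- The group in which the tenth power of the spider element commutes with two generators. -/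
abbrev R : Type := CoxPresented (Fin 9) edges extraR

/-- The group in which the tenth power of the spider element is trivial. -/
abbrev S : Type := CoxPresented (Fin 9) edges extraS

/-- the generators in the order of the letters -/
def gens : List (Fin 9) := [0, 1, 2, 3, 4, 5, 6, 7, 8]

theorem hall : ∀ x : Fin 9, x ∈ gens := by decide
theorem hnode : ∀ x ∈ gens, x ∈ coxNodes edges := by decide
theorem hnodeAll : ∀ x : Fin 9, x ∈ coxNodes edges := by decide
theorem hlab : ∀ x y : Fin 9, coxLabel edges x y = 1 ∨ coxLabel edges x y = 2 ∨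
    coxLabel edges x y = 3 := by decide
theorem hdiag : ∀ x y : Fin 9, coxLabel edges x y = 1 → x = y := by decide

/-- part 1 of the certificate of the first permutation representation -/
theorem hP1 : MYT1.T.P1 := MYT1.cert.p1

/-- part 1 of the certificate of the second permutation representation -/
theorem hP2 : MYT2.T.P1 := MYT2.cert.p1

theorem hrels1 : MYT1.T.rels1 = coxW edges gens ++ extraS.map (wordOf gens) := by
  decide +kernel

theorem hrels2 : MYT2.T.rels1 = coxW edges gens ++ extraS.map (wordOf gens) := by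
  decide +kernel

theorem lower : 9904359628800 ≤ Nat.card (L (sigma hP1) MYT1.T.K) := by
  have h0 := chain_step hP1 [] o0R 0 (by decide +kernel) o0_all o0_hg
  have e0 : o0R.m = 1080 := rfl
  rw [e0] at h0
  have h1 := chain_step hP1 [0] o1R 1 (by decide +kernel) o1_all o1_hg
  have e1 : o1R.m = 728 := rfl
  rw [e1] at h1
  have h2 := chain_step hP1 [1, 0] o2R 2 (by decide +kernel) o2_all o2_hg
  have e2 : o2R.m = 243 := rfl
  rw [e2] at h2
  have h3 := chain_step hP1 [2, 1, 0] o3R 3 (by decide +kernel) o3_all o3_hg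
  have e3 : o3R.m = 72 := rfl
  rw [e3] at h3
  have h4 := chain_step hP1 [3, 2, 1, 0] o4R 16 (by decide +kernel) o4_all o4_hg
  have e4 : o4R.m = 30 := rfl
  rw [e4] at h4
  have h5 := chain_step hP1 [16, 3, 2, 1, 0] o5R 26 (by decide +kernel) o5_all o5_hg
  have e5 : o5R.m = 12 := rfl
  rw [e5] at h5
  have h6 := chain_step hP1 [26, 16, 3, 2, 1, 0] o6R 4 (by decide +kernel) o6_all o6_hg
  have e6 : o6R.m = 2 := rfl
  rw [e6] at h6
  have hlast : 0 < Nat.card (stabs hP1 [4, 26, 16, 3, 2, 1, 0]) := Nat.card_pos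
  have hfirst : Nat.card (stabs hP1 []) = Nat.card (L (sigma hP1) MYT1.T.K) := rfl
  rw [← hfirst]
  omega

theorem lift_vF {M : Type*} [Group M] (Y : Fin 9 → M) :
    FreeGroup.lift Y vF = Y 4 * Y 5 * Y 6 * Y 4 * Y 3 * Y 2 * Y 4 * Y 7 * Y 8 := by
  unfold vF
  rw [map_mul, map_mul, map_mul, map_mul, map_mul, map_mul, map_mul, map_mul]
  simp only [FreeGroup.lift_apply_of]

theorem lift_extraR {M : Type*} [Group M] (Y : Fin 9 → M)
    (hc1 : (Y 4 * Y 5 * Y 6 * Y 4 * Y 3 * Y 2 * Y 4 * Y 7 * Y 8) ^ 10 * Y 1 = Y 1 * (Y 4 * Y 5 * Y 6 * Y 4 * Y 3 * Y 2 * Y 4 * Y 7 * Y 8) ^ 10)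
    (hc2 : (Y 4 * Y 5 * Y 6 * Y 4 * Y 3 * Y 2 * Y 4 * Y 7 * Y 8) ^ 10 * Y 2 = Y 2 * (Y 4 * Y 5 * Y 6 * Y 4 * Y 3 * Y 2 * Y 4 * Y 7 * Y 8) ^ 10) :
    ∀ r ∈ extraR, FreeGroup.lift Y r = 1 := by
  intro r hr
  unfold extraR at hr
  rw [List.mem_cons, List.mem_singleton] at hr
  rcases hr with rfl | rfl
  · rw [map_mul, map_mul, map_mul, map_inv, map_inv, map_pow, lift_vF, FreeGroup.lift_apply_of,
      hc1, mul_inv_cancel_right, mul_inv_cancel]
  · rw [map_mul, map_mul, map_mul, map_inv, map_inv, map_pow, lift_vF, FreeGroup.lift_apply_of,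
      hc2, mul_inv_cancel_right, mul_inv_cancel]

/-! ### The order of the second group is at least the bound -/

theorem cardS_ge [Finite S] : 19808719257600 ≤ Nat.card S := by
  obtain ⟨φ1, hφ1⟩ := cox_hom edges extraS MYT1.T hP1 (by decide +kernel) (by decide) hall
    (fun _ _ => rfl) hrels1
  obtain ⟨φ2, hφ2⟩ := cox_hom edges extraS MYT2.T hP2 (by decide +kernel) (by decide) hall
    (fun _ _ => rfl) hrels2
  have hφof1 : ∀ x : Fin 9, φ1 (PresentedGroup.of x) = sigma hP1 (gens.idxOf x) := by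
    intro x
    rw [← pgen_idx edges extraS hall x, hφ1]
  have hφof2 : ∀ x : Fin 9, φ2 (PresentedGroup.of x) = sigma hP2 (gens.idxOf x) := by
    intro x
    rw [← pgen_idx edges extraS hall x, hφ2]
  have hrange : L (sigma hP1) MYT1.T.K ≤ φ1.range := by
    unfold L
    rw [Subgroup.closure_le]
    rintro _ ⟨l, _, rfl⟩
    exact ⟨pgen edges extraS gens l, hφ1 l⟩
  have h1 : 9904359628800 ≤ Nat.card φ1.range := le_trans lower (Subgroup.card_le_of_le hrange)
  have h2 : Nat.card φ1.ker * Nat.card φ1.range = Nat.card S := by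
    rw [← Subgroup.index_ker]
    exact Subgroup.card_mul_index φ1.ker
  have e1 : φ1 ((PresentedGroup.of 0 : S) * PresentedGroup.of 1 * PresentedGroup.of 2 * PresentedGroup.of 3 * PresentedGroup.of 4 * PresentedGroup.of 5 * PresentedGroup.of 6 * PresentedGroup.of 7) = ew (sigma hP1) [0, 1, 2, 3, 4, 5, 6, 7] := by
    rw [map_mul, map_mul, map_mul, map_mul, map_mul, map_mul, map_mul, hφof1, hφof1, hφof1,
      hφof1, hφof1, hφof1, hφof1, hφof1]
    simp only [ew_cons, ew_nil, mul_one, mul_assoc]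
    rfl
  have e2 : φ2 ((PresentedGroup.of 0 : S) * PresentedGroup.of 1 * PresentedGroup.of 2 * PresentedGroup.of 3 * PresentedGroup.of 4 * PresentedGroup.of 5 * PresentedGroup.of 6 * PresentedGroup.of 7) = ew (sigma hP2) [0, 1, 2, 3, 4, 5, 6, 7] := by
    rw [map_mul, map_mul, map_mul, map_mul, map_mul, map_mul, map_mul, hφof2, hφof2, hφof2,
      hφof2, hφof2, hφof2, hφof2, hφof2]
    simp only [ew_cons, ew_nil, mul_one, mul_assoc]
    rfl
  have hker : ((PresentedGroup.of 0 : S) * PresentedGroup.of 1 * PresentedGroup.of 2 * PresentedGroup.of 3 * PresentedGroup.of 4 * PresentedGroup.of 5 * PresentedGroup.of 6 * PresentedGroup.of 7) ^ 15 ∈ φ1.ker := by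
    rw [MonoidHom.mem_ker, map_pow, e1]
    exact sigma_pow hP1 [0, 1, 2, 3, 4, 5, 6, 7] (by decide) 15 (by decide +kernel)
  have hne : ((PresentedGroup.of 0 : S) * PresentedGroup.of 1 * PresentedGroup.of 2 * PresentedGroup.of 3 * PresentedGroup.of 4 * PresentedGroup.of 5 * PresentedGroup.of 6 * PresentedGroup.of 7) ^ 15 ≠ 1 := by
    intro hW
    have h3 := congrArg φ2 hW
    rw [map_one, map_pow, e2, ← ew_rep] at h3
    have h4 := ew_sigma hP2 (List.replicate 15 [0, 1, 2, 3, 4, 5, 6, 7]).flatten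
      (by decide +kernel) (ptOf hP2 0)
    rw [h3, Equiv.Perm.one_apply, ptOf_val hP2 0 hP2.hN] at h4
    exact absurd h4 (by decide +kernel)
  have hnt : Nontrivial φ1.ker :=
    ⟨⟨⟨_, hker⟩, 1, fun h => hne (congrArg Subtype.val h)⟩⟩
  have h5 : 1 < Nat.card φ1.ker := Finite.one_lt_card_iff_nontrivial.mpr hnt
  have h6 : 2 * 9904359628800 ≤ Nat.card φ1.ker * Nat.card φ1.range := Nat.mul_le_mul h5 h1
  omega

/-! ### The order of the first group is at most the bound -/

/-- the generators of the first presented group as a sequence -/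
noncomputable abbrev u : ℕ → R := pgen edges extraR gens

theorem hu : ∀ i, u i * u i = 1 := pgen_sq edges extraR hall hnode

theorem relU : ∀ w ∈ coxW edges gens ++ extraR.map (wordOf gens), ew u w = 1 :=
  pgen_rel edges extraR hall hnode

theorem up0 : Finite (L u 0) ∧ Nat.card (L u 0) ≤ 1 := chain_zero u

theorem sub0 : ∀ w ∈ MYU0.T.rels1, w ∈ coxW edges gens ++ extraR.map (wordOf gens) := by
  decide +kernel

theorem up1 : Finite (L u 1) ∧ Nat.card (L u 1) ≤ 2 := by
  have h := chain_upper u MYU0.T 0 1 MYU0.cert (by decide +kernel) (fun _ _ => rfl)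
    (by decide +kernel) hu (fun w hw => relU w (sub0 w hw)) up0
  have e : MYU0.T.N = 2 := rfl
  rw [e] at h
  exact ⟨h.1, le_trans h.2 (by norm_num)⟩

theorem sub1 : ∀ w ∈ MYU1.T.rels1, w ∈ coxW edges gens ++ extraR.map (wordOf gens) := by
  decide +kernel

theorem up2 : Finite (L u 2) ∧ Nat.card (L u 2) ≤ 6 := by
  have h := chain_upper u MYU1.T 1 2 MYU1.cert (by decide +kernel) (fun _ _ => rfl)
    (by decide +kernel) hu (fun w hw => relU w (sub1 w hw)) up1
  have e : MYU1.T.N = 3 := rfl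
  rw [e] at h
  exact ⟨h.1, le_trans h.2 (by norm_num)⟩

theorem sub2 : ∀ w ∈ MYU2.T.rels1, w ∈ coxW edges gens ++ extraR.map (wordOf gens) := by
  decide +kernel

theorem up3 : Finite (L u 3) ∧ Nat.card (L u 3) ≤ 24 := by
  have h := chain_upper u MYU2.T 2 6 MYU2.cert (by decide +kernel) (fun _ _ => rfl)
    (by decide +kernel) hu (fun w hw => relU w (sub2 w hw)) up2
  have e : MYU2.T.N = 4 := rfl
  rw [e] at h
  exact ⟨h.1, le_trans h.2 (by norm_num)⟩

theorem sub3 : ∀ w ∈ MYU3.T.rels1, w ∈ coxW edges gens ++ extraR.map (wordOf gens) := by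
  decide +kernel

theorem up4 : Finite (L u 4) ∧ Nat.card (L u 4) ≤ 120 := by
  have h := chain_upper u MYU3.T 3 24 MYU3.cert (by decide +kernel) (fun _ _ => rfl)
    (by decide +kernel) hu (fun w hw => relU w (sub3 w hw)) up3
  have e : MYU3.T.N = 5 := rfl
  rw [e] at h
  exact ⟨h.1, le_trans h.2 (by norm_num)⟩

theorem sub4 : ∀ w ∈ MYU4.T.rels1, w ∈ coxW edges gens ++ extraR.map (wordOf gens) := by
  decide +kernel

theorem up5 : Finite (L u 5) ∧ Nat.card (L u 5) ≤ 720 := by
  have h := chain_upper u MYU4.T 4 120 MYU4.cert (by decide +kernel) (fun _ _ => rfl)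
    (by decide +kernel) hu (fun w hw => relU w (sub4 w hw)) up4
  have e : MYU4.T.N = 6 := rfl
  rw [e] at h
  exact ⟨h.1, le_trans h.2 (by norm_num)⟩

theorem sub5 : ∀ w ∈ MYU5.T.rels1, w ∈ coxW edges gens ++ extraR.map (wordOf gens) := by
  decide +kernel

theorem up6 : Finite (L u 6) ∧ Nat.card (L u 6) ≤ 5040 := by
  have h := chain_upper u MYU5.T 5 720 MYU5.cert (by decide +kernel) (fun _ _ => rfl)
    (by decide +kernel) hu (fun w hw => relU w (sub5 w hw)) up5
  have e : MYU5.T.N = 7 := rfl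
  rw [e] at h
  exact ⟨h.1, le_trans h.2 (by norm_num)⟩

theorem sub6 : ∀ w ∈ MYU6.T.rels1, w ∈ coxW edges gens ++ extraR.map (wordOf gens) := by
  decide +kernel

theorem up7 : Finite (L u 7) ∧ Nat.card (L u 7) ≤ 40320 := by
  have h := chain_upper u MYU6.T 6 5040 MYU6.cert (by decide +kernel) (fun _ _ => rfl)
    (by decide +kernel) hu (fun w hw => relU w (sub6 w hw)) up6
  have e : MYU6.T.N = 8 := rfl
  rw [e] at h
  exact ⟨h.1, le_trans h.2 (by norm_num)⟩

theorem sub7 : ∀ w ∈ MYU7.T.rels1, w ∈ coxW edges gens ++ extraR.map (wordOf gens) := by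
  decide +kernel

theorem up8 : Finite (L u 8) ∧ Nat.card (L u 8) ≤ 696729600 := by
  have h := chain_upper u MYU7.T 7 40320 MYU7.cert (by decide +kernel) (fun _ _ => rfl)
    (by decide +kernel) hu (fun w hw => relU w (sub7 w hw)) up7
  have e : MYU7.T.N = 17280 := rfl
  rw [e] at h
  exact ⟨h.1, le_trans h.2 (by norm_num)⟩

theorem sub8 : ∀ w ∈ MYU8.T.rels1, w ∈ coxW edges gens ++ extraR.map (wordOf gens) := by
  decide +kernel

theorem up9 : Finite (L u 9) ∧ Nat.card (L u 9) ≤ 19808719257600 := by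
  have h := chain_upper u MYU8.T 8 696729600 MYU8.cert (by decide +kernel) (fun _ _ => rfl)
    (by decide +kernel) hu (fun w hw => relU w (sub8 w hw)) up8
  have e : MYU8.T.N = 28431 := rfl
  rw [e] at h
  exact ⟨h.1, le_trans h.2 (by norm_num)⟩

theorem cardR_le : Finite R ∧ Nat.card R ≤ 19808719257600 := by
  obtain ⟨f, h⟩ := up9
  have htop : L u 9 = ⊤ := pgen_top edges extraR hall
  rw [htop] at h f
  rw [Subgroup.card_top] at h
  exact ⟨Finite.of_equiv _ Subgroup.topEquiv.toEquiv, h⟩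

/-- In the first group the tenth power of the spider element is trivial. -/
theorem r_key : ((PresentedGroup.of 4 : R) * PresentedGroup.of 5 * PresentedGroup.of 6 * PresentedGroup.of 4 * PresentedGroup.of 3 * PresentedGroup.of 2 * PresentedGroup.of 4 * PresentedGroup.of 7 * PresentedGroup.of 8) ^ 10 = 1 := by
  obtain ⟨hfinR, hleR⟩ := cardR_le
  have hvS : ((PresentedGroup.of 4 : S) * PresentedGroup.of 5 * PresentedGroup.of 6 * PresentedGroup.of 4 * PresentedGroup.of 3 * PresentedGroup.of 2 * PresentedGroup.of 4 * PresentedGroup.of 7 * PresentedGroup.of 8) ^ 10 = 1 := by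
    have h := lift_extra edges extraS (vF ^ 10) (List.mem_singleton.mpr rfl)
    rw [map_pow, lift_vF] at h
    exact h
  obtain ⟨π, hπ⟩ := cox_toGroup edges extraR (fun x => (PresentedGroup.of x : S))
    (of_cox edges extraS hnodeAll)
    (lift_extraR (fun x => (PresentedGroup.of x : S)) (by rw [hvS, one_mul, mul_one])
      (by rw [hvS, one_mul, mul_one]))
  have hsurj : Function.Surjective π := by
    rw [← MonoidHom.range_eq_top, eq_top_iff,
      ← PresentedGroup.closure_range_of (coxRelators edges ∪ {r | r ∈ extraS}),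
      Subgroup.closure_le]
    rintro _ ⟨x, rfl⟩
    exact ⟨PresentedGroup.of x, hπ x⟩
  have : Finite S := Finite.of_surjective π hsurj
  have hbij := hsurj.bijective_of_nat_card_le (le_trans hleR cardS_ge)
  apply hbij.1
  simp only [map_one, map_pow, map_mul, hπ]
  exact hvS

/-- In any group, if involutions satisfy the relations of the diagram and the tenth power of the
spider element commutes with the generators `1` and `2`, that power is trivial. -/
theorem y_key {M : Type*} [Group M] (Y : Fin 9 → M)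
    (hcox : ∀ x y : Fin 9, (Y x * Y y) ^ coxLabel edges x y = 1)
    (hc1 : (Y 4 * Y 5 * Y 6 * Y 4 * Y 3 * Y 2 * Y 4 * Y 7 * Y 8) ^ 10 * Y 1 = Y 1 * (Y 4 * Y 5 * Y 6 * Y 4 * Y 3 * Y 2 * Y 4 * Y 7 * Y 8) ^ 10)
    (hc2 : (Y 4 * Y 5 * Y 6 * Y 4 * Y 3 * Y 2 * Y 4 * Y 7 * Y 8) ^ 10 * Y 2 = Y 2 * (Y 4 * Y 5 * Y 6 * Y 4 * Y 3 * Y 2 * Y 4 * Y 7 * Y 8) ^ 10) :
    (Y 4 * Y 5 * Y 6 * Y 4 * Y 3 * Y 2 * Y 4 * Y 7 * Y 8) ^ 10 = 1 := by
  obtain ⟨ψ, hψ⟩ := cox_toGroup edges extraR Y hcox (lift_extraR Y hc1 hc2)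
  have h := congrArg ψ r_key
  simp only [map_one, map_pow, map_mul, hψ] at h
  exact h

/-- The version for elements whose squares are a common central element `s`. -/
theorem y_twisted {Γ : Type} [Group Γ] (s : Γ) (hs : s ∈ Subgroup.center Γ) (X : Fin 9 → Γ)
    (hsq : ∀ x, X x * X x = s)
    (h3 : ∀ x y, coxLabel edges x y = 3 → X x * X y * X x = X y * X x * X y)
    (h2 : ∀ x y, coxLabel edges x y = 2 → X x * X y = X y * X x)
    (hw : (X 4 * X 5 * X 6 * X 4 * X 3 * X 2 * X 4 * X 7 * X 8) ^ 10 ∈ Subgroup.center Γ) :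
    (X 4 * X 5 * X 6 * X 4 * X 3 * X 2 * X 4 * X 7 * X 8) ^ 10 = s ^ 45 := by
  obtain ⟨Q, _, q, hq1, hq2⟩ := graded_exists s hs
  have hcox := graded_cox edges q s hq1 X hlab hdiag hsq h3 h2
  have hV : (q (X 4, Multiplicative.ofAdd 1) * q (X 5, Multiplicative.ofAdd 1) * q (X 6, Multiplicative.ofAdd 1) * q (X 4, Multiplicative.ofAdd 1) * q (X 3, Multiplicative.ofAdd 1) * q (X 2, Multiplicative.ofAdd 1) * q (X 4, Multiplicative.ofAdd 1) * q (X 7, Multiplicative.ofAdd 1) * q (X 8, Multiplicative.ofAdd 1)) ^ 10 =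
      q ((X 4 * X 5 * X 6 * X 4 * X 3 * X 2 * X 4 * X 7 * X 8) ^ 10, Multiplicative.ofAdd (((10 : ℕ) : ℤ) * (1 + 1 + 1 + 1 + 1 + 1 + 1 + 1 + 1))) := by
    simp only [q_mul, q_pow]
  have hcomm : ∀ x : Fin 9, (q (X 4, Multiplicative.ofAdd 1) * q (X 5, Multiplicative.ofAdd 1) * q (X 6, Multiplicative.ofAdd 1) * q (X 4, Multiplicative.ofAdd 1) * q (X 3, Multiplicative.ofAdd 1) * q (X 2, Multiplicative.ofAdd 1) * q (X 4, Multiplicative.ofAdd 1) * q (X 7, Multiplicative.ofAdd 1) * q (X 8, Multiplicative.ofAdd 1)) ^ 10 * q (X x, Multiplicative.ofAdd 1) =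
      q (X x, Multiplicative.ofAdd 1) * (q (X 4, Multiplicative.ofAdd 1) * q (X 5, Multiplicative.ofAdd 1) * q (X 6, Multiplicative.ofAdd 1) * q (X 4, Multiplicative.ofAdd 1) * q (X 3, Multiplicative.ofAdd 1) * q (X 2, Multiplicative.ofAdd 1) * q (X 4, Multiplicative.ofAdd 1) * q (X 7, Multiplicative.ofAdd 1) * q (X 8, Multiplicative.ofAdd 1)) ^ 10 := by
    intro x
    rw [hV]
    exact q_comm q _ _ hw _ _
  have h := y_key (fun x => q (X x, Multiplicative.ofAdd 1)) hcox (hcomm 1) (hcomm 2)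
  rw [hV] at h
  obtain ⟨n, hn1, hn2⟩ := hq2 _ _ h
  have hn : n = 45 := by
    push_cast at hn1
    omega
  subst hn
  rw [hn2]
  exact zpow_ofNat s 45

end Cfsg.Agent.Lib.Helper56.MultY
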