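import Mathlib
import Cfsg.Prelude.Def_Spor_Fi23
import Cfsg.Prelude.Def_KGroupFacts
import Cfsg.Agent.Lib.Helper56.StemCox
import Cfsg.Agent.Lib.Helper56.MultE
import Cfsg.Agent.Lib.Helper56.MultY
set_option autoImplicit false
set_option maxRecDepth 100000

/-!
A central extension of the presented group `Cfsg.Spor.Fi23` whose kernel lies in the commutator
subgroup is trivial: the generators lift to elements satisfying all the relations.
-/

namespace Cfsg.Agent.Lib.Helper56.Fi23Mult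

open Cfsg.Spor Cfsg.Agent.Lib.Helper56.Stem
open scoped commutatorElement

theorem hnodeAll : ∀ x : Fi23.Gen, x ∈ coxNodes Fi23.edges := by
  intro x
  cases x <;> decide

theorem hlab : ∀ x y : Fi23.Gen, coxLabel Fi23.edges x y = 1 ∨ coxLabel Fi23.edges x y = 2 ∨
    coxLabel Fi23.edges x y = 3 := by
  intro x y
  cases x <;> cases y <;> decide

theorem hdiag : ∀ x y : Fi23.Gen, coxLabel Fi23.edges x y = 1 → x = y := by
  intro x y
  cases x <;> cases y <;> decide

/-- the nodes of the subdiagram of type E7 -/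
def i7 (i : Fin 7) : Fi23.Gen :=
  [Fi23.Gen.a, Fi23.Gen.b, Fi23.Gen.c, Fi23.Gen.d, Fi23.Gen.e, Fi23.Gen.f, Fi23.Gen.h].getD i.val Fi23.Gen.a

/-- the nodes of the subdiagram with arms of lengths 2, 4 and 2 -/
def i9 (i : Fin 9) : Fi23.Gen :=
  [Fi23.Gen.j, Fi23.Gen.g, Fi23.Gen.f, Fi23.Gen.e, Fi23.Gen.d, Fi23.Gen.c, Fi23.Gen.b, Fi23.Gen.h, Fi23.Gen.i].getD i.val Fi23.Gen.a

theorem lab7 : ∀ x y : Fin 7, coxLabel MultE.edges x y = coxLabel Fi23.edges (i7 x) (i7 y) := by
  decide

theorem lab9 : ∀ x y : Fin 9, coxLabel MultY.edges x y = coxLabel Fi23.edges (i9 x) (i9 y) := by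
  decide

theorem fi_cox : ∀ x y : Fi23.Gen, ((PresentedGroup.of x : Fi23) * PresentedGroup.of y) ^
    coxLabel Fi23.edges x y = 1 :=
  of_cox Fi23.edges Fi23.extra hnodeAll

/-- The spider relation in the presented group. -/
theorem fi_r1 : ((PresentedGroup.of Fi23.Gen.d : Fi23) * PresentedGroup.of Fi23.Gen.c * PresentedGroup.of Fi23.Gen.b * PresentedGroup.of Fi23.Gen.d * PresentedGroup.of Fi23.Gen.e * PresentedGroup.of Fi23.Gen.f * PresentedGroup.of Fi23.Gen.d * PresentedGroup.of Fi23.Gen.h * PresentedGroup.of Fi23.Gen.i) ^ 10 = 1 := by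
  have h := lift_extra Fi23.edges Fi23.extra ((FreeGroup.of Fi23.Gen.d * FreeGroup.of Fi23.Gen.c * FreeGroup.of Fi23.Gen.b * FreeGroup.of Fi23.Gen.d * FreeGroup.of Fi23.Gen.e * FreeGroup.of Fi23.Gen.f * FreeGroup.of Fi23.Gen.d * FreeGroup.of Fi23.Gen.h * FreeGroup.of Fi23.Gen.i) ^ 10) List.mem_cons_self
  simp only [map_pow, map_mul, FreeGroup.lift_apply_of] at h
  exact h

/-- The relation of type E7 in the presented group. -/
theorem fi_r2 : ((PresentedGroup.of Fi23.Gen.a : Fi23) * PresentedGroup.of Fi23.Gen.b * PresentedGroup.of Fi23.Gen.c * PresentedGroup.of Fi23.Gen.d * PresentedGroup.of Fi23.Gen.e * PresentedGroup.of Fi23.Gen.f * PresentedGroup.of Fi23.Gen.h) ^ 9 = 1 := by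
  have h := lift_extra Fi23.edges Fi23.extra ((FreeGroup.of Fi23.Gen.a * FreeGroup.of Fi23.Gen.b * FreeGroup.of Fi23.Gen.c * FreeGroup.of Fi23.Gen.d * FreeGroup.of Fi23.Gen.e * FreeGroup.of Fi23.Gen.f * FreeGroup.of Fi23.Gen.h) ^ 9)
    (List.mem_cons_of_mem _ List.mem_cons_self)
  simp only [map_pow, map_mul, FreeGroup.lift_apply_of] at h
  exact h

/-- The commutator of two lifts. -/
def zc {Γ : Type} [Group Γ] (X : Fi23.Gen → Γ) (k l : Fi23.Gen) : Γ :=
  X k * X l * (X k)⁻¹ * (X l)⁻¹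

section ext

variable {Γ : Type} [Group Γ] (σ : Γ →* Fi23)

/-- Lifts of the generators which satisfy the braid relations and have a common square. -/
theorem exists_lifts (hsurj : Function.Surjective σ) (hc : σ.ker ≤ Subgroup.center Γ) :
    ∃ X : Fi23.Gen → Γ, (∀ k, σ (X k) = PresentedGroup.of k) ∧
      (∀ k, X k * X k = X Fi23.Gen.j * X Fi23.Gen.j) ∧
      (∀ k l, coxLabel Fi23.edges k l = 3 → X k * X l * X k = X l * X k * X l) := by
  obtain ⟨hsq, hbr, -⟩ := braid_of_cox Fi23.edges (fun x => (PresentedGroup.of x : Fi23)) fi_cox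
  obtain ⟨xj, hxj⟩ := hsurj (PresentedGroup.of Fi23.Gen.j)
  obtain ⟨xg, hxg, bjg, sg⟩ := lift_step σ hsurj hc xj _ (PresentedGroup.of Fi23.Gen.g)
    hxj (hsq Fi23.Gen.j) (hbr Fi23.Gen.j Fi23.Gen.g (by decide))
  have sg' : xg * xg = xj * xj := sg
  obtain ⟨xf, hxf, bgf, sf⟩ := lift_step σ hsurj hc xg _ (PresentedGroup.of Fi23.Gen.f)
    hxg (hsq Fi23.Gen.g) (hbr Fi23.Gen.g Fi23.Gen.f (by decide))
  have sf' : xf * xf = xj * xj := sf.trans sg'
  obtain ⟨xe, hxe, bfe, se⟩ := lift_step σ hsurj hc xf _ (PresentedGroup.of Fi23.Gen.e)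
    hxf (hsq Fi23.Gen.f) (hbr Fi23.Gen.f Fi23.Gen.e (by decide))
  have se' : xe * xe = xj * xj := se.trans sf'
  obtain ⟨xd, hxd, bed, sd⟩ := lift_step σ hsurj hc xe _ (PresentedGroup.of Fi23.Gen.d)
    hxe (hsq Fi23.Gen.e) (hbr Fi23.Gen.e Fi23.Gen.d (by decide))
  have sd' : xd * xd = xj * xj := sd.trans se'
  obtain ⟨xc, hxc, bdc, sc⟩ := lift_step σ hsurj hc xd _ (PresentedGroup.of Fi23.Gen.c)
    hxd (hsq Fi23.Gen.d) (hbr Fi23.Gen.d Fi23.Gen.c (by decide))
  have sc' : xc * xc = xj * xj := sc.trans sd'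
  obtain ⟨xb, hxb, bcb, sb⟩ := lift_step σ hsurj hc xc _ (PresentedGroup.of Fi23.Gen.b)
    hxc (hsq Fi23.Gen.c) (hbr Fi23.Gen.c Fi23.Gen.b (by decide))
  have sb' : xb * xb = xj * xj := sb.trans sc'
  obtain ⟨xa, hxa, bba, sa⟩ := lift_step σ hsurj hc xb _ (PresentedGroup.of Fi23.Gen.a)
    hxb (hsq Fi23.Gen.b) (hbr Fi23.Gen.b Fi23.Gen.a (by decide))
  have sa' : xa * xa = xj * xj := sa.trans sb'
  obtain ⟨xh, hxh, bdh, sh⟩ := lift_step σ hsurj hc xd _ (PresentedGroup.of Fi23.Gen.h)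
    hxd (hsq Fi23.Gen.d) (hbr Fi23.Gen.d Fi23.Gen.h (by decide))
  have sh' : xh * xh = xj * xj := sh.trans sd'
  obtain ⟨xi, hxi, bhi, si⟩ := lift_step σ hsurj hc xh _ (PresentedGroup.of Fi23.Gen.i)
    hxh (hsq Fi23.Gen.h) (hbr Fi23.Gen.h Fi23.Gen.i (by decide))
  have si' : xi * xi = xj * xj := si.trans sh'
  refine ⟨fun k => match k with | .a => xa | .b => xb | .c => xc | .d => xd | .e => xe | .f => xf | .g => xg | .j => xj | .h => xh | .i => xi, ?_, ?_, ?_⟩
  · intro k
    cases k with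
    | a => exact hxa
    | b => exact hxb
    | c => exact hxc
    | d => exact hxd
    | e => exact hxe
    | f => exact hxf
    | g => exact hxg
    | j => exact hxj
    | h => exact hxh
    | i => exact hxi
  · intro k
    cases k with
    | a => exact sa'
    | b => exact sb'
    | c => exact sc'
    | d => exact sd'
    | e => exact se'
    | f => exact sf'
    | g => exact sg'
    | j => rfl
    | h => exact sh'
    | i => exact si'
  · intro k l h
    cases k with
    | a =>
      cases l with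
      | a => exact absurd h (by decide)
      | b => exact bba.symm
      | c => exact absurd h (by decide)
      | d => exact absurd h (by decide)
      | e => exact absurd h (by decide)
      | f => exact absurd h (by decide)
      | g => exact absurd h (by decide)
      | j => exact absurd h (by decide)
      | h => exact absurd h (by decide)
      | i => exact absurd h (by decide)
    | b =>
      cases l with
      | a => exact bba
      | b => exact absurd h (by decide)
      | c => exact bcb.symm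
      | d => exact absurd h (by decide)
      | e => exact absurd h (by decide)
      | f => exact absurd h (by decide)
      | g => exact absurd h (by decide)
      | j => exact absurd h (by decide)
      | h => exact absurd h (by decide)
      | i => exact absurd h (by decide)
    | c =>
      cases l with
      | a => exact absurd h (by decide)
      | b => exact bcb
      | c => exact absurd h (by decide)
      | d => exact bdc.symm
      | e => exact absurd h (by decide)
      | f => exact absurd h (by decide)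
      | g => exact absurd h (by decide)
      | j => exact absurd h (by decide)
      | h => exact absurd h (by decide)
      | i => exact absurd h (by decide)
    | d =>
      cases l with
      | a => exact absurd h (by decide)
      | b => exact absurd h (by decide)
      | c => exact bdc
      | d => exact absurd h (by decide)
      | e => exact bed.symm
      | f => exact absurd h (by decide)
      | g => exact absurd h (by decide)
      | j => exact absurd h (by decide)
      | h => exact bdh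
      | i => exact absurd h (by decide)
    | e =>
      cases l with
      | a => exact absurd h (by decide)
      | b => exact absurd h (by decide)
      | c => exact absurd h (by decide)
      | d => exact bed
      | e => exact absurd h (by decide)
      | f => exact bfe.symm
      | g => exact absurd h (by decide)
      | j => exact absurd h (by decide)
      | h => exact absurd h (by decide)
      | i => exact absurd h (by decide)
    | f =>
      cases l with
      | a => exact absurd h (by decide)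
      | b => exact absurd h (by decide)
      | c => exact absurd h (by decide)
      | d => exact absurd h (by decide)
      | e => exact bfe
      | f => exact absurd h (by decide)
      | g => exact bgf.symm
      | j => exact absurd h (by decide)
      | h => exact absurd h (by decide)
      | i => exact absurd h (by decide)
    | g =>
      cases l with
      | a => exact absurd h (by decide)
      | b => exact absurd h (by decide)
      | c => exact absurd h (by decide)
      | d => exact absurd h (by decide)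
      | e => exact absurd h (by decide)
      | f => exact bgf
      | g => exact absurd h (by decide)
      | j => exact bjg.symm
      | h => exact absurd h (by decide)
      | i => exact absurd h (by decide)
    | j =>
      cases l with
      | a => exact absurd h (by decide)
      | b => exact absurd h (by decide)
      | c => exact absurd h (by decide)
      | d => exact absurd h (by decide)
      | e => exact absurd h (by decide)
      | f => exact absurd h (by decide)
      | g => exact bjg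
      | j => exact absurd h (by decide)
      | h => exact absurd h (by decide)
      | i => exact absurd h (by decide)
    | h =>
      cases l with
      | a => exact absurd h (by decide)
      | b => exact absurd h (by decide)
      | c => exact absurd h (by decide)
      | d => exact bdh.symm
      | e => exact absurd h (by decide)
      | f => exact absurd h (by decide)
      | g => exact absurd h (by decide)
      | j => exact absurd h (by decide)
      | h => exact absurd h (by decide)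
      | i => exact bhi
    | i =>
      cases l with
      | a => exact absurd h (by decide)
      | b => exact absurd h (by decide)
      | c => exact absurd h (by decide)
      | d => exact absurd h (by decide)
      | e => exact absurd h (by decide)
      | f => exact absurd h (by decide)
      | g => exact absurd h (by decide)
      | j => exact absurd h (by decide)
      | h => exact bhi.symm
      | i => exact absurd h (by decide)

/-- The lifts commute when the nodes are not joined. -/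
theorem lifts_commute (hc : σ.ker ≤ Subgroup.center Γ) (X : Fi23.Gen → Γ)
    (hσ : ∀ k, σ (X k) = PresentedGroup.of k)
    (hsqX : ∀ k, X k * X k = X Fi23.Gen.j * X Fi23.Gen.j)
    (hbrX : ∀ k l, coxLabel Fi23.edges k l = 3 → X k * X l * X k = X l * X k * X l) :
    ∀ k l, coxLabel Fi23.edges k l = 2 → X k * X l = X l * X k := by
  obtain ⟨hsqG, hbrG, hcommG⟩ :=
    braid_of_cox Fi23.edges (fun x => (PresentedGroup.of x : Fi23)) fi_cox
  have hs : X Fi23.Gen.j * X Fi23.Gen.j ∈ Subgroup.center Γ := by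
    apply hc
    rw [MonoidHom.mem_ker, map_mul, hσ]
    exact hsqG Fi23.Gen.j
  have hZ : ∀ k l, coxLabel Fi23.edges k l = 2 → zc X k l ∈ Subgroup.center Γ := by
    intro k l h
    apply hc
    unfold zc
    rw [MonoidHom.mem_ker, map_mul, map_mul, map_mul, map_inv, map_inv, hσ, hσ]
    have h1 : (PresentedGroup.of k : Fi23) * PresentedGroup.of l =
        PresentedGroup.of l * PresentedGroup.of k := hcommG k l h
    rw [h1, mul_inv_cancel_right, mul_inv_cancel]
  have hconj : ∀ k l, X k * X l * (X k)⁻¹ = zc X k l * X l := by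
    intro k l
    unfold zc
    group
  have hmove : ∀ k l m, coxLabel Fi23.edges k l = 2 → coxLabel Fi23.edges k m = 2 →
      coxLabel Fi23.edges l m = 3 → zc X k m = zc X k l := fun k l m h1 h2 h3 =>
    braid_move (X k) (X l) (X m) (zc X k l) (zc X k m) (hZ k l h1) (hZ k m h2) (hconj k l)
      (hconj k m) (hbrX l m h3)
  have hsq2 : ∀ k l, coxLabel Fi23.edges k l = 2 → zc X k l * zc X k l = 1 := fun k l h =>
    sq_move (X k) (X l) (zc X k l) (hZ k l h) (by rw [hsqX k]; exact hs) (hconj k l)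
  have hsym : ∀ k l, coxLabel Fi23.edges k l = 2 → zc X l k = zc X k l := by
    intro k l h
    have h1 : zc X l k = (zc X k l)⁻¹ := by
      unfold zc
      group
    rw [h1]
    exact inv_eq_of_mul_eq_one_right (hsq2 k l h)
  set c : Γ := zc X Fi23.Gen.j Fi23.Gen.a with hc_def
  have hcc : c ∈ Subgroup.center Γ := hZ Fi23.Gen.j Fi23.Gen.a (by decide)
  have hc2 : c * c = 1 := hsq2 Fi23.Gen.j Fi23.Gen.a (by decide)
  have z_j_a : zc X Fi23.Gen.j Fi23.Gen.a = c := rfl
  have z_a_j : zc X Fi23.Gen.a Fi23.Gen.j = c := (hsym Fi23.Gen.j Fi23.Gen.a (by decide)).trans z_j_a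
  have z_j_b : zc X Fi23.Gen.j Fi23.Gen.b = c :=
    (hmove Fi23.Gen.j Fi23.Gen.a Fi23.Gen.b (by decide) (by decide) (by decide)).trans z_j_a
  have z_a_g : zc X Fi23.Gen.a Fi23.Gen.g = c :=
    (hmove Fi23.Gen.a Fi23.Gen.j Fi23.Gen.g (by decide) (by decide) (by decide)).trans z_a_j
  have z_b_j : zc X Fi23.Gen.b Fi23.Gen.j = c := (hsym Fi23.Gen.j Fi23.Gen.b (by decide)).trans z_j_b
  have z_j_c : zc X Fi23.Gen.j Fi23.Gen.c = c :=
    (hmove Fi23.Gen.j Fi23.Gen.b Fi23.Gen.c (by decide) (by decide) (by decide)).trans z_j_b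
  have z_g_a : zc X Fi23.Gen.g Fi23.Gen.a = c := (hsym Fi23.Gen.a Fi23.Gen.g (by decide)).trans z_a_g
  have z_a_f : zc X Fi23.Gen.a Fi23.Gen.f = c :=
    (hmove Fi23.Gen.a Fi23.Gen.g Fi23.Gen.f (by decide) (by decide) (by decide)).trans z_a_g
  have z_b_g : zc X Fi23.Gen.b Fi23.Gen.g = c :=
    (hmove Fi23.Gen.b Fi23.Gen.j Fi23.Gen.g (by decide) (by decide) (by decide)).trans z_b_j
  have z_c_j : zc X Fi23.Gen.c Fi23.Gen.j = c := (hsym Fi23.Gen.j Fi23.Gen.c (by decide)).trans z_j_c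
  have z_j_d : zc X Fi23.Gen.j Fi23.Gen.d = c :=
    (hmove Fi23.Gen.j Fi23.Gen.c Fi23.Gen.d (by decide) (by decide) (by decide)).trans z_j_c
  have z_g_b : zc X Fi23.Gen.g Fi23.Gen.b = c :=
    (hmove Fi23.Gen.g Fi23.Gen.a Fi23.Gen.b (by decide) (by decide) (by decide)).trans z_g_a
  have z_f_a : zc X Fi23.Gen.f Fi23.Gen.a = c := (hsym Fi23.Gen.a Fi23.Gen.f (by decide)).trans z_a_f
  have z_a_e : zc X Fi23.Gen.a Fi23.Gen.e = c :=
    (hmove Fi23.Gen.a Fi23.Gen.f Fi23.Gen.e (by decide) (by decide) (by decide)).trans z_a_f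
  have z_b_f : zc X Fi23.Gen.b Fi23.Gen.f = c :=
    (hmove Fi23.Gen.b Fi23.Gen.g Fi23.Gen.f (by decide) (by decide) (by decide)).trans z_b_g
  have z_c_g : zc X Fi23.Gen.c Fi23.Gen.g = c :=
    (hmove Fi23.Gen.c Fi23.Gen.j Fi23.Gen.g (by decide) (by decide) (by decide)).trans z_c_j
  have z_d_j : zc X Fi23.Gen.d Fi23.Gen.j = c := (hsym Fi23.Gen.j Fi23.Gen.d (by decide)).trans z_j_d
  have z_j_e : zc X Fi23.Gen.j Fi23.Gen.e = c :=
    (hmove Fi23.Gen.j Fi23.Gen.d Fi23.Gen.e (by decide) (by decide) (by decide)).trans z_j_d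
  have z_j_h : zc X Fi23.Gen.j Fi23.Gen.h = c :=
    (hmove Fi23.Gen.j Fi23.Gen.d Fi23.Gen.h (by decide) (by decide) (by decide)).trans z_j_d
  have z_g_c : zc X Fi23.Gen.g Fi23.Gen.c = c :=
    (hmove Fi23.Gen.g Fi23.Gen.b Fi23.Gen.c (by decide) (by decide) (by decide)).trans z_g_b
  have z_f_b : zc X Fi23.Gen.f Fi23.Gen.b = c :=
    (hmove Fi23.Gen.f Fi23.Gen.a Fi23.Gen.b (by decide) (by decide) (by decide)).trans z_f_a
  have z_e_a : zc X Fi23.Gen.e Fi23.Gen.a = c := (hsym Fi23.Gen.a Fi23.Gen.e (by decide)).trans z_a_e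
  have z_a_d : zc X Fi23.Gen.a Fi23.Gen.d = c :=
    (hmove Fi23.Gen.a Fi23.Gen.e Fi23.Gen.d (by decide) (by decide) (by decide)).trans z_a_e
  have z_b_e : zc X Fi23.Gen.b Fi23.Gen.e = c :=
    (hmove Fi23.Gen.b Fi23.Gen.f Fi23.Gen.e (by decide) (by decide) (by decide)).trans z_b_f
  have z_c_f : zc X Fi23.Gen.c Fi23.Gen.f = c :=
    (hmove Fi23.Gen.c Fi23.Gen.g Fi23.Gen.f (by decide) (by decide) (by decide)).trans z_c_g
  have z_d_g : zc X Fi23.Gen.d Fi23.Gen.g = c :=
    (hmove Fi23.Gen.d Fi23.Gen.j Fi23.Gen.g (by decide) (by decide) (by decide)).trans z_d_j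
  have z_e_j : zc X Fi23.Gen.e Fi23.Gen.j = c := (hsym Fi23.Gen.j Fi23.Gen.e (by decide)).trans z_j_e
  have z_j_f : zc X Fi23.Gen.j Fi23.Gen.f = c :=
    (hmove Fi23.Gen.j Fi23.Gen.e Fi23.Gen.f (by decide) (by decide) (by decide)).trans z_j_e
  have z_h_j : zc X Fi23.Gen.h Fi23.Gen.j = c := (hsym Fi23.Gen.j Fi23.Gen.h (by decide)).trans z_j_h
  have z_j_i : zc X Fi23.Gen.j Fi23.Gen.i = c :=
    (hmove Fi23.Gen.j Fi23.Gen.h Fi23.Gen.i (by decide) (by decide) (by decide)).trans z_j_h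
  have z_g_d : zc X Fi23.Gen.g Fi23.Gen.d = c :=
    (hmove Fi23.Gen.g Fi23.Gen.c Fi23.Gen.d (by decide) (by decide) (by decide)).trans z_g_c
  have z_f_c : zc X Fi23.Gen.f Fi23.Gen.c = c :=
    (hmove Fi23.Gen.f Fi23.Gen.b Fi23.Gen.c (by decide) (by decide) (by decide)).trans z_f_b
  have z_e_b : zc X Fi23.Gen.e Fi23.Gen.b = c :=
    (hmove Fi23.Gen.e Fi23.Gen.a Fi23.Gen.b (by decide) (by decide) (by decide)).trans z_e_a
  have z_d_a : zc X Fi23.Gen.d Fi23.Gen.a = c := (hsym Fi23.Gen.a Fi23.Gen.d (by decide)).trans z_a_d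
  have z_a_c : zc X Fi23.Gen.a Fi23.Gen.c = c :=
    (hmove Fi23.Gen.a Fi23.Gen.d Fi23.Gen.c (by decide) (by decide) (by decide)).trans z_a_d
  have z_a_h : zc X Fi23.Gen.a Fi23.Gen.h = c :=
    (hmove Fi23.Gen.a Fi23.Gen.d Fi23.Gen.h (by decide) (by decide) (by decide)).trans z_a_d
  have z_b_d : zc X Fi23.Gen.b Fi23.Gen.d = c :=
    (hmove Fi23.Gen.b Fi23.Gen.e Fi23.Gen.d (by decide) (by decide) (by decide)).trans z_b_e
  have z_c_e : zc X Fi23.Gen.c Fi23.Gen.e = c :=
    (hmove Fi23.Gen.c Fi23.Gen.f Fi23.Gen.e (by decide) (by decide) (by decide)).trans z_c_f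
  have z_d_f : zc X Fi23.Gen.d Fi23.Gen.f = c :=
    (hmove Fi23.Gen.d Fi23.Gen.g Fi23.Gen.f (by decide) (by decide) (by decide)).trans z_d_g
  have z_e_g : zc X Fi23.Gen.e Fi23.Gen.g = c :=
    (hmove Fi23.Gen.e Fi23.Gen.j Fi23.Gen.g (by decide) (by decide) (by decide)).trans z_e_j
  have z_f_j : zc X Fi23.Gen.f Fi23.Gen.j = c := (hsym Fi23.Gen.j Fi23.Gen.f (by decide)).trans z_j_f
  have z_h_g : zc X Fi23.Gen.h Fi23.Gen.g = c :=
    (hmove Fi23.Gen.h Fi23.Gen.j Fi23.Gen.g (by decide) (by decide) (by decide)).trans z_h_j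
  have z_i_j : zc X Fi23.Gen.i Fi23.Gen.j = c := (hsym Fi23.Gen.j Fi23.Gen.i (by decide)).trans z_j_i
  have z_g_e : zc X Fi23.Gen.g Fi23.Gen.e = c :=
    (hmove Fi23.Gen.g Fi23.Gen.d Fi23.Gen.e (by decide) (by decide) (by decide)).trans z_g_d
  have z_g_h : zc X Fi23.Gen.g Fi23.Gen.h = c :=
    (hmove Fi23.Gen.g Fi23.Gen.d Fi23.Gen.h (by decide) (by decide) (by decide)).trans z_g_d
  have z_f_d : zc X Fi23.Gen.f Fi23.Gen.d = c :=
    (hmove Fi23.Gen.f Fi23.Gen.c Fi23.Gen.d (by decide) (by decide) (by decide)).trans z_f_c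
  have z_e_c : zc X Fi23.Gen.e Fi23.Gen.c = c :=
    (hmove Fi23.Gen.e Fi23.Gen.b Fi23.Gen.c (by decide) (by decide) (by decide)).trans z_e_b
  have z_d_b : zc X Fi23.Gen.d Fi23.Gen.b = c :=
    (hmove Fi23.Gen.d Fi23.Gen.a Fi23.Gen.b (by decide) (by decide) (by decide)).trans z_d_a
  have z_c_a : zc X Fi23.Gen.c Fi23.Gen.a = c := (hsym Fi23.Gen.a Fi23.Gen.c (by decide)).trans z_a_c
  have z_h_a : zc X Fi23.Gen.h Fi23.Gen.a = c := (hsym Fi23.Gen.a Fi23.Gen.h (by decide)).trans z_a_h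
  have z_a_i : zc X Fi23.Gen.a Fi23.Gen.i = c :=
    (hmove Fi23.Gen.a Fi23.Gen.h Fi23.Gen.i (by decide) (by decide) (by decide)).trans z_a_h
  have z_b_h : zc X Fi23.Gen.b Fi23.Gen.h = c :=
    (hmove Fi23.Gen.b Fi23.Gen.d Fi23.Gen.h (by decide) (by decide) (by decide)).trans z_b_d
  have z_h_f : zc X Fi23.Gen.h Fi23.Gen.f = c :=
    (hmove Fi23.Gen.h Fi23.Gen.g Fi23.Gen.f (by decide) (by decide) (by decide)).trans z_h_g
  have z_i_g : zc X Fi23.Gen.i Fi23.Gen.g = c :=
    (hmove Fi23.Gen.i Fi23.Gen.j Fi23.Gen.g (by decide) (by decide) (by decide)).trans z_i_j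
  have z_g_i : zc X Fi23.Gen.g Fi23.Gen.i = c :=
    (hmove Fi23.Gen.g Fi23.Gen.h Fi23.Gen.i (by decide) (by decide) (by decide)).trans z_g_h
  have z_f_h : zc X Fi23.Gen.f Fi23.Gen.h = c :=
    (hmove Fi23.Gen.f Fi23.Gen.d Fi23.Gen.h (by decide) (by decide) (by decide)).trans z_f_d
  have z_h_b : zc X Fi23.Gen.h Fi23.Gen.b = c :=
    (hmove Fi23.Gen.h Fi23.Gen.a Fi23.Gen.b (by decide) (by decide) (by decide)).trans z_h_a
  have z_i_a : zc X Fi23.Gen.i Fi23.Gen.a = c := (hsym Fi23.Gen.a Fi23.Gen.i (by decide)).trans z_a_i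
  have z_b_i : zc X Fi23.Gen.b Fi23.Gen.i = c :=
    (hmove Fi23.Gen.b Fi23.Gen.h Fi23.Gen.i (by decide) (by decide) (by decide)).trans z_b_h
  have z_h_e : zc X Fi23.Gen.h Fi23.Gen.e = c :=
    (hmove Fi23.Gen.h Fi23.Gen.f Fi23.Gen.e (by decide) (by decide) (by decide)).trans z_h_f
  have z_i_f : zc X Fi23.Gen.i Fi23.Gen.f = c :=
    (hmove Fi23.Gen.i Fi23.Gen.g Fi23.Gen.f (by decide) (by decide) (by decide)).trans z_i_g
  have z_f_i : zc X Fi23.Gen.f Fi23.Gen.i = c :=
    (hmove Fi23.Gen.f Fi23.Gen.h Fi23.Gen.i (by decide) (by decide) (by decide)).trans z_f_h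
  have z_h_c : zc X Fi23.Gen.h Fi23.Gen.c = c :=
    (hmove Fi23.Gen.h Fi23.Gen.b Fi23.Gen.c (by decide) (by decide) (by decide)).trans z_h_b
  have z_i_b : zc X Fi23.Gen.i Fi23.Gen.b = c :=
    (hmove Fi23.Gen.i Fi23.Gen.a Fi23.Gen.b (by decide) (by decide) (by decide)).trans z_i_a
  have z_e_h : zc X Fi23.Gen.e Fi23.Gen.h = c := (hsym Fi23.Gen.h Fi23.Gen.e (by decide)).trans z_h_e
  have z_i_e : zc X Fi23.Gen.i Fi23.Gen.e = c :=
    (hmove Fi23.Gen.i Fi23.Gen.f Fi23.Gen.e (by decide) (by decide) (by decide)).trans z_i_f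
  have z_c_h : zc X Fi23.Gen.c Fi23.Gen.h = c := (hsym Fi23.Gen.h Fi23.Gen.c (by decide)).trans z_h_c
  have z_i_c : zc X Fi23.Gen.i Fi23.Gen.c = c :=
    (hmove Fi23.Gen.i Fi23.Gen.b Fi23.Gen.c (by decide) (by decide) (by decide)).trans z_i_b
  have z_e_i : zc X Fi23.Gen.e Fi23.Gen.i = c :=
    (hmove Fi23.Gen.e Fi23.Gen.h Fi23.Gen.i (by decide) (by decide) (by decide)).trans z_e_h
  have z_i_d : zc X Fi23.Gen.i Fi23.Gen.d = c :=
    (hmove Fi23.Gen.i Fi23.Gen.e Fi23.Gen.d (by decide) (by decide) (by decide)).trans z_i_e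
  have z_c_i : zc X Fi23.Gen.c Fi23.Gen.i = c :=
    (hmove Fi23.Gen.c Fi23.Gen.h Fi23.Gen.i (by decide) (by decide) (by decide)).trans z_c_h
  have z_d_i : zc X Fi23.Gen.d Fi23.Gen.i = c := (hsym Fi23.Gen.i Fi23.Gen.d (by decide)).trans z_i_d
  have hall : ∀ k l, coxLabel Fi23.edges k l = 2 → zc X k l = c := by
    intro k l h
    cases k with
    | a =>
      cases l with
      | a => exact absurd h (by decide)
      | b => exact absurd h (by decide)
      | c => exact z_a_c
      | d => exact z_a_d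
      | e => exact z_a_e
      | f => exact z_a_f
      | g => exact z_a_g
      | j => exact z_a_j
      | h => exact z_a_h
      | i => exact z_a_i
    | b =>
      cases l with
      | a => exact absurd h (by decide)
      | b => exact absurd h (by decide)
      | c => exact absurd h (by decide)
      | d => exact z_b_d
      | e => exact z_b_e
      | f => exact z_b_f
      | g => exact z_b_g
      | j => exact z_b_j
      | h => exact z_b_h
      | i => exact z_b_i
    | c =>
      cases l with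
      | a => exact z_c_a
      | b => exact absurd h (by decide)
      | c => exact absurd h (by decide)
      | d => exact absurd h (by decide)
      | e => exact z_c_e
      | f => exact z_c_f
      | g => exact z_c_g
      | j => exact z_c_j
      | h => exact z_c_h
      | i => exact z_c_i
    | d =>
      cases l with
      | a => exact z_d_a
      | b => exact z_d_b
      | c => exact absurd h (by decide)
      | d => exact absurd h (by decide)
      | e => exact absurd h (by decide)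
      | f => exact z_d_f
      | g => exact z_d_g
      | j => exact z_d_j
      | h => exact absurd h (by decide)
      | i => exact z_d_i
    | e =>
      cases l with
      | a => exact z_e_a
      | b => exact z_e_b
      | c => exact z_e_c
      | d => exact absurd h (by decide)
      | e => exact absurd h (by decide)
      | f => exact absurd h (by decide)
      | g => exact z_e_g
      | j => exact z_e_j
      | h => exact z_e_h
      | i => exact z_e_i
    | f =>
      cases l with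
      | a => exact z_f_a
      | b => exact z_f_b
      | c => exact z_f_c
      | d => exact z_f_d
      | e => exact absurd h (by decide)
      | f => exact absurd h (by decide)
      | g => exact absurd h (by decide)
      | j => exact z_f_j
      | h => exact z_f_h
      | i => exact z_f_i
    | g =>
      cases l with
      | a => exact z_g_a
      | b => exact z_g_b
      | c => exact z_g_c
      | d => exact z_g_d
      | e => exact z_g_e
      | f => exact absurd h (by decide)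
      | g => exact absurd h (by decide)
      | j => exact absurd h (by decide)
      | h => exact z_g_h
      | i => exact z_g_i
    | j =>
      cases l with
      | a => exact z_j_a
      | b => exact z_j_b
      | c => exact z_j_c
      | d => exact z_j_d
      | e => exact z_j_e
      | f => exact z_j_f
      | g => exact absurd h (by decide)
      | j => exact absurd h (by decide)
      | h => exact z_j_h
      | i => exact z_j_i
    | h =>
      cases l with
      | a => exact z_h_a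
      | b => exact z_h_b
      | c => exact z_h_c
      | d => exact absurd h (by decide)
      | e => exact z_h_e
      | f => exact z_h_f
      | g => exact z_h_g
      | j => exact z_h_j
      | h => exact absurd h (by decide)
      | i => exact absurd h (by decide)
    | i =>
      cases l with
      | a => exact z_i_a
      | b => exact z_i_b
      | c => exact z_i_c
      | d => exact z_i_d
      | e => exact z_i_e
      | f => exact z_i_f
      | g => exact z_i_g
      | j => exact z_i_j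
      | h => exact absurd h (by decide)
      | i => exact absurd h (by decide)
  have hcj : ∀ k, coxLabel Fi23.edges Fi23.Gen.j k = 2 →
      X Fi23.Gen.j * X k * (X Fi23.Gen.j)⁻¹ = c * X k := fun k h => by
    rw [hconj, hall Fi23.Gen.j k h]
  have hu : (X Fi23.Gen.a * X Fi23.Gen.b * X Fi23.Gen.c * X Fi23.Gen.d * X Fi23.Gen.e * X Fi23.Gen.f * X Fi23.Gen.h) ^ 9 ∈ Subgroup.center Γ := by
    apply hc
    rw [MonoidHom.mem_ker]
    simp only [map_pow, map_mul, hσ]
    exact fi_r2
  have hconjA : X Fi23.Gen.j * (X Fi23.Gen.a * X Fi23.Gen.b * X Fi23.Gen.c * X Fi23.Gen.d * X Fi23.Gen.e * X Fi23.Gen.f * X Fi23.Gen.h) * (X Fi23.Gen.j)⁻¹ =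
      c ^ 7 * (X Fi23.Gen.a * X Fi23.Gen.b * X Fi23.Gen.c * X Fi23.Gen.d * X Fi23.Gen.e * X Fi23.Gen.f * X Fi23.Gen.h) := by
    calc X Fi23.Gen.j * (X Fi23.Gen.a * X Fi23.Gen.b * X Fi23.Gen.c * X Fi23.Gen.d * X Fi23.Gen.e * X Fi23.Gen.f * X Fi23.Gen.h) * (X Fi23.Gen.j)⁻¹
        = (X Fi23.Gen.j * X Fi23.Gen.a * (X Fi23.Gen.j)⁻¹) * (X Fi23.Gen.j * X Fi23.Gen.b * (X Fi23.Gen.j)⁻¹) * (X Fi23.Gen.j * X Fi23.Gen.c * (X Fi23.Gen.j)⁻¹) * (X Fi23.Gen.j * X Fi23.Gen.d * (X Fi23.Gen.j)⁻¹) * (X Fi23.Gen.j * X Fi23.Gen.e * (X Fi23.Gen.j)⁻¹) * (X Fi23.Gen.j * X Fi23.Gen.f * (X Fi23.Gen.j)⁻¹) * (X Fi23.Gen.j * X Fi23.Gen.h * (X Fi23.Gen.j)⁻¹) := by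
          group
      _ = (c * X Fi23.Gen.a) * (c * X Fi23.Gen.b) * (c * X Fi23.Gen.c) * (c * X Fi23.Gen.d) * (c * X Fi23.Gen.e) * (c * X Fi23.Gen.f) * (c * X Fi23.Gen.h) := by
          rw [hcj Fi23.Gen.a (by decide), hcj Fi23.Gen.b (by decide), hcj Fi23.Gen.c (by decide), hcj Fi23.Gen.d (by decide), hcj Fi23.Gen.e (by decide), hcj Fi23.Gen.f (by decide), hcj Fi23.Gen.h (by decide)]
      _ = c ^ (2 + 1 + 1 + 1 + 1 + 1) * (X Fi23.Gen.a * X Fi23.Gen.b * X Fi23.Gen.c * X Fi23.Gen.d * X Fi23.Gen.e * X Fi23.Gen.f * X Fi23.Gen.h) := by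
          rw [cmul0 _ _ _ hcc, cmul _ _ _ hcc, cmul _ _ _ hcc, cmul _ _ _ hcc, cmul _ _ _ hcc, cmul _ _ _ hcc]
      _ = c ^ 7 * (X Fi23.Gen.a * X Fi23.Gen.b * X Fi23.Gen.c * X Fi23.Gen.d * X Fi23.Gen.e * X Fi23.Gen.f * X Fi23.Gen.h) := rfl
  have hc1 : c = 1 := by
    have h1 : X Fi23.Gen.j * (X Fi23.Gen.a * X Fi23.Gen.b * X Fi23.Gen.c * X Fi23.Gen.d * X Fi23.Gen.e * X Fi23.Gen.f * X Fi23.Gen.h) ^ 9 * (X Fi23.Gen.j)⁻¹ =
        (X Fi23.Gen.a * X Fi23.Gen.b * X Fi23.Gen.c * X Fi23.Gen.d * X Fi23.Gen.e * X Fi23.Gen.f * X Fi23.Gen.h) ^ 9 := by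
      rw [Subgroup.mem_center_iff.mp hu (X Fi23.Gen.j), mul_inv_cancel_right]
    rw [← conj_pow, hconjA, cpow c _ hcc 7 9] at h1
    have h3 : c ^ (7 * 9) = 1 := by
      have h4 : c ^ (7 * 9) * (X Fi23.Gen.a * X Fi23.Gen.b * X Fi23.Gen.c * X Fi23.Gen.d * X Fi23.Gen.e * X Fi23.Gen.f * X Fi23.Gen.h) ^ 9 =
          1 * (X Fi23.Gen.a * X Fi23.Gen.b * X Fi23.Gen.c * X Fi23.Gen.d * X Fi23.Gen.e * X Fi23.Gen.f * X Fi23.Gen.h) ^ 9 := by
        rw [one_mul]
        exact h1
      exact mul_right_cancel h4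
    have h5 : c ^ (7 * 9) = c := by
      rw [show 7 * 9 = 2 * 31 + 1 from rfl, pow_succ, pow_mul, pow_two, hc2, one_pow, one_mul]
    rw [← h5, h3]
  intro k l h
  have h1 := hall k l h
  rw [hc1] at h1
  unfold zc at h1
  exact mul_inv_eq_iff_eq_mul.mp (mul_inv_eq_one.mp h1)

/-- The kernel of a central extension of the presented group which lies in the commutator subgroup
is trivial. -/
theorem ker_trivial (hsurj : Function.Surjective σ) (hc : σ.ker ≤ Subgroup.center Γ)
    (hd : σ.ker ≤ commutator Γ) : σ.ker = ⊥ := by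
  obtain ⟨X, hσ, hsqX, hbrX⟩ := exists_lifts σ hsurj hc
  have hcommX := lifts_commute σ hc X hσ hsqX hbrX
  obtain ⟨hsqG, -, -⟩ :=
    braid_of_cox Fi23.edges (fun x => (PresentedGroup.of x : Fi23)) fi_cox
  have hsker : X Fi23.Gen.j * X Fi23.Gen.j ∈ σ.ker := by
    rw [MonoidHom.mem_ker, map_mul, hσ]
    exact hsqG Fi23.Gen.j
  have hs : X Fi23.Gen.j * X Fi23.Gen.j ∈ Subgroup.center Γ := hc hsker
  have huker : (X Fi23.Gen.a * X Fi23.Gen.b * X Fi23.Gen.c * X Fi23.Gen.d * X Fi23.Gen.e * X Fi23.Gen.f * X Fi23.Gen.h) ^ 9 ∈ σ.ker := by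
    rw [MonoidHom.mem_ker]
    simp only [map_pow, map_mul, hσ]
    exact fi_r2
  have hwker : (X Fi23.Gen.d * X Fi23.Gen.c * X Fi23.Gen.b * X Fi23.Gen.d * X Fi23.Gen.e * X Fi23.Gen.f * X Fi23.Gen.d * X Fi23.Gen.h * X Fi23.Gen.i) ^ 10 ∈ σ.ker := by
    rw [MonoidHom.mem_ker]
    simp only [map_pow, map_mul, hσ]
    exact fi_r1
  -- the two relations up to powers of the common square
  have hE : (X Fi23.Gen.a * X Fi23.Gen.b * X Fi23.Gen.c * X Fi23.Gen.d * X Fi23.Gen.e * X Fi23.Gen.f * X Fi23.Gen.h) ^ 18 = (X Fi23.Gen.j * X Fi23.Gen.j) ^ 63 :=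
    MultE.e7_twisted (X Fi23.Gen.j * X Fi23.Gen.j) hs (fun i => X (i7 i)) (fun i => hsqX (i7 i))
      (fun x y h => hbrX _ _ (by rw [← lab7]; exact h))
      (fun x y h => hcommX _ _ (by rw [← lab7]; exact h))
  have hY : (X Fi23.Gen.d * X Fi23.Gen.c * X Fi23.Gen.b * X Fi23.Gen.d * X Fi23.Gen.e * X Fi23.Gen.f * X Fi23.Gen.d * X Fi23.Gen.h * X Fi23.Gen.i) ^ 10 = (X Fi23.Gen.j * X Fi23.Gen.j) ^ 45 :=
    MultY.y_twisted (X Fi23.Gen.j * X Fi23.Gen.j) hs (fun i => X (i9 i)) (fun i => hsqX (i9 i))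
      (fun x y h => hbrX _ _ (by rw [← lab9]; exact h))
      (fun x y h => hcommX _ _ (by rw [← lab9]; exact h)) (hc hwker)
  -- a central square root of the common square
  obtain ⟨e, hedef, hes, he63⟩ := sqrt_central (X Fi23.Gen.j * X Fi23.Gen.j)
    ((X Fi23.Gen.a * X Fi23.Gen.b * X Fi23.Gen.c * X Fi23.Gen.d * X Fi23.Gen.e * X Fi23.Gen.f * X Fi23.Gen.h) ^ 9) (Subgroup.mem_center_iff.mp (hc huker))
    (by rw [← pow_two, ← pow_mul]; exact hE)
  have heker : σ e = 1 := by
    have h1 := MonoidHom.mem_ker.mp huker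
    have h2 := MonoidHom.mem_ker.mp hsker
    rw [hedef, map_mul, map_inv, h1, map_pow, h2, one_pow, inv_one, one_mul]
  have hes2 : e ^ 2 = X Fi23.Gen.j * X Fi23.Gen.j := by
    rw [pow_two]
    exact hes
  have hec : e⁻¹ ∈ Subgroup.center Γ := Subgroup.inv_mem _ (hc (MonoidHom.mem_ker.mpr heker))
  -- the corrected lifts satisfy all the relations
  have hsq' : ∀ k, (e⁻¹ * X k) * (e⁻¹ * X k) = 1 := by
    intro k
    rw [cmul0 _ _ _ hec, hsqX k, ← hes]
    group
  have h3' : ∀ k l, coxLabel Fi23.edges k l = 3 →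
      (e⁻¹ * X k) * (e⁻¹ * X l) * (e⁻¹ * X k) = (e⁻¹ * X l) * (e⁻¹ * X k) * (e⁻¹ * X l) := by
    intro k l h
    rw [cmul0 _ _ _ hec, cmul _ _ _ hec, cmul0 _ _ _ hec, cmul _ _ _ hec, hbrX k l h]
  have h2' : ∀ k l, coxLabel Fi23.edges k l = 2 →
      (e⁻¹ * X k) * (e⁻¹ * X l) = (e⁻¹ * X l) * (e⁻¹ * X k) := by
    intro k l h
    rw [cmul0 _ _ _ hec, cmul0 _ _ _ hec, hcommX k l h]
  have hcox' := cox_of_braid Fi23.edges (fun k => e⁻¹ * X k) hlab hdiag hsq' h3' h2'
  have hr1 : ((e⁻¹ * X Fi23.Gen.d) * (e⁻¹ * X Fi23.Gen.c) * (e⁻¹ * X Fi23.Gen.b) * (e⁻¹ * X Fi23.Gen.d) * (e⁻¹ * X Fi23.Gen.e) * (e⁻¹ * X Fi23.Gen.f) * (e⁻¹ * X Fi23.Gen.d) * (e⁻¹ * X Fi23.Gen.h) * (e⁻¹ * X Fi23.Gen.i)) ^ 10 = 1 := by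
    rw [cmul0 _ _ _ hec, cmul _ _ _ hec, cmul _ _ _ hec, cmul _ _ _ hec, cmul _ _ _ hec, cmul _ _ _ hec, cmul _ _ _ hec, cmul _ _ _ hec, cpow _ _ hec, hY, ← hes2]
    group
  have hr2 : ((e⁻¹ * X Fi23.Gen.a) * (e⁻¹ * X Fi23.Gen.b) * (e⁻¹ * X Fi23.Gen.c) * (e⁻¹ * X Fi23.Gen.d) * (e⁻¹ * X Fi23.Gen.e) * (e⁻¹ * X Fi23.Gen.f) * (e⁻¹ * X Fi23.Gen.h)) ^ 9 = 1 := by
    rw [cmul0 _ _ _ hec, cmul _ _ _ hec, cmul _ _ _ hec, cmul _ _ _ hec, cmul _ _ _ hec, cmul _ _ _ hec, cpow _ _ hec, ← he63]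
    group
  obtain ⟨τ, hτ⟩ := cox_toGroup Fi23.edges Fi23.extra (fun k => e⁻¹ * X k) hcox' (by
    intro r hr
    have hr' : r = (FreeGroup.of Fi23.Gen.d * FreeGroup.of Fi23.Gen.c * FreeGroup.of Fi23.Gen.b * FreeGroup.of Fi23.Gen.d * FreeGroup.of Fi23.Gen.e * FreeGroup.of Fi23.Gen.f * FreeGroup.of Fi23.Gen.d * FreeGroup.of Fi23.Gen.h * FreeGroup.of Fi23.Gen.i) ^ 10 ∨
        r = (FreeGroup.of Fi23.Gen.a * FreeGroup.of Fi23.Gen.b * FreeGroup.of Fi23.Gen.c * FreeGroup.of Fi23.Gen.d * FreeGroup.of Fi23.Gen.e * FreeGroup.of Fi23.Gen.f * FreeGroup.of Fi23.Gen.h) ^ 9 := by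
      unfold Fi23.extra at hr
      rw [List.mem_cons, List.mem_singleton] at hr
      exact hr
    rcases hr' with rfl | rfl
    · simp only [map_pow, map_mul, FreeGroup.lift_apply_of]
      exact hr1
    · simp only [map_pow, map_mul, FreeGroup.lift_apply_of]
      exact hr2)
  have hτ' : ∀ x, τ (PresentedGroup.of x) = e⁻¹ * X x := hτ
  have hστ : ∀ g : Fi23, σ (τ g) = g := by
    have h1 : σ.comp τ = MonoidHom.id Fi23 := by
      apply PresentedGroup.ext
      intro x
      rw [MonoidHom.comp_apply, MonoidHom.id_apply, hτ', map_mul, map_inv, hσ, heker, inv_one,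
        one_mul]
    intro g
    exact DFunLike.congr_fun h1 g
  have hz : ∀ g : Γ, (τ (σ g))⁻¹ * g ∈ Subgroup.center Γ := by
    intro g
    apply hc
    rw [MonoidHom.mem_ker, map_mul, map_inv, hστ, inv_mul_cancel]
  have hcomm_le : commutator Γ ≤ τ.range := by
    rw [commutator_def, Subgroup.commutator_le]
    intro g1 _ g2 _
    have h1 := comm_central (τ (σ g1)) (τ (σ g2)) _ _ (hz g1) (hz g2)
    rw [mul_inv_cancel_left, mul_inv_cancel_left] at h1
    rw [h1, ← map_commutatorElement]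
    exact ⟨_, rfl⟩
  rw [eq_bot_iff]
  intro x hx
  obtain ⟨y, rfl⟩ := hcomm_le (hd hx)
  rw [MonoidHom.mem_ker, hστ] at hx
  rw [hx, map_one]
  exact Subgroup.one_mem _

end ext

end Cfsg.Agent.Lib.Helper56.Fi23Mult
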