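import Mathlib
import Cfsg.Agent.Lib.Helper56.TCSimple

set_option autoImplicit false

/-!
The subgroup of the even words (products of an even number of generating involutions) of the
permutation group on the final names of a certificate: normal closure argument, primitivity.
-/

namespace Cfsg.Agent.Lib.Helper56.TC

open Tabs Equiv MulAction Cfsg.Spor
open Cfsg.Agent.Lib.Helper19.Cox (L L_mono mem_L L_zero)

section even

variable {T : Tabs} (hP : T.P1)

/-- The subgroup generated by the products of two letters. -/
noncomputable def evenS : Subgroup (Perm (Fin T.N)) :=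
  Subgroup.closure {x | ∃ a b, a < T.K ∧ b < T.K ∧ x = sigma hP a * sigma hP b}

theorem pair_mem_evenS (a b : ℕ) (ha : a < T.K) (hb : b < T.K) :
    sigma hP a * sigma hP b ∈ evenS hP :=
  Subgroup.subset_closure ⟨a, b, ha, hb, rfl⟩

/-- Words of even length lie in the even subgroup. -/
theorem ew_mem_evenS : ∀ (n : ℕ) (w : List ℕ), w.length = 2 * n → (∀ a ∈ w, a < T.K) →
    ew (sigma hP) w ∈ evenS hP := by
  intro n
  induction n with
  | zero =>
    intro w hw _
    have : w = [] := List.length_eq_zero_iff.mp (by omega)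
    subst this
    exact one_mem _
  | succ n ih =>
    intro w hw hK
    match w, hw, hK with
    | a :: b :: w', hw, hK =>
      rw [ew_cons, ew_cons, ← mul_assoc]
      refine mul_mem (pair_mem_evenS hP a b (hK a (by simp)) (hK b (by simp))) (ih w' ?_ ?_)
      · simp only [List.length_cons] at hw; omega
      · intro c hc; exact hK c (by simp [hc])
    | [], hw, _ => simp at hw
    | [a], hw, _ => simp at hw; omega

theorem evenS_le : evenS hP ≤ L (sigma hP) T.K := by
  unfold evenS
  rw [Subgroup.closure_le]
  rintro x ⟨a, b, ha, hb, rfl⟩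
  exact mul_mem (mem_L _ ha) (mem_L _ hb)

/-- Conjugation by a letter preserves the even subgroup. -/
theorem conj_mem_evenS (hinv : ∀ l < T.K, T.inv l = l) (c : ℕ) (hc : c < T.K)
    (x : Perm (Fin T.N)) (hx : x ∈ evenS hP) :
    sigma hP c * x * (sigma hP c)⁻¹ ∈ evenS hP := by
  have hs := sigma_sq hP hinv
  have hsi : ∀ i, (sigma hP i)⁻¹ = sigma hP i := fun i => inv_eq_of_mul_eq_one_right (hs i)
  unfold evenS at hx
  induction hx using Subgroup.closure_induction with
  | mem y hy =>
    obtain ⟨a, b, ha, hb, rfl⟩ := hy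
    have e : sigma hP c * (sigma hP a * sigma hP b) * (sigma hP c)⁻¹ =
        (sigma hP c * sigma hP a) * (sigma hP b * sigma hP c) := by
      rw [hsi]; simp only [mul_assoc]
    rw [e]
    exact mul_mem (pair_mem_evenS hP c a hc ha) (pair_mem_evenS hP b c hb hc)
  | one => simp
  | mul a b _ _ iha ihb =>
    have e : sigma hP c * (a * b) * (sigma hP c)⁻¹ =
        (sigma hP c * a * (sigma hP c)⁻¹) * (sigma hP c * b * (sigma hP c)⁻¹) := by group
    rw [e]
    exact mul_mem iha ihb
  | inv a _ iha =>
    have e : sigma hP c * a⁻¹ * (sigma hP c)⁻¹ = (sigma hP c * a * (sigma hP c)⁻¹)⁻¹ := by group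
    rw [e]
    exact inv_mem iha

/-- If the product of the letters `0` and `1` is a product of two even elements of order dividing
`p` and the letters form a tree of braid relations in which the letters at distance two commute,
then the elements of order dividing `p` generate the even subgroup as a normal subgroup. -/
theorem ncl_even (hinv : ∀ l < T.K, T.inv l = l) (p : ℕ) (wy : List ℕ) (ny : ℕ)
    (hwy : ∀ a ∈ wy, a < T.K) (hny : wy.length = 2 * ny) (hK1 : 1 < T.K)
    (hy : ∀ v < T.N, chkPow T wy p v = true)
    (hz : ∀ v < T.N, chkPow T (wy.reverse ++ [0, 1]) p v = true)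
    (par : ℕ → ℕ)
    (htree : ∀ k < T.K, 1 ≤ k → par k < k ∧ [par k, k, par k, k, par k, k] ∈ T.rels1 ∧
      (2 ≤ k → (par k = 0 → [1, k, 1, k] ∈ T.rels1) ∧
        (par k ≠ 0 → [par (par k), k, par (par k), k] ∈ T.rels1))) :
    ∀ N : Subgroup (evenS hP), N.Normal → (∀ x : evenS hP, x ^ p = 1 → x ∈ N) → N = ⊤ := by
  set s := sigma hP with hsdef
  intro N hN hp
  have hs : ∀ i, s i * s i = 1 := sigma_sq hP hinv
  have hsi : ∀ i, (s i)⁻¹ = s i := fun i => inv_eq_of_mul_eq_one_right (hs i)
  have hK0 : 0 < T.K := lt_trans Nat.zero_lt_one hK1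
  -- the subgroup generated by the even elements of order dividing `p`
  let M : Subgroup (Perm (Fin T.N)) := Subgroup.closure {x | x ∈ evenS hP ∧ x ^ p = 1}
  have hMle : M ≤ evenS hP := by
    rw [Subgroup.closure_le]
    intro x hx
    exact hx.1
  have hMN : ∀ x (hx : x ∈ evenS hP), x ∈ M → (⟨x, hx⟩ : evenS hP) ∈ N := by
    intro x hx hxM
    induction hxM using Subgroup.closure_induction with
    | mem y hy =>
      apply hp
      apply Subtype.ext
      rw [Subgroup.coe_pow, Subgroup.coe_one]
      exact hy.2
    | one => exact N.one_mem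
    | mul a b ha hb iha ihb =>
      have ha' := hMle ha
      have hb' := hMle hb
      have : (⟨a * b, hx⟩ : evenS hP) = ⟨a, ha'⟩ * ⟨b, hb'⟩ := rfl
      rw [this]
      exact N.mul_mem (iha ha') (ihb hb')
    | inv a ha iha =>
      have ha' := hMle ha
      have : (⟨a⁻¹, hx⟩ : evenS hP) = (⟨a, ha'⟩ : evenS hP)⁻¹ := rfl
      rw [this]
      exact N.inv_mem (iha ha')
  -- `M` is invariant under conjugation by the letters
  have hMconj : ∀ c < T.K, ∀ x ∈ M, s c * x * (s c)⁻¹ ∈ M := by
    intro c hc x hx
    induction hx using Subgroup.closure_induction with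
    | mem y hy =>
      apply Subgroup.subset_closure
      refine ⟨conj_mem_evenS hP hinv c hc y hy.1, ?_⟩
      rw [conj_pow, hy.2]
      group
    | one => simp
    | mul a b _ _ iha ihb =>
      have e : s c * (a * b) * (s c)⁻¹ = (s c * a * (s c)⁻¹) * (s c * b * (s c)⁻¹) := by group
      rw [e]
      exact mul_mem iha ihb
    | inv a _ iha =>
      have e : s c * a⁻¹ * (s c)⁻¹ = (s c * a * (s c)⁻¹)⁻¹ := by group
      rw [e]
      exact inv_mem iha
  -- the base: the product of the letters `0` and `1`
  have hz' : ∀ a ∈ wy.reverse ++ [0, 1], a < T.K := by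
    intro a ha
    rcases List.mem_append.mp ha with h | h
    · exact hwy a (List.mem_reverse.mp h)
    · simp only [List.mem_cons, List.not_mem_nil, or_false] at h
      rcases h with rfl | rfl
      · exact hK0
      · exact hK1
  have hY : ew s wy ∈ M := by
    apply Subgroup.subset_closure
    exact ⟨ew_mem_evenS hP ny wy hny hwy, sigma_pow hP wy hwy p hy⟩
  have hZ : ew s (wy.reverse ++ [0, 1]) ∈ M := by
    apply Subgroup.subset_closure
    refine ⟨ew_mem_evenS hP (ny + 1) _ ?_ hz', sigma_pow hP _ hz' p hz⟩
    simp only [List.length_append, List.length_reverse, List.length_cons, List.length_nil]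
    omega
  have h01 : s 0 * s 1 ∈ M := by
    have e : s 0 * s 1 = ew s wy * ew s (wy.reverse ++ [0, 1]) := by
      rw [ew_append, ew_reverse s hs, ew_cons, ew_cons, ew_nil, mul_one, mul_inv_cancel_left]
    rw [e]
    exact mul_mem hY hZ
  -- braid and commutation relations
  have hbraid : ∀ j k, [j, k, j, k, j, k] ∈ T.rels1 → s j * s k * s j = s k * s j * s k := by
    intro j k hmem
    have hrel : ew s [j, k, j, k, j, k] = 1 := sigma_rel hP _ hmem
    simp only [ew_cons, ew_nil, mul_one] at hrel
    have h2 : s j * s k * s j * (s k * s j * s k) = 1 := by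
      rw [← hrel]; simp only [mul_assoc]
    have h3 : s j * s k * s j = (s k * s j * s k)⁻¹ := eq_inv_of_mul_eq_one_left h2
    rw [h3, mul_inv_rev, mul_inv_rev, hsi, hsi, mul_assoc]
  have hcomm : ∀ i k, [i, k, i, k] ∈ T.rels1 → s i * s k = s k * s i := by
    intro i k hmem
    have hrel : ew s [i, k, i, k] = 1 := sigma_rel hP _ hmem
    simp only [ew_cons, ew_nil, mul_one] at hrel
    have h2 : s i * s k * (s i * s k) = 1 := by
      rw [← hrel]; simp only [mul_assoc]
    have h3 : s i * s k = (s i * s k)⁻¹ := eq_inv_of_mul_eq_one_left h2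
    rw [h3, mul_inv_rev, hsi, hsi]
  -- conjugating an edge along a path `i - j - k`
  have hpath : ∀ i j k, i < T.K → j < T.K → k < T.K → s i * s j * s i = s j * s i * s j →
      s j * s k * s j = s k * s j * s k → s i * s k = s k * s i → s i * s j ∈ M →
      s j * s k ∈ M := by
    intro i j k hi hj hk hij hjk hik hmem
    have h1 := hMconj k hk _ hmem
    have h2 := hMconj j hj _ h1
    have h3 := hMconj i hi _ h2
    have e : s i * (s j * (s k * (s i * s j) * (s k)⁻¹) * (s j)⁻¹) * (s i)⁻¹ = s j * s k := by
      rw [hsi, hsi, hsi]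
      have a1 : s k * (s i * s j) * s k = s i * (s k * s j * s k) := by
        rw [← mul_assoc, ← hik]; simp only [mul_assoc]
      rw [a1, ← hjk]
      have a2 : s j * (s i * (s j * s k * s j)) * s j = (s j * s i * s j) * s k := by
        simp only [mul_assoc]
        rw [hs j, mul_one]
      rw [a2, ← hij]
      simp only [mul_assoc]
      rw [← mul_assoc (s i) (s i), hs i, one_mul, ← hik, ← mul_assoc (s i) (s i), hs i, one_mul]
    rw [← e]
    exact h3
  -- the edge elements
  have hedge : ∀ k, 1 ≤ k → k < T.K → s (par k) * s k ∈ M := by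
    intro k
    induction k using Nat.strong_induction_on with
    | _ k ih =>
      intro hk1 hkK
      obtain ⟨hpk, hbr, hrest⟩ := htree k hkK hk1
      by_cases hk2 : 2 ≤ k
      · obtain ⟨hc0, hc1⟩ := hrest hk2
        by_cases hp0 : par k = 0
        · -- path `1 - 0 - k`
          have hbr01 := (htree 1 hK1 (le_refl 1)).2.1
          have hp1 : par 1 = 0 := by have := (htree 1 hK1 (le_refl 1)).1; omega
          rw [hp1] at hbr01
          rw [hp0] at hbr ⊢
          have h10 : s 1 * s 0 ∈ M := by
            have : s 1 * s 0 = (s 0 * s 1)⁻¹ := by rw [mul_inv_rev, hsi, hsi]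
            rw [this]
            exact inv_mem h01
          exact hpath 1 0 k hK1 hK0 hkK (hbraid 0 1 hbr01).symm (hbraid 0 k hbr)
            (hcomm 1 k (hc0 hp0)) h10
        · -- path `par (par k) - par k - k`
          have hj1 : 1 ≤ par k := Nat.one_le_iff_ne_zero.mpr hp0
          have hjK : par k < T.K := lt_trans hpk hkK
          obtain ⟨hpj, hbrj, -⟩ := htree (par k) hjK hj1
          have hiK : par (par k) < T.K := lt_trans hpj hjK
          exact hpath (par (par k)) (par k) k hiK hjK hkK (hbraid _ _ hbrj) (hbraid _ _ hbr)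
            (hcomm _ _ (hc1 hp0)) (ih (par k) hpk hj1 hjK)
      · have hk : k = 1 := by omega
        subst hk
        have hp1 : par 1 = 0 := by omega
        rw [hp1]
        exact h01
  -- the products `s 0 * s k`
  have hzero : ∀ k, k < T.K → s 0 * s k ∈ M := by
    intro k
    induction k using Nat.strong_induction_on with
    | _ k ih =>
      intro hkK
      by_cases hk0 : k = 0
      · subst hk0
        rw [hs 0]
        exact one_mem _
      · have hk1 : 1 ≤ k := Nat.one_le_iff_ne_zero.mpr hk0
        have hpk := (htree k hkK hk1).1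
        have e : s 0 * s k = (s 0 * s (par k)) * (s (par k) * s k) := by
          rw [mul_assoc, ← mul_assoc (s (par k)), hs, one_mul]
        rw [e]
        exact mul_mem (ih (par k) hpk (lt_trans hpk hkK)) (hedge k hk1 hkK)
  have hall : evenS hP ≤ M := by
    unfold evenS
    rw [Subgroup.closure_le]
    rintro x ⟨a, b, ha, hb, rfl⟩
    have e : s a * s b = (s 0 * s a)⁻¹ * (s 0 * s b) := by
      rw [mul_inv_rev, hsi, hsi, mul_assoc, ← mul_assoc (s 0), hs, one_mul]
    show s a * s b ∈ M
    rw [e]
    exact mul_mem (inv_mem (hzero a ha)) (hzero b hb)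
  rw [eq_top_iff]
  rintro ⟨g, hg⟩ -
  exact hMN g hg (hall hg)

end even

section prim

variable {T : Tabs} (hP : T.P1)

/-- Primitivity of a subgroup `D` of the permutations of the final names from three orbit
certificates whose words lie in `D`: one for the transitivity, two for the suborbits of the
stabiliser of the name `0`. -/
theorem prim_rank3_sub (D : Subgroup (Perm (Fin T.N))) (R0 RA RB : Orb) (ωA ωB : ℕ)
    (hωA : ωA < T.N) (hωB : ωB < T.N)
    (h0 : ∀ c < R0.m, chkOrb T R0 0 c = true)
    (hA : ∀ c < RA.m, chkOrb T RA ωA c = true) (hB : ∀ c < RB.m, chkOrb T RB ωB c = true)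
    (hg0 : ∀ j < R0.ng, (∀ a ∈ R0.gw j, a < T.K) ∧ ew (sigma hP) (R0.gw j) ∈ D)
    (hgA : ∀ j < RA.ng, (∀ a ∈ RA.gw j, a < T.K) ∧ ew (sigma hP) (RA.gw j) ∈ D ∧
      T.followT (RA.gw j) 0 = 0)
    (hgB : ∀ j < RB.ng, (∀ a ∈ RB.gw j, a < T.K) ∧ ew (sigma hP) (RB.gw j) ∈ D ∧
      T.followT (RB.gw j) 0 = 0)
    (hfull : ∀ y < T.N, inOrb R0 y = true)
    (hcover : ∀ y < T.N, (Nat.beq y 0 || (inOrb RA y || inOrb RB y)) = true)
    (h0A : inOrb RA 0 = false) (h0B : inOrb RB 0 = false)
    (hdA : ¬ (countLt (inOrb RA) T.N + 1) ∣ T.N) (hdB : ¬ (countLt (inOrb RB) T.N + 1) ∣ T.N) :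
    IsPreprimitive D (Fin T.N) := by
  set b : Fin T.N := ptOf hP 0 with hb
  have hbv : b.val = 0 := ptOf_val hP 0 hP.hN
  let OA : List (Fin T.N) := (List.finRange T.N).filter fun y => inOrb RA y.val
  let OB : List (Fin T.N) := (List.finRange T.N).filter fun y => inOrb RB y.val
  have key : ∀ (R : Orb) (ω : ℕ) (hω : ω < T.N) (hc : ∀ c < R.m, chkOrb T R ω c = true)
      (hg : ∀ j < R.ng, (∀ a ∈ R.gw j, a < T.K) ∧ ew (sigma hP) (R.gw j) ∈ D ∧
        T.followT (R.gw j) 0 = 0),
      ∀ y : Fin T.N, inOrb R y.val = true → ∀ z : Fin T.N, inOrb R z.val = true →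
        ∃ h ∈ D, h b = b ∧ h y = z := by
    intro R ω hω hc hg
    have hr := orb_reach hP hc (fun j hj => (hg j hj).1) (D ⊓ stabilizer (Perm (Fin T.N)) b)
      (fun j hj => Subgroup.mem_inf.mpr ⟨(hg j hj).2.1,
        ew_sigma_mem_stab hP _ (hg j hj).1 b (by rw [hbv]; exact (hg j hj).2.2)⟩)
      (ptOf hP ω) (ptOf_val hP ω hω)
    have k2 : ∀ y : Fin T.N, inOrb R y.val = true →
        ∃ g ∈ D ⊓ stabilizer (Perm (Fin T.N)) b, g (ptOf hP ω) = y := by
      intro y hy
      obtain ⟨h1, h2⟩ := (inOrb_iff R y.val).mp hy
      obtain ⟨g, hg, hgv⟩ := hr _ h1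
      exact ⟨g, hg, Fin.ext (by rw [hgv, h2])⟩
    intro y hy z hz
    obtain ⟨g1, hg1, hg1y⟩ := k2 y hy
    obtain ⟨g2, hg2, hg2z⟩ := k2 z hz
    have hmem : g2 * g1⁻¹ ∈ D ⊓ stabilizer (Perm (Fin T.N)) b := mul_mem hg2 (inv_mem hg1)
    have hmem' := Subgroup.mem_inf.mp hmem
    refine ⟨g2 * g1⁻¹, hmem'.1, ?_, ?_⟩
    · have := hmem'.2
      rwa [mem_stabilizer_iff, Perm.smul_def] at this
    · rw [Perm.mul_apply, ← hg1y, Perm.inv_eq_iff_eq.mpr rfl, hg2z]
  apply Cfsg.Agent.Lib.Helper19.BSGS.preprimitive_rank3 D b OA OB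
  · intro y
    have h := hcover y.val y.2
    simp only [Bool.or_eq_true] at h
    rcases h with h | h | h
    · exact Or.inl (Fin.ext (by rw [hbv]; exact beq_true h))
    · exact Or.inr (Or.inl (List.mem_filter.mpr ⟨List.mem_finRange y, h⟩))
    · exact Or.inr (Or.inr (List.mem_filter.mpr ⟨List.mem_finRange y, h⟩))
  · intro h
    have h' : inOrb RA b.val = true := (List.mem_filter.mp h).2
    rw [hbv, h0A] at h'
    exact Bool.false_ne_true h'
  · intro h
    have h' : inOrb RB b.val = true := (List.mem_filter.mp h).2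
    rw [hbv, h0B] at h'
    exact Bool.false_ne_true h'
  · exact (List.nodup_finRange _).filter _
  · exact (List.nodup_finRange _).filter _
  · intro y
    obtain ⟨h1, h2⟩ := (inOrb_iff R0 y.val).mp (hfull y.val y.2)
    obtain ⟨g, hg, hgv⟩ := orb_reach hP h0 (fun j hj => (hg0 j hj).1) D
      (fun j hj => (hg0 j hj).2) b hbv _ h1
    exact ⟨g, hg, Fin.ext (by rw [hgv, h2])⟩
  · intro y hy z hz
    exact key RA ωA hωA hA hgA y (List.mem_filter.mp hy).2 z (List.mem_filter.mp hz).2
  · intro y hy z hz
    exact key RB ωB hωB hB hgB y (List.mem_filter.mp hy).2 z (List.mem_filter.mp hz).2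
  · rw [length_filter_finRange]
    exact hdA
  · rw [length_filter_finRange]
    exact hdB

/-- Membership of the words of an orbit certificate in the even subgroup, in decidable form. -/
theorem evenS_words (R : Orb)
    (h : ∀ j < R.ng, (∀ a ∈ R.gw j, a < T.K) ∧ (R.gw j).length % 2 = 0) :
    ∀ j < R.ng, (∀ a ∈ R.gw j, a < T.K) ∧ ew (sigma hP) (R.gw j) ∈ evenS hP := by
  intro j hj
  obtain ⟨h1, h2⟩ := h j hj
  exact ⟨h1, ew_mem_evenS hP ((R.gw j).length / 2) _ (by omega) h1⟩

theorem evenS_words_fix (R : Orb)
    (h : ∀ j < R.ng, (∀ a ∈ R.gw j, a < T.K) ∧ (R.gw j).length % 2 = 0 ∧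
      T.followT (R.gw j) 0 = 0) :
    ∀ j < R.ng, (∀ a ∈ R.gw j, a < T.K) ∧ ew (sigma hP) (R.gw j) ∈ evenS hP ∧
      T.followT (R.gw j) 0 = 0 := by
  intro j hj
  obtain ⟨h1, h2, h3⟩ := h j hj
  exact ⟨h1, ew_mem_evenS hP ((R.gw j).length / 2) _ (by omega) h1, h3⟩

end prim

section evenP

variable {α : Type} [DecidableEq α] (edges : List (α × ℕ × α)) (extra : List (FreeGroup α))
  {gens : List α}

/-- The subgroup of the presented group generated by the products of two generators. -/
noncomputable def evenP (gens : List α) : Subgroup (CoxPresented α edges extra) :=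
  Subgroup.closure {x | ∃ a b, a < gens.length ∧ b < gens.length ∧
    x = pgen edges extra gens a * pgen edges extra gens b}

/-- If the commutator subgroup has index two and the generators form a tree of braid relations,
then the commutator subgroup is the subgroup of the even words. -/
theorem commutator_eq_evenP (hall : ∀ x : α, x ∈ gens) (hnode : ∀ x ∈ gens, x ∈ coxNodes edges)
    (hidx : (commutator (CoxPresented α edges extra)).index = 2) (par : ℕ → ℕ)
    (htree : ∀ k < gens.length, 1 ≤ k → par k < k ∧
      [par k, k, par k, k, par k, k] ∈ coxW edges gens ++ extra.map (wordOf gens)) :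
    commutator (CoxPresented α edges extra) = evenP edges extra gens := by
  set g := pgen edges extra gens with hg
  have hs : ∀ i, g i * g i = 1 := pgen_sq edges extra hall hnode
  have hsi : ∀ i, (g i)⁻¹ = g i := fun i => inv_eq_of_mul_eq_one_right (hs i)
  let ab : ℕ → Abelianization (CoxPresented α edges extra) := fun l => Abelianization.of (g l)
  have hab2 : ∀ l, ab l * ab l = 1 := by
    intro l
    show Abelianization.of (g l) * Abelianization.of (g l) = 1
    rw [← map_mul, hs, map_one]
  have hmemC : ∀ x : CoxPresented α edges extra,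
      x ∈ commutator (CoxPresented α edges extra) ↔ Abelianization.of x = 1 := by
    intro x
    exact (QuotientGroup.eq_one_iff x).symm
  have habpar : ∀ k < gens.length, 1 ≤ k → ab k = ab (par k) := by
    intro k hk hk1
    have hrel := pgen_rel edges extra hall hnode _ (htree k hk hk1).2
    simp only [ew_cons, ew_nil, mul_one] at hrel
    have h1 : ab (par k) * (ab k * (ab (par k) * (ab k * (ab (par k) * ab k)))) = 1 := by
      show Abelianization.of (g (par k)) * (Abelianization.of (g k) *
        (Abelianization.of (g (par k)) * (Abelianization.of (g k) *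
        (Abelianization.of (g (par k)) * Abelianization.of (g k))))) = 1
      simp only [← map_mul]
      rw [hrel, map_one]
    have h2 : ab (par k) * ab k = 1 := by
      have e : ab (par k) * (ab k * (ab (par k) * (ab k * (ab (par k) * ab k)))) =
          (ab (par k) * ab (par k)) * (ab k * ab k) * (ab (par k) * ab k) := by
        simp only [mul_left_comm, mul_comm]
      rw [e, hab2, hab2, one_mul, one_mul] at h1
      exact h1
    have h3 : ab k = (ab (par k))⁻¹ := eq_inv_of_mul_eq_one_right h2
    rw [h3]
    exact inv_eq_of_mul_eq_one_right (hab2 _)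
  have hab0 : ∀ k, k < gens.length → ab k = ab 0 := by
    intro k
    induction k using Nat.strong_induction_on with
    | _ k ih =>
      intro hk
      by_cases hk0 : k = 0
      · rw [hk0]
      · have hk1 : 1 ≤ k := Nat.one_le_iff_ne_zero.mpr hk0
        have hpk := (htree k hk hk1).1
        rw [habpar k hk hk1]
        exact ih (par k) hpk (lt_trans hpk hk)
  have hEle : evenP edges extra gens ≤ commutator (CoxPresented α edges extra) := by
    unfold evenP
    rw [Subgroup.closure_le]
    rintro x ⟨a, b, ha, hb, rfl⟩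
    rw [SetLike.mem_coe, hmemC, map_mul]
    show ab a * ab b = 1
    rw [hab0 a ha, hab0 b hb, hab2]
  -- conjugation by the generator `0` preserves the even subgroup
  by_cases hn : gens.length = 0
  · -- no generators: the group is trivial, which contradicts the index
    exfalso
    have htop := pgen_top edges extra hall
    rw [hn, L_zero] at htop
    have hC : commutator (CoxPresented α edges extra) = ⊤ := by
      rw [eq_top_iff, ← htop]; exact bot_le
    rw [hC, Subgroup.index_top] at hidx
    omega
  have h0 : 0 < gens.length := Nat.pos_of_ne_zero hn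
  have hpair : ∀ a b, a < gens.length → b < gens.length → g a * g b ∈ evenP edges extra gens :=
    fun a b ha hb => Subgroup.subset_closure ⟨a, b, ha, hb, rfl⟩
  have hconj : ∀ x ∈ evenP edges extra gens, g 0 * x * g 0 ∈ evenP edges extra gens := by
    intro x hx
    unfold evenP at hx
    induction hx using Subgroup.closure_induction with
    | mem y hy =>
      obtain ⟨a, b, ha, hb, rfl⟩ := hy
      have e : g 0 * (g a * g b) * g 0 = (g 0 * g a) * (g b * g 0) := by simp only [mul_assoc]
      rw [e]
      exact mul_mem (hpair 0 a h0 ha) (hpair b 0 hb h0)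
    | one => rw [mul_one, hs]; exact one_mem _
    | mul a b _ _ iha ihb =>
      have e : g 0 * (a * b) * g 0 = (g 0 * a * g 0) * (g 0 * b * g 0) := by
        simp only [mul_assoc]
        rw [← mul_assoc (g 0) (g 0), hs, one_mul]
      rw [e]
      exact mul_mem iha ihb
    | inv a _ iha =>
      have e : g 0 * a⁻¹ * g 0 = (g 0 * a * g 0)⁻¹ := by
        rw [mul_inv_rev, mul_inv_rev, hsi, mul_assoc]
      rw [e]
      exact inv_mem iha
  have hQ : ∀ x : CoxPresented α edges extra,
      x ∈ evenP edges extra gens ∨ x * g 0 ∈ evenP edges extra gens := by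
    intro x
    have hx : x ∈ L g gens.length := by rw [pgen_top edges extra hall]; exact Subgroup.mem_top x
    unfold L at hx
    induction hx using Subgroup.closure_induction with
    | mem y hy =>
      obtain ⟨l, hl, rfl⟩ := hy
      exact Or.inr (hpair l 0 hl h0)
    | one => exact Or.inl (one_mem _)
    | mul a b _ _ iha ihb =>
      rcases iha with ha | ha <;> rcases ihb with hb | hb
      · exact Or.inl (mul_mem ha hb)
      · right
        rw [mul_assoc]
        exact mul_mem ha hb
      · right
        have e : a * b * g 0 = (a * g 0) * (g 0 * b * g 0) := by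
          simp only [mul_assoc]
          rw [← mul_assoc (g 0) (g 0), hs, one_mul]
        rw [e]
        exact mul_mem ha (hconj b hb)
      · left
        have e : a * b = (a * g 0) * (g 0 * (b * g 0) * g 0) := by
          simp only [mul_assoc]
          rw [hs, mul_one, ← mul_assoc (g 0) (g 0), hs, one_mul]
        rw [e]
        exact mul_mem ha (hconj _ hb)
    | inv a _ iha =>
      rcases iha with ha | ha
      · exact Or.inl (inv_mem ha)
      · right
        have e : a⁻¹ * g 0 = g 0 * (a * g 0)⁻¹ * g 0 := by
          rw [mul_inv_rev, hsi]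
          simp only [mul_assoc]
          rw [← mul_assoc (g 0) (g 0), hs, one_mul]
        rw [e]
        exact hconj _ (inv_mem ha)
  apply le_antisymm _ hEle
  intro x hx
  rcases hQ x with h | h
  · exact h
  · exfalso
    have h1 : x * g 0 ∈ commutator (CoxPresented α edges extra) := hEle h
    have h2 : g 0 ∈ commutator (CoxPresented α edges extra) := by
      have := mul_mem (inv_mem hx) h1
      rwa [inv_mul_cancel_left] at this
    have h3 : ab 0 = 1 := (hmemC (g 0)).mp h2
    have hC : commutator (CoxPresented α edges extra) = ⊤ := by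
      rw [eq_top_iff, ← pgen_top edges extra hall]
      unfold L
      rw [Subgroup.closure_le]
      rintro y ⟨l, hl, rfl⟩
      rw [SetLike.mem_coe, hmemC]
      show ab l = 1
      rw [hab0 l hl, h3]
    rw [hC, Subgroup.index_top] at hidx
    omega

/-- The commutator subgroup of the presented group is simple of order `B` as soon as it has
index two, the order of the group is at most `2 * B`, the permutation group on the final names
has order at least `2 * B` and its even subgroup is simple. -/
theorem pres_simple_even (T : Tabs) (hP : T.P1)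
    (hK : T.K = gens.length) (hnd : gens.Nodup) (hall : ∀ x : α, x ∈ gens)
    (hnode : ∀ x ∈ gens, x ∈ coxNodes edges)
    (hinv : ∀ l < T.K, T.inv l = l)
    (hrels : T.rels1 = coxW edges gens ++ extra.map (wordOf gens))
    (B : ℕ)
    (hupper : Finite (CoxPresented α edges extra) ∧
      Nat.card (CoxPresented α edges extra) ≤ 2 * B)
    (hlower : 2 * B ≤ Nat.card (L (sigma hP) T.K))
    (hidx : (commutator (CoxPresented α edges extra)).index = 2) (par : ℕ → ℕ)
    (htree : ∀ k < T.K, 1 ≤ k → par k < k ∧ [par k, k, par k, k, par k, k] ∈ T.rels1)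
    (hsimple : Nat.card (evenS hP) = B → IsSimpleGroup (evenS hP)) :
    IsSimpleGroup (commutator (CoxPresented α edges extra)) ∧
      Nat.card (commutator (CoxPresented α edges extra)) = B := by
  obtain ⟨φ, hφ⟩ := cox_hom edges extra T hP hK hnd hall hinv hrels
  obtain ⟨hfin, hle⟩ := hupper
  have hrange : φ.range = L (sigma hP) T.K := by
    rw [MonoidHom.range_eq_map, ← pgen_top edges extra hall]
    unfold L
    rw [MonoidHom.map_closure, Set.image_image, hK]
    congr 1
    ext y
    constructor
    · rintro ⟨l, hl, rfl⟩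
      exact ⟨l, hl, (hφ l).symm⟩
    · rintro ⟨l, hl, rfl⟩
      exact ⟨l, hl, hφ l⟩
  have hsurj : Function.Surjective φ.rangeRestrict := φ.rangeRestrict_surjective
  have hge : 2 * B ≤ Nat.card φ.range := by rw [hrange]; exact hlower
  have hle2 : Nat.card φ.range ≤ Nat.card (CoxPresented α edges extra) :=
    Nat.card_le_card_of_surjective _ hsurj
  have hcr : Nat.card φ.range = 2 * B := le_antisymm (le_trans hle2 hle) hge
  have hbij : Function.Bijective φ.rangeRestrict :=
    hsurj.bijective_of_nat_card_le (by rw [hcr]; exact hle)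
  have hinj : Function.Injective φ := by
    intro x y hxy
    apply hbij.1
    exact Subtype.ext hxy
  have hcard : Nat.card (CoxPresented α edges extra) = 2 * B := by
    rw [Nat.card_congr (Equiv.ofBijective _ hbij), hcr]
  have hC := commutator_eq_evenP edges extra hall hnode hidx par (by
    intro k hk hk1
    rw [← hrels]
    exact htree k (by rw [hK]; exact hk) hk1)
  have hmap : (commutator (CoxPresented α edges extra)).map φ = evenS hP := by
    rw [hC]
    unfold evenP evenS
    rw [MonoidHom.map_closure]
    congr 1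
    ext y
    constructor
    · rintro ⟨x, ⟨a, b, ha, hb, rfl⟩, rfl⟩
      exact ⟨a, b, by rw [hK]; exact ha, by rw [hK]; exact hb, by rw [map_mul, hφ, hφ]⟩
    · rintro ⟨a, b, ha, hb, rfl⟩
      exact ⟨_, ⟨a, b, by rw [← hK]; exact ha, by rw [← hK]; exact hb, rfl⟩,
        by rw [map_mul, hφ, hφ]⟩
  let e : commutator (CoxPresented α edges extra) ≃* evenS hP :=
    ((commutator (CoxPresented α edges extra)).equivMapOfInjective φ hinj).trans
      (MulEquiv.subgroupCongr hmap)
  have hcC : Nat.card (commutator (CoxPresented α edges extra)) = B := by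
    have h := Subgroup.card_mul_index (commutator (CoxPresented α edges extra))
    rw [hidx, hcard] at h
    omega
  have := hsimple (by rw [← Nat.card_congr e.toEquiv]; exact hcC)
  exact ⟨e.isSimpleGroup, hcC⟩

end evenP

section index

/-- A lower bound for the index of `A` in `R` from an orbit of `R` on a set where `A` fixes the
starting point. -/
theorem card_ge_of_orbit {P : Type*} [Group P] {d : ℕ} (φ : P →* Perm (Fin d))
    (R A : Subgroup P) (hAR : A ≤ R) (ω : Fin d) (hA : ∀ x ∈ A, φ x ω = ω) (m : ℕ) (O : ℕ → ℕ)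
    (hinj : ∀ c < m, ∀ c' < m, O c = O c' → c = c')
    (hreach : ∀ c < m, ∃ g ∈ R, ((φ g ω : Fin d) : ℕ) = O c) (hfin : Finite R) :
    m * Nat.card A ≤ Nat.card R := by
  choose! w hwR hwO using hreach
  let F : Fin m × A → R := fun q => ⟨w q.1 * q.2, mul_mem (hwR q.1 q.1.2) (hAR q.2.2)⟩
  have hF : Function.Injective F := by
    rintro ⟨c, a⟩ ⟨c', a'⟩ heq
    have heq' : w c * (a : P) = w c' * (a' : P) := congrArg Subtype.val heq
    have h1 : ((φ (w c * (a : P)) ω : Fin d) : ℕ) = O c := by
      rw [map_mul, Perm.mul_apply, hA a a.2, hwO c c.2]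
    have h2 : ((φ (w c' * (a' : P)) ω : Fin d) : ℕ) = O c' := by
      rw [map_mul, Perm.mul_apply, hA a' a'.2, hwO c' c'.2]
    rw [heq', h2] at h1
    have hcc : (c : ℕ) = c' := hinj c c.2 c' c'.2 h1.symm
    have hcc' : c = c' := Fin.ext hcc
    subst hcc'
    have := mul_left_cancel heq'
    rw [Subtype.ext this]
  have := Nat.card_le_card_of_injective F hF
  rwa [Nat.card_prod, Nat.card_fin] at this

end index

end Cfsg.Agent.Lib.Helper56.TC
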