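import Mathlib
import Cfsg.Agent.Lib.Helper56.TCUpper
import Cfsg.Agent.Lib.Helper35.Schur

set_option autoImplicit false

/-!
The Schur multiplier of a finite group with two generators from a coset enumeration of a
"relaxed" presentation: the orders of the generators are imposed, the other relators are only
made central.
-/

namespace Cfsg.Agent.Lib.Helper56.Relax

open Cfsg Cfsg.Agent.Lib.Helper56.TC Cfsg.Agent.Lib.Helper56.TC.Tabs Cfsg.Agent.Lib.Helper35

open scoped commutatorElement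

section letters

variable {G : Type*} [Group G]

/-- The letters `0, 1, 2, 3` stand for `a, a⁻¹, b, b⁻¹`. -/
def lt (a b : G) : ℕ → G
  | 0 => a
  | 1 => a⁻¹
  | 2 => b
  | 3 => b⁻¹
  | _ => 1

/-- The inverse letter. -/
def invl : ℕ → ℕ
  | 0 => 1
  | 1 => 0
  | 2 => 3
  | 3 => 2
  | (n + 4) => n + 4

/-- The inverse word. -/
def invw (w : List ℕ) : List ℕ := (w.map invl).reverse

/-- The commutator word of a word and a letter. -/
def cmw (c : List ℕ) (x : ℕ) : List ℕ := c ++ [x] ++ invw c ++ [invl x]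

/-- The relaxed relators. -/
def relsOf (e0 e1 : ℕ) (cw : List (List ℕ)) : List (List ℕ) :=
  [List.replicate e0 0, List.replicate e1 2] ++ cw.flatMap (fun c => [cmw c 0, cmw c 2])

theorem lt_invl (a b : G) (l : ℕ) : lt a b (invl l) = (lt a b l)⁻¹ := by
  match l with
  | 0 => rfl
  | 1 => exact (inv_inv a).symm
  | 2 => rfl
  | 3 => exact (inv_inv b).symm
  | (n + 4) => exact inv_one.symm

theorem ew_invw (a b : G) (w : List ℕ) : ew (lt a b) (invw w) = (ew (lt a b) w)⁻¹ := by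
  induction w with
  | nil => simp [invw, ew]
  | cons x w ih =>
    have h : invw (x :: w) = invw w ++ [invl x] := by simp [invw]
    rw [h, ew_append, ih, ew_cons, ew_cons, ew_nil, mul_one, lt_invl, mul_inv_rev]

theorem ew_cmw (a b : G) (c : List ℕ) (x : ℕ) :
    ew (lt a b) (cmw c x) = ⁅ew (lt a b) c, lt a b x⁆ := by
  unfold cmw
  rw [ew_append, ew_append, ew_append, ew_invw, ew_cons, ew_nil, ew_cons, ew_nil, lt_invl,
    commutatorElement_def, mul_one, mul_one]

theorem ew_replicate (g : ℕ → G) (n l : ℕ) : ew g (List.replicate n l) = g l ^ n := by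
  induction n with
  | zero => simp [ew]
  | succ n ih => rw [List.replicate_succ, ew_cons, ih, pow_succ']

theorem map_lt {G' : Type*} [Group G'] (φ : G →* G') (a b : G) (l : ℕ) :
    φ (lt a b l) = lt (φ a) (φ b) l := by
  match l with
  | 0 => rfl
  | 1 => exact map_inv φ a
  | 2 => rfl
  | 3 => exact map_inv φ b
  | (n + 4) => exact map_one φ

theorem map_ew_lt {G' : Type*} [Group G'] (φ : G →* G') (a b : G) (w : List ℕ) :
    φ (ew (lt a b) w) = ew (lt (φ a) (φ b)) w := by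
  rw [map_ew]
  exact ew_congr _ _ _ (fun l _ => map_lt φ a b l)

theorem ew_flatten (g : ℕ → G) (l : List (List ℕ)) :
    ew g l.flatten = (l.map (ew g)).prod := by
  induction l with
  | nil => rfl
  | cons c l ih => rw [List.flatten_cons, ew_append, ih, List.map_cons, List.prod_cons]

theorem ew_flatten_replicate (g : ℕ → G) (k : ℕ) (w : List ℕ) :
    ew g (List.replicate k w).flatten = ew g w ^ k := by
  rw [ew_flatten, List.map_replicate, List.prod_replicate]

/-- The relaxed relators hold as soon as the generators have the right orders and the central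
words commute with the letters. -/
theorem rels_hold (a b : G) (e0 e1 : ℕ) (cw : List (List ℕ)) (ha : a ^ e0 = 1)
    (hb : b ^ e1 = 1) (hc : ∀ c ∈ cw, ∀ x, ⁅ew (lt a b) c, lt a b x⁆ = 1) :
    ∀ w ∈ relsOf e0 e1 cw, ew (lt a b) w = 1 := by
  intro w hw
  unfold relsOf at hw
  simp only [List.mem_append, List.mem_cons, List.mem_flatMap, List.not_mem_nil, or_false] at hw
  rcases hw with (rfl | rfl) | ⟨c, hc', rfl | rfl⟩
  · rw [ew_replicate]; exact ha
  · rw [ew_replicate]; exact hb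
  · rw [ew_cmw]; exact hc c hc' 0
  · rw [ew_cmw]; exact hc c hc' 2

theorem rep0_mem (e0 e1 : ℕ) (cw : List (List ℕ)) : List.replicate e0 0 ∈ relsOf e0 e1 cw := by
  simp [relsOf]

theorem rep1_mem (e0 e1 : ℕ) (cw : List (List ℕ)) : List.replicate e1 2 ∈ relsOf e0 e1 cw := by
  simp [relsOf]

theorem cmw0_mem (e0 e1 : ℕ) {cw : List (List ℕ)} {c : List ℕ} (hc : c ∈ cw) :
    cmw c 0 ∈ relsOf e0 e1 cw := by
  unfold relsOf
  simp only [List.mem_append, List.mem_flatMap, List.mem_cons]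
  exact Or.inr ⟨c, hc, Or.inl rfl⟩

theorem cmw2_mem (e0 e1 : ℕ) {cw : List (List ℕ)} {c : List ℕ} (hc : c ∈ cw) :
    cmw c 2 ∈ relsOf e0 e1 cw := by
  unfold relsOf
  simp only [List.mem_append, List.mem_flatMap, List.mem_cons]
  exact Or.inr ⟨c, hc, Or.inr (Or.inl rfl)⟩

end letters

/-! ### The presented group -/

/-- The relators as elements of the free group. -/
def relSet (rels : List (List ℕ)) : Set (FreeGroup (Fin 2)) :=
  {r | ∃ w ∈ rels, r = ew (lt (FreeGroup.of 0) (FreeGroup.of 1)) w}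

/-- The presented group. -/
abbrev RG (rels : List (List ℕ)) : Type := PresentedGroup (relSet rels)

/-- The first generator. -/
def ra (rels : List (List ℕ)) : RG rels := PresentedGroup.of 0

/-- The second generator. -/
def rb (rels : List (List ℕ)) : RG rels := PresentedGroup.of 1

section pres

variable {rels : List (List ℕ)}

theorem mk_ew (w : List ℕ) :
    PresentedGroup.mk (relSet rels) (ew (lt (FreeGroup.of 0) (FreeGroup.of 1)) w) =
      ew (lt (ra rels) (rb rels)) w :=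
  map_ew_lt _ _ _ _

theorem rel_RG (w : List ℕ) (hw : w ∈ rels) : ew (lt (ra rels) (rb rels)) w = 1 := by
  rw [← mk_ew]
  exact PresentedGroup.one_of_mem ⟨w, hw, rfl⟩

theorem lift_ew {G : Type*} [Group G] (f : Fin 2 → G) (w : List ℕ) :
    FreeGroup.lift f (ew (lt (FreeGroup.of 0) (FreeGroup.of 1)) w) = ew (lt (f 0) (f 1)) w := by
  rw [map_ew_lt, FreeGroup.lift_apply_of, FreeGroup.lift_apply_of]

/-- The homomorphism out of the presented group. -/
def toG {G : Type*} [Group G] (f : Fin 2 → G) (h : ∀ w ∈ rels, ew (lt (f 0) (f 1)) w = 1) :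
    RG rels →* G :=
  PresentedGroup.toGroup (f := f) (by
    rintro r ⟨w, hw, rfl⟩
    rw [lift_ew]
    exact h w hw)

theorem toG_ra {G : Type*} [Group G] (f : Fin 2 → G)
    (h : ∀ w ∈ rels, ew (lt (f 0) (f 1)) w = 1) : toG f h (ra rels) = f 0 :=
  PresentedGroup.toGroup.of _

theorem toG_rb {G : Type*} [Group G] (f : Fin 2 → G)
    (h : ∀ w ∈ rels, ew (lt (f 0) (f 1)) w = 1) : toG f h (rb rels) = f 1 :=
  PresentedGroup.toGroup.of _

theorem toG_of {G : Type*} [Group G] (f : Fin 2 → G)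
    (h : ∀ w ∈ rels, ew (lt (f 0) (f 1)) w = 1) (i : Fin 2) :
    toG f h (PresentedGroup.of i) = f i :=
  PresentedGroup.toGroup.of _

theorem toG_mk {G : Type*} [Group G] (f : Fin 2 → G)
    (h : ∀ w ∈ rels, ew (lt (f 0) (f 1)) w = 1) (x : FreeGroup (Fin 2)) :
    toG f h (PresentedGroup.mk (relSet rels) x) = FreeGroup.lift f x := rfl

theorem closure_gen : Subgroup.closure {ra rels, rb rels} = ⊤ := by
  rw [eq_top_iff, ← PresentedGroup.closure_range_of]
  apply Subgroup.closure_mono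
  rintro _ ⟨i, rfl⟩
  fin_cases i
  · exact Or.inl rfl
  · exact Or.inr rfl

theorem central_of_comm {x : RG rels} (h0 : x * ra rels = ra rels * x)
    (h1 : x * rb rels = rb rels * x) : x ∈ Subgroup.center (RG rels) := by
  have hle : (⊤ : Subgroup (RG rels)) ≤ Subgroup.centralizer {x} := by
    rw [← closure_gen, Subgroup.closure_le]
    intro y hy
    rw [SetLike.mem_coe, Subgroup.mem_centralizer_iff]
    intro z hz
    rw [Set.mem_singleton_iff] at hz
    subst hz
    rcases hy with rfl | rfl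
    · exact h0
    · exact h1
  rw [Subgroup.mem_center_iff]
  intro g
  exact (Subgroup.mem_centralizer_iff.mp (hle (Subgroup.mem_top g)) x rfl).symm

end pres

/-! ### Abstract lemmas -/

section abstract

/-- The target of the degree map. -/
abbrev DD (e0 e1 : ℕ) : Type := Multiplicative (ZMod e0) × Multiplicative (ZMod e1)

/-- The degree of the first generator. -/
def d0 (e0 e1 : ℕ) : DD e0 e1 := (Multiplicative.ofAdd 1, 1)

/-- The degree of the second generator. -/
def d1 (e0 e1 : ℕ) : DD e0 e1 := (1, Multiplicative.ofAdd 1)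

theorem pow_zmod (n : ℕ) (x : Multiplicative (ZMod n)) : x ^ n = 1 := by
  have h : n • (Multiplicative.toAdd x) = 0 := by
    rw [nsmul_eq_mul, ZMod.natCast_self, zero_mul]
  exact congrArg Multiplicative.ofAdd h

theorem d0_pow (e0 e1 : ℕ) : d0 e0 e1 ^ e0 = 1 :=
  Prod.ext (pow_zmod e0 _) (one_pow _)

theorem d1_pow (e0 e1 : ℕ) : d1 e0 e1 ^ e1 = 1 :=
  Prod.ext (one_pow _) (pow_zmod e1 _)

theorem ofAdd_one_pow_val (n : ℕ) [NeZero n] (x : ZMod n) :
    (Multiplicative.ofAdd (1 : ZMod n)) ^ x.val = Multiplicative.ofAdd x := by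
  have h : x.val • (1 : ZMod n) = x := by
    rw [nsmul_eq_mul, mul_one, ZMod.natCast_zmod_val]
  exact congrArg Multiplicative.ofAdd h

theorem dvd_of_zpow_eq_one (n : ℕ) (i : ℤ)
    (h : (Multiplicative.ofAdd (1 : ZMod n)) ^ i = 1) : (n : ℤ) ∣ i := by
  have h1 : i • (1 : ZMod n) = 0 := congrArg Multiplicative.toAdd h
  rw [zsmul_eq_mul, mul_one] at h1
  exact (ZMod.intCast_zmod_eq_zero_iff_dvd i n).mp h1

theorem card_DD (e0 e1 : ℕ) : Nat.card (DD e0 e1) = e0 * e1 := by
  rw [Nat.card_prod, Nat.card_congr Multiplicative.toAdd, Nat.card_congr Multiplicative.toAdd,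
    Nat.card_zmod, Nat.card_zmod]

theorem mem_closure_pair_central {G : Type*} [Group G] {x y z : G}
    (hx : x ∈ Subgroup.center G) (hz : z ∈ Subgroup.closure {x, y}) :
    ∃ i j : ℤ, z = x ^ i * y ^ j := by
  have hc : ∀ (i : ℤ) (g : G), g * x ^ i = x ^ i * g := fun i g =>
    Subgroup.mem_center_iff.mp (Subgroup.zpow_mem _ hx i) g
  induction hz using Subgroup.closure_induction with
  | mem g hg =>
    rcases hg with rfl | rfl
    · exact ⟨1, 0, by simp⟩
    · exact ⟨0, 1, by simp⟩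
  | one => exact ⟨0, 0, by simp⟩
  | mul g h _ _ ihg ihh =>
    obtain ⟨i, j, rfl⟩ := ihg
    obtain ⟨i', j', rfl⟩ := ihh
    refine ⟨i + i', j + j', ?_⟩
    rw [zpow_add, zpow_add]
    calc x ^ i * y ^ j * (x ^ i' * y ^ j') = x ^ i * (y ^ j * x ^ i') * y ^ j' := by group
      _ = x ^ i * (x ^ i' * y ^ j) * y ^ j' := by rw [hc i' (y ^ j)]
      _ = x ^ i * x ^ i' * (y ^ j * y ^ j') := by group
  | inv g _ ih =>
    obtain ⟨i, j, rfl⟩ := ih
    refine ⟨-i, -j, ?_⟩
    rw [mul_inv_rev, ← zpow_neg, ← zpow_neg, hc]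

/-- Counting in a central extension with a degree map. -/
theorem abstract_count {R Q D : Type*} [Group R] [Group Q] [Group D] [Finite R] [Finite Q]
    [Finite D] (ρ : R →* Q) (δ : R →* D) (hρ : Function.Surjective ρ)
    (hδ : ∀ d : D, ∃ z ∈ ρ.ker, δ z = d) (m : ℕ)
    (hcard : Nat.card R ≤ Nat.card Q * Nat.card D * m) (zw : R) (hzw : zw ∈ ρ.ker ⊓ δ.ker)
    (hord : ∀ k, 0 < k → k < m → zw ^ k ≠ 1) :
    ρ.ker ⊓ δ.ker = Subgroup.zpowers zw ∧ orderOf zw = m := by
  have hsurj : Function.Surjective (ρ.prod δ) := by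
    rintro ⟨q, d⟩
    obtain ⟨r, rfl⟩ := hρ q
    obtain ⟨z, hz, hzd⟩ := hδ (d * (δ r)⁻¹)
    refine ⟨z * r, ?_⟩
    rw [MonoidHom.prod_apply, map_mul, map_mul, hzd, MonoidHom.mem_ker.mp hz, one_mul,
      inv_mul_cancel_right]
  have hker : (ρ.prod δ).ker = ρ.ker ⊓ δ.ker := MonoidHom.ker_prod ρ δ
  have h1 : Nat.card (ρ.prod δ).ker * Nat.card (Q × D) = Nat.card R := by
    have h := Subgroup.card_mul_index (ρ.prod δ).ker
    rw [Subgroup.index_ker, MonoidHom.range_eq_top.mpr hsurj, Subgroup.card_top] at h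
    exact h
  rw [Nat.card_prod, hker] at h1
  have hpos : 0 < Nat.card Q * Nat.card D := Nat.mul_pos Nat.card_pos Nat.card_pos
  have h2 : Nat.card ↥(ρ.ker ⊓ δ.ker) ≤ m := by
    have h3 : Nat.card ↥(ρ.ker ⊓ δ.ker) * (Nat.card Q * Nat.card D) ≤
        m * (Nat.card Q * Nat.card D) := by
      rw [h1, Nat.mul_comm m]
      exact hcard
    exact Nat.le_of_mul_le_mul_right h3 hpos
  have h4 : m ≤ orderOf zw := by
    by_contra hlt
    exact hord (orderOf zw) (orderOf_pos zw) (not_le.mp hlt) (pow_orderOf_eq_one zw)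
  have h5 : Subgroup.zpowers zw ≤ ρ.ker ⊓ δ.ker := (Subgroup.zpowers_le).mpr hzw
  have h6 : Nat.card (Subgroup.zpowers zw) = orderOf zw := Nat.card_zpowers zw
  have h7 : Subgroup.zpowers zw = ρ.ker ⊓ δ.ker :=
    Subgroup.eq_of_le_of_card_ge h5 (by rw [h6]; exact h2.trans h4)
  refine ⟨h7.symm, le_antisymm ?_ h4⟩
  rw [← h6, h7]
  exact h2

/-- The kernel of the degree map is the commutator subgroup. -/
theorem ker_le_commutator {R : Type*} [Group R] (a b : R)
    (hgen : Subgroup.closure {a, b} = ⊤) (e0 e1 : ℕ) (ha : a ^ e0 = 1) (hb : b ^ e1 = 1)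
    (δ : R →* DD e0 e1) (hδa : δ a = d0 e0 e1) (hδb : δ b = d1 e0 e1) :
    δ.ker ≤ commutator R := by
  intro z hz
  have h1 : Abelianization.of z ∈
      Subgroup.closure {(Abelianization.of a : Abelianization R), Abelianization.of b} := by
    have h2 : Subgroup.closure {(Abelianization.of a : Abelianization R), Abelianization.of b} =
        (Subgroup.closure {a, b}).map Abelianization.of := by
      rw [MonoidHom.map_closure, Set.image_pair]
    rw [h2, hgen]
    exact Subgroup.mem_map_of_mem _ (Subgroup.mem_top z)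
  obtain ⟨i, j, hij⟩ := Subgroup.mem_closure_pair.mp h1
  have hc : (a ^ i * b ^ j)⁻¹ * z ∈ commutator R := by
    rw [← Abelianization.ker_of, MonoidHom.mem_ker, map_mul, map_inv, map_mul, map_zpow,
      map_zpow, hij, inv_mul_cancel]
  have hδc : δ ((a ^ i * b ^ j)⁻¹ * z) = 1 :=
    MonoidHom.mem_ker.mp (Abelianization.commutator_subset_ker δ hc)
  rw [map_mul, MonoidHom.mem_ker.mp hz, mul_one, map_inv, inv_eq_one, map_mul, map_zpow,
    map_zpow, hδa, hδb] at hδc
  have hi : (Multiplicative.ofAdd (1 : ZMod e0)) ^ i = 1 := by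
    have := congrArg Prod.fst hδc
    simpa [d0, d1] using this
  have hj : (Multiplicative.ofAdd (1 : ZMod e1)) ^ j = 1 := by
    have := congrArg Prod.snd hδc
    simpa [d0, d1] using this
  obtain ⟨k, rfl⟩ := dvd_of_zpow_eq_one e0 i hi
  obtain ⟨l, rfl⟩ := dvd_of_zpow_eq_one e1 j hj
  have ha' : a ^ ((e0 : ℤ) * k) = 1 := by rw [zpow_mul, zpow_natCast, ha, one_zpow]
  have hb' : b ^ ((e1 : ℤ) * l) = 1 := by rw [zpow_mul, zpow_natCast, hb, one_zpow]
  rw [ha', hb', mul_one, inv_one, one_mul] at hc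
  exact hc

end abstract

/-! ### The multiplier -/

section schur

variable {Q : Type} [Group Q]

/-- Existence of the Schur multiplier, for any finite generating family. -/
theorem hasSchurMultiplier_Mf [Finite Q] {ι : Type} [Finite ι] (f : ι → Q)
    (hf : Function.Surjective (piF f)) : HasSchurMultiplier Q (M f) := by
  constructor
  · obtain ⟨S, hSK, hSM, hdec⟩ := exists_complement f (piE f).ker le_rfl
    obtain ⟨Γ, hG, hF, σ, ρ, hstem, -, -, -, he⟩ := cover_of_complement hf S hSK hSM hdec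
    exact ⟨Γ, hG, hF, σ, hstem, he⟩
  · intro Γ _ _ σ hσ
    obtain ⟨p, hp⟩ := exists_surj_M hf σ hσ.1 hσ.2.1
    have hle : σ.ker ⊓ commutator Γ = σ.ker := inf_eq_left.mpr hσ.2.2
    refine ⟨(Subgroup.inclusion (inf_le_left : σ.ker ⊓ commutator Γ ≤ σ.ker)).comp p, ?_⟩
    rintro ⟨x, hx⟩
    have hx' : x ∈ σ.ker ⊓ commutator Γ := by rw [hle]; exact hx
    obtain ⟨m, hm⟩ := hp ⟨x, hx'⟩
    refine ⟨m, Subtype.ext ?_⟩
    have := congrArg Subtype.val hm
    exact this

theorem hasSchurMultiplier_congr {A B : Type} [CommGroup A] [CommGroup B]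
    (h : HasSchurMultiplier Q A) (e : A ≃* B) : HasSchurMultiplier Q B := by
  obtain ⟨⟨Γ, hG, hF, σ, hσ, ⟨e₀⟩⟩, h2⟩ := h
  refine ⟨⟨Γ, hG, hF, σ, hσ, ⟨e₀.trans e⟩⟩, ?_⟩
  intro Γ' _ _ σ' hσ'
  obtain ⟨π, hπ⟩ := h2 Γ' σ' hσ'
  exact ⟨π.comp e.symm.toMonoidHom, hπ.comp e.symm.surjective⟩

/-- The multiplier embeds in the relaxed group. -/
theorem exists_inj (f : Fin 2 → Q) (e0 e1 : ℕ) (he0 : 0 < e0) (he1 : 0 < e1)
    (cw : List (List ℕ)) (rels : List (List ℕ)) (hrels : rels = relsOf e0 e1 cw)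
    (hq0 : f 0 ^ e0 = 1) (hq1 : f 1 ^ e1 = 1) (hcw : ∀ c ∈ cw, ew (lt (f 0) (f 1)) c = 1)
    (ρ : RG rels →* Q) (hρa : ρ (ra rels) = f 0) (hρb : ρ (rb rels) = f 1)
    (hker : ρ.ker ≤ Subgroup.center (RG rels)) :
    ∃ θ : M f →* ↥(ρ.ker ⊓ commutator (RG rels)), Function.Injective θ := by
  subst hrels
  let mkR : FreeGroup (Fin 2) →* RG (relsOf e0 e1 cw) := PresentedGroup.mk (relSet (relsOf e0 e1 cw))
  have hρmk : ρ.comp mkR = piF f := by
    apply FreeGroup.ext_hom
    intro i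
    fin_cases i
    · show ρ (ra _) = piF f (FreeGroup.of 0)
      rw [hρa]; unfold piF; rw [FreeGroup.lift_apply_of]
    · show ρ (rb _) = piF f (FreeGroup.of 1)
      rw [hρb]; unfold piF; rw [FreeGroup.lift_apply_of]
  have hle : relN f ≤ mkR.ker := by
    unfold relN
    rw [Subgroup.commutator_le]
    intro a ha b _
    rw [MonoidHom.mem_ker, map_commutatorElement]
    have hz : mkR a ∈ Subgroup.center (RG (relsOf e0 e1 cw)) := hker (by
      rw [MonoidHom.mem_ker, ← MonoidHom.comp_apply, hρmk]; exact ha)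
    rw [commutatorElement_eq_one_iff_mul_comm]
    exact (Subgroup.mem_center_iff.mp hz (mkR b)).symm
  let θ : CE f →* RG (relsOf e0 e1 cw) := QuotientGroup.lift (relN f) mkR hle
  have hρθ : ∀ x : CE f, ρ (θ x) = piE f x := by
    intro x
    induction x using QuotientGroup.induction_on with
    | H x => exact DFunLike.congr_fun hρmk x
  -- the degree map on the free central extension
  let εF : FreeGroup (Fin 2) →* Multiplicative (ℤ × ℤ) :=
    FreeGroup.lift ![Multiplicative.ofAdd (1, 0), Multiplicative.ofAdd (0, 1)]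
  have hεle : relN f ≤ εF.ker := by
    refine le_trans ?_ (Abelianization.commutator_subset_ker εF)
    unfold relN
    rw [commutator_def]
    exact Subgroup.commutator_mono le_top le_rfl
  let ε : CE f →* Multiplicative (ℤ × ℤ) := QuotientGroup.lift (relN f) εF hεle
  -- the torsion elements
  let xa : CE f := QuotientGroup.mk (FreeGroup.of 0)
  let xb : CE f := QuotientGroup.mk (FreeGroup.of 1)
  have hxa : piE f xa = f 0 := by
    show piF f (FreeGroup.of 0) = f 0
    unfold piF; rw [FreeGroup.lift_apply_of]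
  have hxb : piE f xb = f 1 := by
    show piF f (FreeGroup.of 1) = f 1
    unfold piF; rw [FreeGroup.lift_apply_of]
  have hE0 : xa ^ e0 ∈ (piE f).ker := by rw [MonoidHom.mem_ker, map_pow, hxa, hq0]
  have hE1 : xb ^ e1 ∈ (piE f).ker := by rw [MonoidHom.mem_ker, map_pow, hxb, hq1]
  let T : Subgroup (CE f) := Subgroup.closure {xa ^ e0, xb ^ e1}
  have hT : T ≤ (piE f).ker := by
    show Subgroup.closure {xa ^ e0, xb ^ e1} ≤ (piE f).ker
    rw [Subgroup.closure_le]
    rintro _ (rfl | rfl)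
    · exact hE0
    · exact hE1
  have hTn : T.Normal := normal_of_le_ker hT
  let A : CE f ⧸ T := QuotientGroup.mk' T xa
  let B : CE f ⧸ T := QuotientGroup.mk' T xb
  have hψrel : ∀ w ∈ relsOf e0 e1 cw, ew (lt A B) w = 1 := by
    apply rels_hold A B e0 e1 cw
    · show (QuotientGroup.mk' T xa) ^ e0 = 1
      rw [← map_pow, QuotientGroup.mk'_apply, QuotientGroup.eq_one_iff]
      exact Subgroup.subset_closure (Or.inl rfl)
    · show (QuotientGroup.mk' T xb) ^ e1 = 1
      rw [← map_pow, QuotientGroup.mk'_apply, QuotientGroup.eq_one_iff]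
      exact Subgroup.subset_closure (Or.inr rfl)
    · intro c hc x
      have h1 : ew (lt A B) c = QuotientGroup.mk' T (ew (lt xa xb) c) :=
        (map_ew_lt _ _ _ _).symm
      have h2 : lt A B x = QuotientGroup.mk' T (lt xa xb x) := (map_lt _ _ _ _).symm
      have h3 : ew (lt xa xb) c ∈ Subgroup.center (CE f) := by
        apply ker_piE_le_center f
        rw [MonoidHom.mem_ker, map_ew_lt, hxa, hxb]
        exact hcw c hc
      rw [h1, h2, ← map_commutatorElement,
        commutatorElement_eq_one_iff_mul_comm.mpr (Subgroup.mem_center_iff.mp h3 _).symm,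
        map_one]
  let ψ : RG (relsOf e0 e1 cw) →* CE f ⧸ T :=
    toG (fun i => QuotientGroup.mk' T (QuotientGroup.mk (FreeGroup.of i))) hψrel
  have hψθ : ∀ x : CE f, ψ (θ x) = QuotientGroup.mk' T x := by
    intro x
    induction x using QuotientGroup.induction_on with
    | H x =>
      have h : ψ.comp mkR = (QuotientGroup.mk' T).comp (QuotientGroup.mk' (relN f)) := by
        apply FreeGroup.ext_hom
        intro i
        exact toG_of (fun i => QuotientGroup.mk' T (QuotientGroup.mk (FreeGroup.of i))) hψrel i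
      exact DFunLike.congr_fun h x
  -- the map
  have hmem : ∀ z : M f, (θ.comp (M f).subtype) z ∈
      ρ.ker ⊓ commutator (RG (relsOf e0 e1 cw)) := by
    intro z
    have hz1 : (z : CE f) ∈ (piE f).ker := M_le_ker f z.2
    have hz2 : (z : CE f) ∈ commutator (CE f) := M_le_commutator f z.2
    have h1 : θ (z : CE f) ∈ ρ.ker := by
      rw [MonoidHom.mem_ker, hρθ]; exact hz1
    have hcomm : commutator (CE f) ≤ (commutator (RG (relsOf e0 e1 cw))).comap θ := by
      rw [commutator_def, Subgroup.commutator_le]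
      intro a _ b _
      rw [Subgroup.mem_comap, map_commutatorElement]
      exact Subgroup.commutator_mem_commutator (Subgroup.mem_top _) (Subgroup.mem_top _)
    exact Subgroup.mem_inf.mpr ⟨h1, hcomm hz2⟩
  refine ⟨(θ.comp (M f).subtype).codRestrict _ hmem, ?_⟩
  rw [injective_iff_map_eq_one]
  intro z hz
  have hz0 : θ (z : CE f) = 1 := congrArg Subtype.val hz
  have hzT : (z : CE f) ∈ T := by
    rw [← QuotientGroup.eq_one_iff, ← QuotientGroup.mk'_apply, ← hψθ, hz0, map_one]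
  have hcen : xa ^ e0 ∈ Subgroup.center (CE f) := ker_piE_le_center f hE0
  obtain ⟨i, j, hij⟩ := mem_closure_pair_central hcen hzT
  have hε1 : ε (z : CE f) = 1 :=
    MonoidHom.mem_ker.mp (Abelianization.commutator_subset_ker ε (M_le_commutator f z.2))
  have hεa : ε xa = Multiplicative.ofAdd (1, 0) := by
    show εF (FreeGroup.of 0) = _
    simp [εF]
  have hεb : ε xb = Multiplicative.ofAdd (0, 1) := by
    show εF (FreeGroup.of 1) = _
    simp [εF]
  rw [hij, map_mul, map_zpow, map_zpow, map_pow, map_pow, hεa, hεb] at hε1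
  have h2 : i • (e0 • ((1 : ℤ), (0 : ℤ))) + j • (e1 • ((0 : ℤ), (1 : ℤ))) = 0 :=
    congrArg Multiplicative.toAdd hε1
  have hi : i = 0 := by
    have h3 := congrArg Prod.fst h2
    simp at h3
    rcases h3 with h | h
    · exact h
    · omega
  have hj : j = 0 := by
    have h3 := congrArg Prod.snd h2
    simp at h3
    rcases h3 with h | h
    · exact h
    · omega
  apply Subtype.ext
  rw [hij, hi, hj]
  simp

end schur

/-! ### The main theorem -/

/-- The hypotheses: a certificate of the coset enumeration of the relaxed presentation over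
the subgroup generated by the second generator, and a few words. -/
structure Hyp {Q : Type} [Group Q] (f : Fin 2 → Q) (T : Tabs) (e0 e1 m : ℕ)
    (cw : List (List ℕ)) (v0 v1 w0 : List ℕ) : Prop where
  cert : T.Cert
  he0 : 0 < e0
  he1 : 0 < e1
  hm : 0 < m
  hK : T.K = 4
  hinv : ∀ l < 4, T.inv l = invl l
  hrels : T.rels1 = relsOf e0 e1 cw
  hsubs : T.subs = [[2]]
  hN : T.N = e0 * m * Nat.card Q
  hf : Function.Surjective (piF f)
  hq0 : f 0 ^ e0 = 1
  hq1 : f 1 ^ e1 = 1
  hcw : ∀ c ∈ cw, ew (lt (f 0) (f 1)) c = 1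
  hv0 : ∃ l : List (List ℕ), (∀ c ∈ l, c ∈ cw) ∧ v0 = l.flatten
  hv1 : ∃ l : List (List ℕ), (∀ c ∈ l, c ∈ cw) ∧ v1 = l.flatten
  hw0 : ∃ l : List (List ℕ), (∀ c ∈ l, c ∈ cw) ∧ w0 = l.flatten
  hd0 : ew (lt (d0 e0 e1) (d1 e0 e1)) v0 = d0 e0 e1
  hd1 : ew (lt (d0 e0 e1) (d1 e0 e1)) v1 = d1 e0 e1
  hdw : ew (lt (d0 e0 e1) (d1 e0 e1)) w0 = 1
  htr : ∀ k, 0 < k → k < m → T.followT (List.replicate k w0).flatten 0 ≠ 0

theorem main {Q : Type} [Group Q] [Finite Q] {f : Fin 2 → Q} {T : Tabs} {e0 e1 m : ℕ}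
    {cw : List (List ℕ)} {v0 v1 w0 : List ℕ} (H : Hyp f T e0 e1 m cw v0 v1 w0) :
    HasSchurMultiplier Q (Multiplicative (ZMod m)) := by
  have hP : T.P1 := H.cert.p1
  haveI : NeZero e0 := ⟨H.he0.ne'⟩
  haveI : NeZero e1 := ⟨H.he1.ne'⟩
  haveI : NeZero m := ⟨H.hm.ne'⟩
  have hK0 : (0 : ℕ) < T.K := by rw [H.hK]; norm_num
  have hK2 : (2 : ℕ) < T.K := by rw [H.hK]; norm_num
  -- relators in the presented group
  have hrelR : ∀ w ∈ T.rels1, ew (lt (ra T.rels1) (rb T.rels1)) w = 1 :=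
    fun w hw => rel_RG w hw
  have ha : ra T.rels1 ^ e0 = 1 := by
    have h := hrelR _ (by rw [H.hrels]; exact rep0_mem e0 e1 cw)
    rwa [ew_replicate] at h
  have hb : rb T.rels1 ^ e1 = 1 := by
    have h := hrelR _ (by rw [H.hrels]; exact rep1_mem e0 e1 cw)
    rwa [ew_replicate] at h
  -- finiteness
  have hfin : Finite (RG T.rels1) ∧ Nat.card (RG T.rels1) ≤ T.N * e1 := by
    have hfo : IsOfFinOrder (rb T.rels1) := isOfFinOrder_iff_pow_eq_one.mpr ⟨e1, H.he1, hb⟩
    haveI : Finite (Subgroup.zpowers (rb T.rels1)) := hfo.finite_zpowers.to_subtype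
    have hgen : Subgroup.closure {x : RG T.rels1 | ∃ l < T.K, x = lt (ra T.rels1) (rb T.rels1) l}
        = ⊤ := by
      rw [eq_top_iff, ← closure_gen (rels := T.rels1)]
      apply Subgroup.closure_mono
      rintro _ (rfl | rfl)
      · exact ⟨0, hK0, rfl⟩
      · exact ⟨2, hK2, rfl⟩
    obtain ⟨h1, h2⟩ := card_le_of_cert (G := RG T.rels1) (H := Subgroup.zpowers (rb T.rels1))
      (g := lt (ra T.rels1) (rb T.rels1)) H.cert hgen
      (fun l hl => by rw [H.hinv l (by rwa [H.hK] at hl), lt_invl])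
      hrelR
      (fun s hs => by
        rw [H.hsubs, List.mem_singleton] at hs
        subst hs
        rw [ew_cons, ew_nil, mul_one]
        exact Subgroup.mem_zpowers (rb T.rels1))
    refine ⟨h1, h2.trans (Nat.mul_le_mul_left _ ?_)⟩
    rw [Nat.card_zpowers]
    exact orderOf_le_of_pow_eq_one H.he1 hb
  haveI : Finite (RG T.rels1) := hfin.1
  -- the map to the group
  have hρrel : ∀ w ∈ T.rels1, ew (lt (f 0) (f 1)) w = 1 := by
    rw [H.hrels]
    exact rels_hold (f 0) (f 1) e0 e1 cw H.hq0 H.hq1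
      (fun c hc x => by rw [H.hcw c hc]; exact commutatorElement_one_left _)
  let ρ : RG T.rels1 →* Q := toG f hρrel
  have hρa : ρ (ra T.rels1) = f 0 := toG_ra f hρrel
  have hρb : ρ (rb T.rels1) = f 1 := toG_rb f hρrel
  have hρsurj : Function.Surjective ρ := by
    intro q
    obtain ⟨x, hx⟩ := H.hf q
    exact ⟨PresentedGroup.mk (relSet T.rels1) x, hx⟩
  -- the degree map
  have hδrel : ∀ w ∈ T.rels1, ew (lt (d0 e0 e1) (d1 e0 e1)) w = 1 := by
    rw [H.hrels]
    exact rels_hold (d0 e0 e1) (d1 e0 e1) e0 e1 cw (d0_pow e0 e1) (d1_pow e0 e1)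
      (fun c _ x => commutatorElement_eq_one_iff_commute.mpr (Commute.all _ _))
  let δ : RG T.rels1 →* DD e0 e1 := toG ![d0 e0 e1, d1 e0 e1] hδrel
  have hδa : δ (ra T.rels1) = d0 e0 e1 := toG_ra _ hδrel
  have hδb : δ (rb T.rels1) = d1 e0 e1 := toG_rb _ hδrel
  -- the permutation representation
  have hlt : ∀ l < 4, lt (sigma hP 0) (sigma hP 2) l = sigma hP l := by
    intro l hl
    have e0' := sigma_inv hP 0 hK0
    have e2' := sigma_inv hP 2 hK2
    rw [H.hinv 0 (by norm_num)] at e0'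
    rw [H.hinv 2 (by norm_num)] at e2'
    interval_cases l
    · rfl
    · exact e0'.symm
    · rfl
    · exact e2'.symm
  have hφrel : ∀ w ∈ T.rels1, ew (lt (sigma hP 0) (sigma hP 2)) w = 1 := by
    intro w hw
    rw [ew_congr _ (sigma hP) w (fun x hx => hlt x (by
      have h := hP.hrelK w hw x hx
      rwa [H.hK] at h))]
    exact sigma_rel hP w hw
  let φ : RG T.rels1 →* Equiv.Perm (Fin T.N) := toG ![sigma hP 0, sigma hP 2] hφrel
  have hφa : φ (ra T.rels1) = sigma hP 0 := toG_ra _ hφrel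
  have hφb : φ (rb T.rels1) = sigma hP 2 := toG_rb _ hφrel
  -- the central words
  have hcwR : ∀ c ∈ cw, ew (lt (ra T.rels1) (rb T.rels1)) c ∈
      Subgroup.center (RG T.rels1) ⊓ ρ.ker := by
    intro c hc
    have h0 := hrelR _ (by rw [H.hrels]; exact cmw0_mem e0 e1 hc)
    have h2 := hrelR _ (by rw [H.hrels]; exact cmw2_mem e0 e1 hc)
    rw [ew_cmw, commutatorElement_eq_one_iff_mul_comm] at h0 h2
    refine Subgroup.mem_inf.mpr ⟨central_of_comm h0 h2, ?_⟩
    rw [MonoidHom.mem_ker, map_ew_lt, hρa, hρb]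
    exact H.hcw c hc
  have hcwK : ∀ c ∈ cw, ∀ x ∈ c, x < 4 := by
    intro c hc x hx
    have hmem : cmw c 0 ∈ T.rels1 := by rw [H.hrels]; exact cmw0_mem e0 e1 hc
    have h := hP.hrelK _ hmem x (by unfold cmw; simp [hx])
    rwa [H.hK] at h
  have hflat : ∀ l : List (List ℕ), (∀ c ∈ l, c ∈ cw) →
      ew (lt (ra T.rels1) (rb T.rels1)) l.flatten ∈ Subgroup.center (RG T.rels1) ⊓ ρ.ker := by
    intro l hl
    rw [ew_flatten]
    apply Subgroup.list_prod_mem
    intro x hx
    rw [List.mem_map] at hx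
    obtain ⟨c, hc, rfl⟩ := hx
    exact hcwR c (hl c hc)
  have hflatK : ∀ l : List (List ℕ), (∀ c ∈ l, c ∈ cw) → ∀ x ∈ l.flatten, x < 4 := by
    intro l hl x hx
    rw [List.mem_flatten] at hx
    obtain ⟨c, hc, hxc⟩ := hx
    exact hcwK c (hl c hc) x hxc
  obtain ⟨l0, hl0, hv0⟩ := H.hv0
  obtain ⟨l1, hl1, hv1⟩ := H.hv1
  obtain ⟨lw, hlw, hw0⟩ := H.hw0
  have hz0 : ew (lt (ra T.rels1) (rb T.rels1)) v0 ∈ Subgroup.center (RG T.rels1) ⊓ ρ.ker := by
    rw [hv0]; exact hflat l0 hl0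
  have hz1 : ew (lt (ra T.rels1) (rb T.rels1)) v1 ∈ Subgroup.center (RG T.rels1) ⊓ ρ.ker := by
    rw [hv1]; exact hflat l1 hl1
  have hzw : ew (lt (ra T.rels1) (rb T.rels1)) w0 ∈ Subgroup.center (RG T.rels1) ⊓ ρ.ker := by
    rw [hw0]; exact hflat lw hlw
  have hw0K : ∀ x ∈ w0, x < 4 := by
    rw [hw0]; exact hflatK lw hlw
  have hδv0 : δ (ew (lt (ra T.rels1) (rb T.rels1)) v0) = d0 e0 e1 := by
    rw [map_ew_lt, hδa, hδb]; exact H.hd0
  have hδv1 : δ (ew (lt (ra T.rels1) (rb T.rels1)) v1) = d1 e0 e1 := by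
    rw [map_ew_lt, hδa, hδb]; exact H.hd1
  have hδw : δ (ew (lt (ra T.rels1) (rb T.rels1)) w0) = 1 := by
    rw [map_ew_lt, hδa, hδb]; exact H.hdw
  have hδsurj : ∀ d : DD e0 e1, ∃ z ∈ Subgroup.center (RG T.rels1) ⊓ ρ.ker, δ z = d := by
    rintro ⟨x, y⟩
    refine ⟨ew (lt (ra T.rels1) (rb T.rels1)) v0 ^ (Multiplicative.toAdd x).val *
      ew (lt (ra T.rels1) (rb T.rels1)) v1 ^ (Multiplicative.toAdd y).val,
      Subgroup.mul_mem _ (Subgroup.pow_mem _ hz0 _) (Subgroup.pow_mem _ hz1 _), ?_⟩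
    rw [map_mul, map_pow, map_pow, hδv0, hδv1]
    apply Prod.ext
    · show (Multiplicative.ofAdd (1 : ZMod e0)) ^ _ * 1 ^ _ = x
      rw [one_pow, mul_one, ofAdd_one_pow_val]; rfl
    · show 1 ^ _ * (Multiplicative.ofAdd (1 : ZMod e1)) ^ _ = y
      rw [one_pow, one_mul, ofAdd_one_pow_val]; rfl
  -- counting
  have hcard : Nat.card (RG T.rels1) ≤ Nat.card Q * Nat.card (DD e0 e1) * m := by
    rw [card_DD]
    calc Nat.card (RG T.rels1) ≤ T.N * e1 := hfin.2
      _ = Nat.card Q * (e0 * e1) * m := by rw [H.hN]; ring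
  have hord : ∀ k, 0 < k → k < m → ew (lt (ra T.rels1) (rb T.rels1)) w0 ^ k ≠ 1 := by
    intro k hk0 hkm h1
    have h2 : φ (ew (lt (ra T.rels1) (rb T.rels1)) w0 ^ k) = 1 := by rw [h1, map_one]
    have hK : ∀ x ∈ (List.replicate k w0).flatten, x < 4 := by
      intro x hx
      rw [List.mem_flatten] at hx
      obtain ⟨c, hc, hxc⟩ := hx
      rw [List.mem_replicate] at hc
      rw [hc.2] at hxc
      exact hw0K x hxc
    rw [← ew_flatten_replicate, map_ew_lt, hφa, hφb,
      ew_congr _ (sigma hP) _ (fun x hx => hlt x (hK x hx))] at h2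
    have h3 := ew_sigma hP (List.replicate k w0).flatten
      (fun x hx => by rw [H.hK]; exact hK x hx) ⟨0, hP.hN⟩
    rw [h2] at h3
    exact H.htr k hk0 hkm h3.symm
  obtain ⟨hKer2, hordw⟩ := abstract_count ρ δ hρsurj
    (fun d => by
      obtain ⟨z, hz, h⟩ := hδsurj d
      exact ⟨z, (Subgroup.mem_inf.mp hz).2, h⟩) m hcard
    (ew (lt (ra T.rels1) (rb T.rels1)) w0)
    (Subgroup.mem_inf.mpr ⟨(Subgroup.mem_inf.mp hzw).2, MonoidHom.mem_ker.mpr hδw⟩) hord
  -- the kernel is central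
  have hker : ρ.ker ≤ Subgroup.center (RG T.rels1) := by
    intro z hz
    obtain ⟨z', hz', hzz⟩ := hδsurj (δ z)
    have h1 : z * z'⁻¹ ∈ ρ.ker ⊓ δ.ker := by
      refine Subgroup.mem_inf.mpr
        ⟨Subgroup.mul_mem _ hz (Subgroup.inv_mem _ (Subgroup.mem_inf.mp hz').2), ?_⟩
      rw [MonoidHom.mem_ker, map_mul, map_inv, hzz, mul_inv_cancel]
    rw [hKer2] at h1
    have h2 : Subgroup.zpowers (ew (lt (ra T.rels1) (rb T.rels1)) w0) ≤
        Subgroup.center (RG T.rels1) :=
      (Subgroup.zpowers_le).mpr (Subgroup.mem_inf.mp hzw).1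
    have h3 := Subgroup.mul_mem _ (h2 h1) (Subgroup.mem_inf.mp hz').1
    rwa [inv_mul_cancel_right] at h3
  have hcomm : ρ.ker ⊓ commutator (RG T.rels1) =
      Subgroup.zpowers (ew (lt (ra T.rels1) (rb T.rels1)) w0) := by
    rw [← hKer2]
    apply le_antisymm
    · exact inf_le_inf_left _ (Abelianization.commutator_subset_ker δ)
    · exact inf_le_inf_left _
        (ker_le_commutator (ra T.rels1) (rb T.rels1) closure_gen e0 e1 ha hb δ hδa hδb)
  -- the multiplier
  obtain ⟨θ, hθ⟩ := exists_inj f e0 e1 H.he0 H.he1 cw T.rels1 H.hrels H.hq0 H.hq1 H.hcw ρ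
    hρa hρb hker
  obtain ⟨p, hp⟩ := exists_surj_M H.hf ρ hρsurj hker
  have hc1 : Nat.card ↥(ρ.ker ⊓ commutator (RG T.rels1)) = m := by
    rw [hcomm, Nat.card_zpowers, hordw]
  have hc2 : Nat.card ↥(ρ.ker ⊓ commutator (RG T.rels1)) ≤ Nat.card (M f) :=
    Nat.card_le_card_of_surjective p hp
  have hbij : Function.Bijective θ := hθ.bijective_of_nat_card_le hc2
  let e1' : M f ≃* ↥(ρ.ker ⊓ commutator (RG T.rels1)) := MulEquiv.ofBijective θ hbij
  haveI : IsCyclic ↥(ρ.ker ⊓ commutator (RG T.rels1)) := by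
    rw [hcomm]; infer_instance
  have hc3 : Nat.card ↥(ρ.ker ⊓ commutator (RG T.rels1)) =
      Nat.card (Multiplicative (ZMod m)) := by
    rw [hc1, Nat.card_congr Multiplicative.toAdd, Nat.card_zmod]
  let e2' : ↥(ρ.ker ⊓ commutator (RG T.rels1)) ≃* Multiplicative (ZMod m) :=
    mulEquivOfCyclicCardEq hc3
  exact hasSchurMultiplier_congr (hasSchurMultiplier_Mf f H.hf) (e1'.trans e2')

end Cfsg.Agent.Lib.Helper56.Relax
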