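import Mathlib
import Cfsg.Agent.Lib.Helper56.Relax

set_option autoImplicit false

/-!
The relaxed presentation method for a perfect group. The relaxed group is made perfect by two
relators whose degrees generate all degrees, and relators which hold a priori in every quotient
of the free central extension are added: powers of central words (the multiplier has bounded
exponent, by transfer to abelian subgroups) and squares of commutators with an involution.
-/

namespace Cfsg.Agent.Lib.Helper56.Relax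

open Cfsg Cfsg.Agent.Lib.Helper56.TC Cfsg.Agent.Lib.Helper56.TC.Tabs Cfsg.Agent.Lib.Helper35

open scoped commutatorElement

section words

variable {G : Type*} [Group G]

/-- The power of a word. -/
def powW (E : ℕ) (c : List ℕ) : List ℕ := (List.replicate E c).flatten

theorem ew_powW (a b : G) (E : ℕ) (c : List ℕ) :
    ew (lt a b) (powW E c) = ew (lt a b) c ^ E :=
  ew_flatten_replicate _ _ _

/-- The square of the commutator of a word with the first letter. -/
def sqW (s : List ℕ) : List ℕ := cmw s 0 ++ cmw s 0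

theorem ew_sqW (a b : G) (s : List ℕ) :
    ew (lt a b) (sqW s) = ⁅ew (lt a b) s, a⁆ * ⁅ew (lt a b) s, a⁆ := by
  unfold sqW
  rw [ew_append, ew_cmw]
  rfl

/-- The relators of the certificate. -/
def relsT (cw : List (List ℕ)) (v0 v1 : List ℕ) (pw kw : List (List ℕ)) (E : ℕ) :
    List (List ℕ) :=
  [v0, v1] ++ pw.map (powW E) ++ kw.map sqW ++ cw.flatMap (fun c => [cmw c 0, cmw c 2])

theorem mem_relsT {cw : List (List ℕ)} {v0 v1 : List ℕ} {pw kw : List (List ℕ)} {E : ℕ}
    {w : List ℕ} : w ∈ relsT cw v0 v1 pw kw E ↔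
      w = v0 ∨ w = v1 ∨ (∃ c ∈ pw, w = powW E c) ∨ (∃ s ∈ kw, w = sqW s) ∨
        (∃ c ∈ cw, w = cmw c 0 ∨ w = cmw c 2) := by
  unfold relsT
  constructor
  · intro h
    rcases List.mem_append.mp h with h | h
    · rcases List.mem_append.mp h with h | h
      · rcases List.mem_append.mp h with h | h
        · rcases List.mem_cons.mp h with rfl | h
          · exact Or.inl rfl
          · rcases List.mem_cons.mp h with rfl | h
            · exact Or.inr (Or.inl rfl)
            · exact absurd h List.not_mem_nil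
        · obtain ⟨c, hc, rfl⟩ := List.mem_map.mp h
          exact Or.inr (Or.inr (Or.inl ⟨c, hc, rfl⟩))
      · obtain ⟨s, hs, rfl⟩ := List.mem_map.mp h
        exact Or.inr (Or.inr (Or.inr (Or.inl ⟨s, hs, rfl⟩)))
    · obtain ⟨c, hc, h⟩ := List.mem_flatMap.mp h
      rcases List.mem_cons.mp h with rfl | h
      · exact Or.inr (Or.inr (Or.inr (Or.inr ⟨c, hc, Or.inl rfl⟩)))
      · rcases List.mem_cons.mp h with rfl | h
        · exact Or.inr (Or.inr (Or.inr (Or.inr ⟨c, hc, Or.inr rfl⟩)))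
        · exact absurd h List.not_mem_nil
  · rintro (rfl | rfl | ⟨c, hc, rfl⟩ | ⟨s, hs, rfl⟩ | ⟨c, hc, h⟩)
    · exact List.mem_append.mpr (Or.inl (List.mem_append.mpr (Or.inl (List.mem_append.mpr
        (Or.inl List.mem_cons_self)))))
    · exact List.mem_append.mpr (Or.inl (List.mem_append.mpr (Or.inl (List.mem_append.mpr
        (Or.inl (List.mem_cons_of_mem _ List.mem_cons_self))))))
    · exact List.mem_append.mpr (Or.inl (List.mem_append.mpr (Or.inl (List.mem_append.mpr
        (Or.inr (List.mem_map.mpr ⟨c, hc, rfl⟩))))))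
    · exact List.mem_append.mpr (Or.inl (List.mem_append.mpr
        (Or.inr (List.mem_map.mpr ⟨s, hs, rfl⟩))))
    · refine List.mem_append.mpr (Or.inr (List.mem_flatMap.mpr ⟨c, hc, ?_⟩))
      rcases h with rfl | rfl
      · exact List.mem_cons_self
      · exact List.mem_cons_of_mem _ List.mem_cons_self

/-- The degree of a letter. -/
def dgl : ℕ → ℤ × ℤ
  | 0 => (1, 0)
  | 1 => (-1, 0)
  | 2 => (0, 1)
  | 3 => (0, -1)
  | _ => (0, 0)

/-- The degree of a word. -/
def dg : List ℕ → ℤ × ℤ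
  | [] => (0, 0)
  | x :: w => dgl x + dg w

/-- In a commutative group a word only depends on its degree. -/
theorem ew_comm {A : Type*} [CommGroup A] (a b : A) (w : List ℕ) :
    ew (lt a b) w = a ^ (dg w).1 * b ^ (dg w).2 := by
  induction w with
  | nil => simp [ew, dg]
  | cons x w ih =>
    rw [ew_cons, ih]
    have hx : lt a b x = a ^ (dgl x).1 * b ^ (dgl x).2 := by
      match x with
      | 0 => simp [lt, dgl]
      | 1 => simp [lt, dgl]
      | 2 => simp [lt, dgl]
      | 3 => simp [lt, dgl]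
      | (n + 4) => simp [lt, dgl]
    rw [hx]
    show _ = a ^ (dgl x + dg w).1 * b ^ (dgl x + dg w).2
    rw [Prod.fst_add, Prod.snd_add, zpow_add, zpow_add]
    exact mul_mul_mul_comm _ _ _ _

/-- A commutator with an element whose square is central has square one, when it is central. -/
theorem comm_sq (s x : G) (h1 : ⁅s, x⁆ ∈ Subgroup.center G)
    (h2 : x * x ∈ Subgroup.center G) : ⁅s, x⁆ * ⁅s, x⁆ = 1 := by
  have hk : s * x * s⁻¹ = ⁅s, x⁆ * x := by
    rw [commutatorElement_def]; group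
  have hc : ∀ g : G, g * ⁅s, x⁆ = ⁅s, x⁆ * g := fun g => Subgroup.mem_center_iff.mp h1 g
  have h3 : s * (x * x) * s⁻¹ = x * x := by
    rw [Subgroup.mem_center_iff.mp h2 s]; group
  have h4 : s * (x * x) * s⁻¹ = (s * x * s⁻¹) * (s * x * s⁻¹) := by group
  rw [h4, hk] at h3
  have h5 : ⁅s, x⁆ * x * (⁅s, x⁆ * x) = ⁅s, x⁆ * ⁅s, x⁆ * (x * x) := by
    calc ⁅s, x⁆ * x * (⁅s, x⁆ * x) = ⁅s, x⁆ * (x * ⁅s, x⁆) * x := by group
      _ = ⁅s, x⁆ * (⁅s, x⁆ * x) * x := by rw [hc x]
      _ = ⁅s, x⁆ * ⁅s, x⁆ * (x * x) := by group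
  rw [h5] at h3
  exact mul_right_cancel (h3.trans (one_mul _).symm)

end words

/-- The relaxed group is perfect when two of its relators have degrees `(1, 1)` and `(0, 1)`. -/
theorem commutator_eq_top_of_deg {rels : List (List ℕ)} {v0 v1 : List ℕ} (h0 : v0 ∈ rels)
    (h1 : v1 ∈ rels) (hd0 : dg v0 = (1, 1)) (hd1 : dg v1 = (0, 1)) :
    commutator (RG rels) = ⊤ := by
  let π : RG rels →* Abelianization (RG rels) := Abelianization.of
  have e0 : ew (lt (π (ra rels)) (π (rb rels))) v0 = 1 := by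
    rw [← map_ew_lt, rel_RG v0 h0, map_one]
  have e1 : ew (lt (π (ra rels)) (π (rb rels))) v1 = 1 := by
    rw [← map_ew_lt, rel_RG v1 h1, map_one]
  rw [ew_comm, hd0] at e0
  rw [ew_comm, hd1] at e1
  simp only [zpow_one, zpow_zero, one_mul] at e0 e1
  have hb : π (rb rels) = 1 := e1
  have ha : π (ra rels) = 1 := by rw [hb, mul_one] at e0; exact e0
  have hker : π.ker = ⊤ := by
    rw [eq_top_iff, ← closure_gen (rels := rels), Subgroup.closure_le]
    rintro x (rfl | rfl)
    · exact MonoidHom.mem_ker.mpr ha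
    · exact MonoidHom.mem_ker.mpr hb
  rw [← Abelianization.ker_of, hker]

/-- A permutation of the final table which commutes with the generators and fixes the first
point is trivial. -/
theorem perm_eq_one_of_central {T : Tabs} (hP : T.P1) (π : Equiv.Perm (Fin T.N))
    (hc : ∀ l < T.K, π * sigma hP l = sigma hP l * π) (h0 : π ⟨0, hP.hN⟩ = ⟨0, hP.hN⟩) :
    π = 1 := by
  have hw : ∀ w : List ℕ, (∀ a ∈ w, a < T.K) → π * ew (sigma hP) w = ew (sigma hP) w * π := by
    intro w
    induction w with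
    | nil => intro _; rw [ew_nil, mul_one, one_mul]
    | cons a w ih =>
      intro h
      rw [ew_cons, ← mul_assoc, hc a (h a List.mem_cons_self), mul_assoc,
        ih (fun b hb => h b (List.mem_cons_of_mem _ hb)), mul_assoc]
  apply Equiv.ext
  intro v
  obtain ⟨w, hwK, hf⟩ := sigma_trans hP v v.2
  have hv : ew (sigma hP) w ⟨0, hP.hN⟩ = v := by
    apply Fin.ext
    rw [ew_sigma hP w hwK]; exact hf
  rw [← hv, Equiv.Perm.one_apply, ← Equiv.Perm.mul_apply, hw w hwK, Equiv.Perm.mul_apply, h0]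

/-! ### The free central extension -/

section free

variable {Q : Type} [Group Q]

/-- The first generator of the free central extension. -/
def xa (f : Fin 2 → Q) : CE f := QuotientGroup.mk (FreeGroup.of 0)

/-- The second generator of the free central extension. -/
def xb (f : Fin 2 → Q) : CE f := QuotientGroup.mk (FreeGroup.of 1)

theorem piE_xa (f : Fin 2 → Q) : piE f (xa f) = f 0 := by
  show piF f (FreeGroup.of 0) = f 0
  unfold piF; rw [FreeGroup.lift_apply_of]

theorem piE_xb (f : Fin 2 → Q) : piE f (xb f) = f 1 := by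
  show piF f (FreeGroup.of 1) = f 1
  unfold piF; rw [FreeGroup.lift_apply_of]

theorem piE_ew (f : Fin 2 → Q) (w : List ℕ) :
    piE f (ew (lt (xa f) (xb f)) w) = ew (lt (f 0) (f 1)) w := by
  rw [map_ew_lt, piE_xa, piE_xb]

theorem closure_CE (f : Fin 2 → Q) : Subgroup.closure {xa f, xb f} = ⊤ := by
  have h : Subgroup.closure (Set.range (FreeGroup.of : Fin 2 → FreeGroup (Fin 2))) = ⊤ :=
    FreeGroup.closure_range_of (Fin 2)
  have h2 := congrArg (Subgroup.map (QuotientGroup.mk' (relN f))) h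
  rw [Subgroup.map_top_of_surjective _ (QuotientGroup.mk'_surjective _),
    MonoidHom.map_closure] at h2
  rw [eq_top_iff, ← h2]
  apply Subgroup.closure_mono
  rintro _ ⟨_, ⟨i, rfl⟩, rfl⟩
  fin_cases i
  · exact Or.inl rfl
  · exact Or.inr rfl

/-- Transfer to the preimage of a cyclic subgroup: the multiplier is killed by its index. -/
theorem M_pow_index [Finite Q] {ι : Type} (f : ι → Q) (hf : Function.Surjective (piF f))
    (g : Q) : ∀ z ∈ M f, z ^ (Subgroup.zpowers g).index = 1 := by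
  intro z hz
  obtain ⟨g', hg'⟩ := piE_surjective f hf g
  let W : Subgroup (CE f) := (Subgroup.zpowers g).comap (piE f)
  have hWidx : W.index = (Subgroup.zpowers g).index :=
    Subgroup.index_comap_of_surjective _ (piE_surjective f hf)
  have hcen : ∀ a ∈ W, ∃ i : ℤ, a * (g' ^ i)⁻¹ ∈ Subgroup.center (CE f) := by
    intro a ha
    obtain ⟨i, hi⟩ := Subgroup.mem_zpowers_iff.mp (Subgroup.mem_comap.mp ha)
    refine ⟨i, ker_piE_le_center f ?_⟩
    rw [MonoidHom.mem_ker, map_mul, map_inv, map_zpow, hg', hi, mul_inv_cancel]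
  have hcomm : ∀ a ∈ W, ∀ b ∈ W, a * b = b * a := by
    intro a ha b hb
    obtain ⟨i, hu⟩ := hcen a ha
    obtain ⟨j, hv⟩ := hcen b hb
    have ea : a = (a * (g' ^ i)⁻¹) * g' ^ i := by group
    have eb : b = (b * (g' ^ j)⁻¹) * g' ^ j := by group
    have hb' : Commute (g' ^ i) b := by
      rw [eb]
      exact Commute.mul_right (Subgroup.mem_center_iff.mp hv _) (Commute.zpow_zpow_self g' i j)
    have hab : Commute a b := by
      rw [ea]
      exact Commute.mul_left (Subgroup.mem_center_iff.mp hu b).symm hb'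
    exact hab.eq
  have : W.FiniteIndex := ⟨by rw [hWidx]; exact Subgroup.index_ne_zero_of_finite⟩
  let _ : CommGroup W :=
    { (inferInstance : Group W) with
      mul_comm := fun a b => Subtype.ext (hcomm a.1 a.2 b.1 b.2) }
  let V : CE f →* W := MonoidHom.transfer (MonoidHom.id W)
  have hzc : z ∈ Subgroup.center (CE f) := ker_piE_le_center f (M_le_ker f hz)
  have key : ∀ (k : ℕ) (g₀ : CE f), g₀⁻¹ * z ^ k * g₀ ∈ W → g₀⁻¹ * z ^ k * g₀ = z ^ k := by
    intro k g₀ _
    have h := Subgroup.mem_center_iff.mp (Subgroup.pow_mem _ hzc k) g₀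
    rw [mul_assoc, ← h, ← mul_assoc, inv_mul_cancel, one_mul]
  have h1 := MonoidHom.transfer_eq_pow (MonoidHom.id W) z key
  have h2 : V z = 1 :=
    MonoidHom.mem_ker.mp (Abelianization.commutator_subset_ker V (M_le_commutator f hz))
  have h3 : (V z : CE f) = z ^ W.index := congrArg Subtype.val h1
  rw [h2] at h3
  rw [← hWidx]
  exact h3.symm

/-- With two elements of degrees `(1, 1)` and `(0, 1)` in the kernel, the `E`-th power of any
element of the kernel lies in the subgroup which they generate, when `E` kills the multiplier. -/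
theorem pow_mem_T (f : Fin 2 → Q) (v0 v1 : List ℕ) (hd0 : dg v0 = (1, 1))
    (hd1 : dg v1 = (0, 1)) (E : ℕ) (hexp : ∀ z ∈ M f, z ^ E = 1)
    (hv0 : ew (lt (f 0) (f 1)) v0 = 1) (hv1 : ew (lt (f 0) (f 1)) v1 = 1)
    (z : CE f) (hz : z ∈ (piE f).ker) :
    z ^ E ∈ Subgroup.closure {ew (lt (xa f) (xb f)) v0, ew (lt (xa f) (xb f)) v1} := by
  obtain ⟨e0, he0⟩ : ∃ e, e = ew (lt (xa f) (xb f)) v0 := ⟨_, rfl⟩
  obtain ⟨e1, he1⟩ : ∃ e, e = ew (lt (xa f) (xb f)) v1 := ⟨_, rfl⟩
  rw [← he0, ← he1]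
  have hk0 : e0 ∈ (piE f).ker := by rw [MonoidHom.mem_ker, he0, piE_ew]; exact hv0
  have hk1 : e1 ∈ (piE f).ker := by rw [MonoidHom.mem_ker, he1, piE_ew]; exact hv1
  have hε0 : epsE f e0 = epsE f (xa f) * epsE f (xb f) := by
    rw [he0, map_ew_lt, ew_comm, hd0]; simp
  have hε1 : epsE f e1 = epsE f (xb f) := by
    rw [he1, map_ew_lt, ew_comm, hd1]; simp
  have hzc : epsE f z ∈ Subgroup.closure {epsE f (xa f), epsE f (xb f)} := by
    have h1 : z ∈ Subgroup.closure {xa f, xb f} := by rw [closure_CE]; trivial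
    have h2 := Subgroup.mem_map_of_mem (epsE f) h1
    rw [MonoidHom.map_closure, Set.image_pair] at h2
    exact h2
  obtain ⟨m, n, hmn⟩ := Subgroup.mem_closure_pair.mp hzc
  obtain ⟨t, ht⟩ : ∃ t, t = e0 ^ m * e1 ^ (n - m) := ⟨_, rfl⟩
  have htT : t ∈ Subgroup.closure {e0, e1} := by
    have h0 : e0 ∈ Subgroup.closure {e0, e1} := Subgroup.subset_closure (Set.mem_insert _ _)
    have h1 : e1 ∈ Subgroup.closure {e0, e1} :=
      Subgroup.subset_closure (Set.mem_insert_of_mem _ rfl)
    rw [ht]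
    exact Subgroup.mul_mem _ (Subgroup.zpow_mem _ h0 _) (Subgroup.zpow_mem _ h1 _)
  have htk : t ∈ (piE f).ker := by
    rw [ht]
    exact Subgroup.mul_mem _ (Subgroup.zpow_mem _ hk0 _) (Subgroup.zpow_mem _ hk1 _)
  have hεt : epsE f t = epsE f z := by
    rw [ht, map_mul, map_zpow, map_zpow, hε0, hε1, ← hmn, mul_zpow, mul_assoc, ← zpow_add,
      add_sub_cancel]
  have hkM : z * t⁻¹ ∈ M f := by
    show z * t⁻¹ ∈ (piE f).ker ⊓ commutator (CE f)
    refine Subgroup.mem_inf.mpr ⟨Subgroup.mul_mem _ hz (Subgroup.inv_mem _ htk), ?_⟩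
    rw [← ker_epsE, MonoidHom.mem_ker, map_mul, map_inv, hεt, mul_inv_cancel]
  have hpow := hexp _ hkM
  have htc : t ∈ Subgroup.center (CE f) := ker_piE_le_center f htk
  have hcomm : Commute (z * t⁻¹) t := Subgroup.mem_center_iff.mp htc _
  have h3 : z ^ E = t ^ E := by
    have h4 : z = z * t⁻¹ * t := by group
    calc z ^ E = (z * t⁻¹ * t) ^ E := by rw [← h4]
      _ = (z * t⁻¹) ^ E * t ^ E := hcomm.mul_pow E
      _ = t ^ E := by rw [hpow, one_mul]
  rw [h3]
  exact Subgroup.pow_mem _ htT E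

end free


/-! ### The multiplier embeds -/

section schur5

variable {Q : Type} [Group Q]

theorem mem_powW {E : ℕ} {c : List ℕ} {x : ℕ} (h : x ∈ powW E c) : x ∈ c := by
  unfold powW at h
  rw [List.mem_flatten] at h
  obtain ⟨l, hl, hx⟩ := h
  rw [List.mem_replicate] at hl
  rw [hl.2] at hx
  exact hx

theorem invl_lt {x : ℕ} (h : x < 4) : invl x < 4 := by
  interval_cases x <;> decide

theorem mem_invw {w : List ℕ} {x : ℕ} (h : x ∈ invw w) : ∃ y ∈ w, x = invl y := by
  unfold invw at h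
  rw [List.mem_reverse, List.mem_map] at h
  obtain ⟨y, hy, rfl⟩ := h
  exact ⟨y, hy, rfl⟩

/-- The multiplier embeds in the relaxed group. -/
theorem exists_inj5 (f : Fin 2 → Q) (cw : List (List ℕ)) (v0 v1 : List ℕ)
    (pw kw : List (List ℕ)) (E : ℕ) (cy : List ℕ) (rels : List (List ℕ))
    (hrels : rels = powW E cy :: relsT cw v0 v1 pw kw E)
    (hq0 : f 0 * f 0 = 1)
    (hcw : ∀ c ∈ cw, ew (lt (f 0) (f 1)) c = 1)
    (hv0 : ew (lt (f 0) (f 1)) v0 = 1) (hv1 : ew (lt (f 0) (f 1)) v1 = 1)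
    (hpw : ∀ c ∈ pw, ew (lt (f 0) (f 1)) c = 1) (hcy : ew (lt (f 0) (f 1)) cy = 1)
    (hkw : ∀ s ∈ kw, ew (lt (f 0) (f 1)) (cmw s 0) = 1)
    (hd0 : dg v0 = (1, 1)) (hd1 : dg v1 = (0, 1)) (hexp : ∀ z ∈ M f, z ^ E = 1)
    (ρ : RG rels →* Q) (hρa : ρ (ra rels) = f 0) (hρb : ρ (rb rels) = f 1)
    (hker : ρ.ker ≤ Subgroup.center (RG rels)) :
    ∃ θ : M f →* ↥(ρ.ker ⊓ commutator (RG rels)), Function.Injective θ := by
  let mkR : FreeGroup (Fin 2) →* RG rels := PresentedGroup.mk (relSet rels)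
  have hρmk : ρ.comp mkR = piF f := by
    apply FreeGroup.ext_hom
    intro i
    fin_cases i
    · show ρ (ra _) = piF f (FreeGroup.of 0)
      rw [hρa]; unfold piF; rw [FreeGroup.lift_apply_of]
    · show ρ (rb _) = piF f (FreeGroup.of 1)
      rw [hρb]; unfold piF; rw [FreeGroup.lift_apply_of]
  have hle : relN f ≤ mkR.ker := by
    unfold relN
    rw [Subgroup.commutator_le]
    intro a ha b _
    rw [MonoidHom.mem_ker, map_commutatorElement]
    have hz : mkR a ∈ Subgroup.center (RG rels) := hker (by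
      rw [MonoidHom.mem_ker, ← MonoidHom.comp_apply, hρmk]; exact ha)
    rw [commutatorElement_eq_one_iff_mul_comm]
    exact (Subgroup.mem_center_iff.mp hz (mkR b)).symm
  let θ : CE f →* RG rels := QuotientGroup.lift (relN f) mkR hle
  have hρθ : ∀ x : CE f, ρ (θ x) = piE f x := by
    intro x
    induction x using QuotientGroup.induction_on with
    | H x => exact DFunLike.congr_fun hρmk x
  -- the subgroup generated by the two relators of coprime degrees
  obtain ⟨e0, he0⟩ : ∃ e, e = ew (lt (xa f) (xb f)) v0 := ⟨_, rfl⟩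
  obtain ⟨e1, he1⟩ : ∃ e, e = ew (lt (xa f) (xb f)) v1 := ⟨_, rfl⟩
  have hk0 : e0 ∈ (piE f).ker := by rw [MonoidHom.mem_ker, he0, piE_ew]; exact hv0
  have hk1 : e1 ∈ (piE f).ker := by rw [MonoidHom.mem_ker, he1, piE_ew]; exact hv1
  let T : Subgroup (CE f) := Subgroup.closure {e0, e1}
  have hT : T ≤ (piE f).ker := by
    show Subgroup.closure {e0, e1} ≤ (piE f).ker
    rw [Subgroup.closure_le]
    rintro _ (rfl | rfl)
    · exact hk0
    · exact hk1
  have hTn : T.Normal := normal_of_le_ker hT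
  have hAB : ∀ w : List ℕ, ew (lt (QuotientGroup.mk' T (xa f)) (QuotientGroup.mk' T (xb f))) w =
      QuotientGroup.mk' T (ew (lt (xa f) (xb f)) w) := fun w => (map_ew_lt _ _ _ _).symm
  have hone : ∀ x : CE f, x ∈ T → QuotientGroup.mk' T x = 1 := by
    intro x hx
    rw [QuotientGroup.mk'_apply, QuotientGroup.eq_one_iff]
    exact hx
  have hpowT : ∀ c : List ℕ, ew (lt (f 0) (f 1)) c = 1 →
      ew (lt (QuotientGroup.mk' T (xa f)) (QuotientGroup.mk' T (xb f))) (powW E c) = 1 := by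
    intro c hc
    rw [ew_powW, hAB, ← map_pow]
    apply hone
    have h := pow_mem_T f v0 v1 hd0 hd1 E hexp hv0 hv1 (ew (lt (xa f) (xb f)) c)
      (by rw [MonoidHom.mem_ker, piE_ew]; exact hc)
    rw [← he0, ← he1] at h
    exact h
  have hψrel : ∀ w ∈ rels,
      ew (lt (QuotientGroup.mk' T (xa f)) (QuotientGroup.mk' T (xb f))) w = 1 := by
    intro w hw
    rw [hrels] at hw
    rcases List.mem_cons.mp hw with rfl | hw
    · exact hpowT cy hcy
    · rcases mem_relsT.mp hw with rfl | rfl | ⟨c, hc, rfl⟩ | ⟨s, hs, rfl⟩ | ⟨c, hc, rfl | rfl⟩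
      · rw [hAB, ← he0]
        exact hone _ (Subgroup.subset_closure (Set.mem_insert _ _))
      · rw [hAB, ← he1]
        exact hone _ (Subgroup.subset_closure (Set.mem_insert_of_mem _ rfl))
      · exact hpowT c (hpw c hc)
      · rw [hAB, ew_sqW]
        have hκ : ⁅ew (lt (xa f) (xb f)) s, xa f⁆ ∈ Subgroup.center (CE f) := by
          apply ker_piE_le_center f
          have h := hkw s hs
          rw [← piE_ew, ew_cmw] at h
          exact MonoidHom.mem_ker.mpr h
        have hx2 : xa f * xa f ∈ Subgroup.center (CE f) := by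
          apply ker_piE_le_center f
          rw [MonoidHom.mem_ker, map_mul, piE_xa]; exact hq0
        rw [comm_sq _ _ hκ hx2, map_one]
      · rw [hAB, ew_cmw]
        have h3 : ew (lt (xa f) (xb f)) c ∈ Subgroup.center (CE f) := by
          apply ker_piE_le_center f
          rw [MonoidHom.mem_ker, piE_ew]; exact hcw c hc
        rw [commutatorElement_eq_one_iff_mul_comm.mpr (Subgroup.mem_center_iff.mp h3 _).symm,
          map_one]
      · rw [hAB, ew_cmw]
        have h3 : ew (lt (xa f) (xb f)) c ∈ Subgroup.center (CE f) := by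
          apply ker_piE_le_center f
          rw [MonoidHom.mem_ker, piE_ew]; exact hcw c hc
        rw [commutatorElement_eq_one_iff_mul_comm.mpr (Subgroup.mem_center_iff.mp h3 _).symm,
          map_one]
  let ψ : RG rels →* CE f ⧸ T :=
    toG (fun i => QuotientGroup.mk' T (QuotientGroup.mk (FreeGroup.of i))) hψrel
  have hψθ : ∀ x : CE f, ψ (θ x) = QuotientGroup.mk' T x := by
    intro x
    induction x using QuotientGroup.induction_on with
    | H x =>
      have h : ψ.comp mkR = (QuotientGroup.mk' T).comp (QuotientGroup.mk' (relN f)) := by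
        apply FreeGroup.ext_hom
        intro i
        exact toG_of (fun i => QuotientGroup.mk' T (QuotientGroup.mk (FreeGroup.of i))) hψrel i
      exact DFunLike.congr_fun h x
  -- the map
  have hmem : ∀ z : M f, (θ.comp (M f).subtype) z ∈ ρ.ker ⊓ commutator (RG rels) := by
    intro z
    have hz1 : (z : CE f) ∈ (piE f).ker := M_le_ker f z.2
    have hz2 : (z : CE f) ∈ commutator (CE f) := M_le_commutator f z.2
    have h1 : θ (z : CE f) ∈ ρ.ker := by
      rw [MonoidHom.mem_ker, hρθ]; exact hz1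
    have hcomm : commutator (CE f) ≤ (commutator (RG rels)).comap θ := by
      rw [commutator_def, Subgroup.commutator_le]
      intro a _ b _
      rw [Subgroup.mem_comap, map_commutatorElement]
      exact Subgroup.commutator_mem_commutator (Subgroup.mem_top _) (Subgroup.mem_top _)
    exact Subgroup.mem_inf.mpr ⟨h1, hcomm hz2⟩
  refine ⟨(θ.comp (M f).subtype).codRestrict _ hmem, ?_⟩
  rw [injective_iff_map_eq_one]
  intro z hz
  have hz0 : θ (z : CE f) = 1 := congrArg Subtype.val hz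
  have hzT : (z : CE f) ∈ T := by
    rw [← QuotientGroup.eq_one_iff, ← QuotientGroup.mk'_apply, ← hψθ, hz0, map_one]
  have hcen : e0 ∈ Subgroup.center (CE f) := ker_piE_le_center f hk0
  obtain ⟨i, j, hij⟩ := mem_closure_pair_central hcen hzT
  -- the degree map on the free central extension
  let εF : FreeGroup (Fin 2) →* Multiplicative (ℤ × ℤ) :=
    FreeGroup.lift ![Multiplicative.ofAdd (1, 0), Multiplicative.ofAdd (0, 1)]
  have hεle : relN f ≤ εF.ker := by
    refine le_trans ?_ (Abelianization.commutator_subset_ker εF)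
    unfold relN
    rw [commutator_def]
    exact Subgroup.commutator_mono le_top le_rfl
  let ε : CE f →* Multiplicative (ℤ × ℤ) := QuotientGroup.lift (relN f) εF hεle
  have hε1 : ε (z : CE f) = 1 :=
    MonoidHom.mem_ker.mp (Abelianization.commutator_subset_ker ε (M_le_commutator f z.2))
  have hεa : ε (xa f) = Multiplicative.ofAdd (1, 0) := by
    show εF (FreeGroup.of 0) = _
    simp [εF]
  have hεb : ε (xb f) = Multiplicative.ofAdd (0, 1) := by
    show εF (FreeGroup.of 1) = _
    simp [εF]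
  have hεe0 : ε e0 = Multiplicative.ofAdd ((1 : ℤ), (0 : ℤ)) * Multiplicative.ofAdd ((0 : ℤ), (1 : ℤ)) := by
    rw [he0, map_ew_lt, ew_comm, hd0, hεa, hεb]
    show _ ^ (1 : ℤ) * _ ^ (1 : ℤ) = _
    rw [zpow_one, zpow_one]
  have hεe1 : ε e1 = Multiplicative.ofAdd ((0 : ℤ), (1 : ℤ)) := by
    rw [he1, map_ew_lt, ew_comm, hd1, hεa, hεb]
    show _ ^ (0 : ℤ) * _ ^ (1 : ℤ) = _
    rw [zpow_zero, one_mul, zpow_one]
  rw [hij, map_mul, map_zpow, map_zpow, hεe0, hεe1] at hε1
  have h2 : i • (((1 : ℤ), (0 : ℤ)) + ((0 : ℤ), (1 : ℤ))) + j • ((0 : ℤ), (1 : ℤ)) = 0 :=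
    congrArg Multiplicative.toAdd hε1
  have hi : i = 0 := by
    have h3 := congrArg Prod.fst h2
    simp at h3
    exact h3
  have hj : j = 0 := by
    have h3 := congrArg Prod.snd h2
    simp at h3
    omega
  apply Subtype.ext
  rw [hij, hi, hj]
  simp

end schur5


/-! ### The main theorem -/

/-- The hypotheses: a certificate of the coset enumeration of the perfect relaxed presentation
over the subgroup generated by the square of a word `y` whose `p`-th power is a central word,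
and the traces in the final table which separate the elements of the multiplier. -/
structure Hyp5 {Q : Type} [Group Q] (f : Fin 2 → Q) (T : Tabs)
    (cw : List (List ℕ)) (v0 v1 : List ℕ) (pw kw : List (List ℕ)) (E p : ℕ)
    (y s w2 : List ℕ) : Prop where
  cert : T.Cert
  hK : T.K = 4
  hinv : ∀ l < 4, T.inv l = invl l
  hrels : T.rels1 = relsT cw v0 v1 pw kw E
  hsubs : T.subs = [y ++ y]
  hN : T.N * p = 4 * Nat.card Q
  hp : p.Prime
  hp2 : p ≠ 2
  hE : ∃ k : ℕ, E = 2 ^ k
  hf : Function.Surjective (piF f)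
  hq0 : f 0 * f 0 = 1
  hcw : ∀ c ∈ cw, ew (lt (f 0) (f 1)) c = 1
  hv0 : ew (lt (f 0) (f 1)) v0 = 1
  hv1 : ew (lt (f 0) (f 1)) v1 = 1
  hpw : ∀ c ∈ pw, c ∈ cw
  hs : s ∈ kw
  hkw : ∀ s ∈ kw, ew (lt (f 0) (f 1)) (cmw s 0) = 1
  hd0 : dg v0 = (1, 1)
  hd1 : dg v1 = (0, 1)
  hexp : ∀ z ∈ M f, z ^ E = 1
  hy : powW p y ∈ cw
  hy1 : ew (lt (f 0) (f 1)) y ≠ 1
  hw2 : w2 ∈ cw
  htE : T.followT (powW E (powW p y)) 0 = 0
  htk : T.followT (powW p y ++ invw (cmw s 0)) 0 = 0
  ht1 : T.followT (powW p y) 0 ≠ 0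
  ht2 : T.followT w2 0 ≠ 0
  ht12 : T.followT (powW p y) 0 ≠ T.followT w2 0
  htp : T.followT (powW p y ++ w2) 0 ≠ 0
  hts2 : T.followT (w2 ++ w2) 0 ≠ T.followT (powW p y) 0

theorem main5 {Q : Type} [Group Q] [Finite Q] {f : Fin 2 → Q} {T : Tabs}
    {cw : List (List ℕ)} {v0 v1 : List ℕ} {pw kw : List (List ℕ)} {E p : ℕ}
    {y s w2 : List ℕ} (H : Hyp5 f T cw v0 v1 pw kw E p y s w2) :
    HasSchurMultiplier Q (Multiplicative (ZMod 2 × ZMod 2)) := by
  have hP : T.P1 := H.cert.p1
  haveI : Fact p.Prime := ⟨H.hp⟩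
  have hK0 : (0 : ℕ) < T.K := by rw [H.hK]; norm_num
  have hK2 : (2 : ℕ) < T.K := by rw [H.hK]; norm_num
  obtain ⟨cy, hcy⟩ : ∃ c, c = powW p y := ⟨_, rfl⟩
  obtain ⟨rels, hrels⟩ : ∃ r, r = powW E cy :: relsT cw v0 v1 pw kw E := ⟨_, rfl⟩
  have hcycw : cy ∈ cw := by rw [hcy]; exact H.hy
  have hsub1 : ∀ w ∈ T.rels1, w ∈ rels := by
    intro w hw
    rw [hrels, ← H.hrels]
    exact List.mem_cons_of_mem _ hw
  have hcm0 : ∀ c ∈ cw, cmw c 0 ∈ T.rels1 := by
    intro c hc
    rw [H.hrels]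
    exact mem_relsT.mpr (Or.inr (Or.inr (Or.inr (Or.inr ⟨c, hc, Or.inl rfl⟩))))
  have hcm2 : ∀ c ∈ cw, cmw c 2 ∈ T.rels1 := by
    intro c hc
    rw [H.hrels]
    exact mem_relsT.mpr (Or.inr (Or.inr (Or.inr (Or.inr ⟨c, hc, Or.inr rfl⟩))))
  have hsq : sqW s ∈ T.rels1 := by
    rw [H.hrels]
    exact mem_relsT.mpr (Or.inr (Or.inr (Or.inr (Or.inl ⟨s, H.hs, rfl⟩))))
  -- letters
  have hcwK : ∀ c ∈ cw, ∀ x ∈ c, x < 4 := by
    intro c hc x hx
    have h := hP.hrelK _ (hcm0 c hc) x (by unfold cmw; simp [hx])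
    rwa [H.hK] at h
  have hcyK : ∀ x ∈ cy, x < 4 := hcwK cy hcycw
  have hkK : ∀ x ∈ cmw s 0, x < 4 := by
    intro x hx
    have h := hP.hrelK _ hsq x (by unfold sqW; simp [hx])
    rwa [H.hK] at h
  have hikK : ∀ x ∈ invw (cmw s 0), x < 4 := by
    intro x hx
    obtain ⟨z, hz, rfl⟩ := mem_invw hx
    exact invl_lt (hkK z hz)
  have happK : ∀ u v : List ℕ, (∀ x ∈ u, x < 4) → (∀ x ∈ v, x < 4) → ∀ x ∈ u ++ v, x < 4 := by
    intro u v hu hv x hx
    rcases List.mem_append.mp hx with h | h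
    · exact hu x h
    · exact hv x h
  have hnil : ∀ x ∈ ([] : List ℕ), x < 4 := by
    intro x hx
    exact absurd hx List.not_mem_nil
  -- relators in the presented group
  have hrelR : ∀ w ∈ rels, ew (lt (ra rels) (rb rels)) w = 1 := fun w hw => rel_RG w hw
  have hrel1 : ∀ w ∈ T.rels1, ew (lt (ra rels) (rb rels)) w = 1 :=
    fun w hw => hrelR w (hsub1 w hw)
  have hv0m : v0 ∈ rels := hsub1 v0 (by rw [H.hrels]; exact mem_relsT.mpr (Or.inl rfl))
  have hv1m : v1 ∈ rels :=
    hsub1 v1 (by rw [H.hrels]; exact mem_relsT.mpr (Or.inr (Or.inl rfl)))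
  have hperf : commutator (RG rels) = ⊤ := commutator_eq_top_of_deg hv0m hv1m H.hd0 H.hd1
  -- the map to the group
  have hρrel : ∀ w ∈ rels, ew (lt (f 0) (f 1)) w = 1 := by
    intro w hw
    rw [hrels] at hw
    rcases List.mem_cons.mp hw with rfl | hw
    · rw [ew_powW, H.hcw cy hcycw, one_pow]
    · rcases mem_relsT.mp hw with rfl | rfl | ⟨c, hc, rfl⟩ | ⟨s', hs', rfl⟩ | ⟨c, hc, rfl | rfl⟩
      · exact H.hv0
      · exact H.hv1
      · rw [ew_powW, H.hcw c (H.hpw c hc), one_pow]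
      · unfold sqW
        rw [ew_append, H.hkw s' hs', one_mul]
      · rw [ew_cmw, H.hcw c hc]; exact commutatorElement_one_left _
      · rw [ew_cmw, H.hcw c hc]; exact commutatorElement_one_left _
  let ρ : RG rels →* Q := toG f hρrel
  have hρa : ρ (ra rels) = f 0 := toG_ra f hρrel
  have hρb : ρ (rb rels) = f 1 := toG_rb f hρrel
  have hρew : ∀ w : List ℕ, ρ (ew (lt (ra rels) (rb rels)) w) = ew (lt (f 0) (f 1)) w := by
    intro w
    rw [map_ew_lt, hρa, hρb]
  have hρsurj : Function.Surjective ρ := by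
    intro q
    obtain ⟨x, hx⟩ := H.hf q
    exact ⟨PresentedGroup.mk (relSet rels) x, hx⟩
  -- the permutation representation
  have hlt : ∀ l < 4, lt (sigma hP 0) (sigma hP 2) l = sigma hP l := by
    intro l hl
    have e0' := sigma_inv hP 0 hK0
    have e2' := sigma_inv hP 2 hK2
    rw [H.hinv 0 (by norm_num)] at e0'
    rw [H.hinv 2 (by norm_num)] at e2'
    interval_cases l
    · rfl
    · exact e0'.symm
    · rfl
    · exact e2'.symm
  have hσew : ∀ w : List ℕ, (∀ x ∈ w, x < 4) →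
      ew (lt (sigma hP 0) (sigma hP 2)) w = ew (sigma hP) w :=
    fun w hw => ew_congr _ (sigma hP) w (fun x hx => hlt x (hw x hx))
  have hφrel1 : ∀ w ∈ T.rels1, ew (lt (sigma hP 0) (sigma hP 2)) w = 1 := by
    intro w hw
    rw [hσew w (fun x hx => by
      have h := hP.hrelK w hw x hx
      rwa [H.hK] at h)]
    exact sigma_rel hP w hw
  have hφrel : ∀ w ∈ rels, ew (lt (sigma hP 0) (sigma hP 2)) w = 1 := by
    intro w hw
    rw [hrels] at hw
    rcases List.mem_cons.mp hw with rfl | hw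
    · -- the power of the central word: it is central and fixes the first point
      have hc0 : Commute (ew (lt (sigma hP 0) (sigma hP 2)) cy) (sigma hP 0) := by
        have h := hφrel1 _ (hcm0 cy hcycw)
        rw [ew_cmw, commutatorElement_eq_one_iff_mul_comm] at h
        exact h
      have hc2 : Commute (ew (lt (sigma hP 0) (sigma hP 2)) cy) (sigma hP 2) := by
        have h := hφrel1 _ (hcm2 cy hcycw)
        rw [ew_cmw, commutatorElement_eq_one_iff_mul_comm] at h
        exact h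
      have hpK : ∀ x ∈ powW E cy, x < 4 := fun x hx => hcyK x (mem_powW hx)
      apply perm_eq_one_of_central hP
      · intro l hl
        rw [H.hK] at hl
        rw [ew_powW, ← hlt l hl]
        interval_cases l
        · exact (hc0.pow_left E).eq
        · exact (hc0.inv_right.pow_left E).eq
        · exact (hc2.pow_left E).eq
        · exact (hc2.inv_right.pow_left E).eq
      · apply Fin.ext
        rw [hσew _ hpK, ew_sigma hP _ (fun x hx => by rw [H.hK]; exact hpK x hx)]
        have h := H.htE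
        rw [← hcy] at h
        exact h
    · rw [← H.hrels] at hw
      exact hφrel1 w hw
  let φ : RG rels →* Equiv.Perm (Fin T.N) := toG ![sigma hP 0, sigma hP 2] hφrel
  have hφa : φ (ra rels) = sigma hP 0 := toG_ra _ hφrel
  have hφb : φ (rb rels) = sigma hP 2 := toG_rb _ hφrel
  have hφew : ∀ w : List ℕ, (∀ x ∈ w, x < 4) →
      ((φ (ew (lt (ra rels) (rb rels)) w) ⟨0, hP.hN⟩ : Fin T.N) : ℕ) = T.followT w 0 := by
    intro w hw
    rw [map_ew_lt, hφa, hφb, hσew w hw, ew_sigma hP w (fun x hx => by rw [H.hK]; exact hw x hx)]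
  have htrace : ∀ u v : List ℕ, (∀ x ∈ u, x < 4) → (∀ x ∈ v, x < 4) →
      ew (lt (ra rels) (rb rels)) u = ew (lt (ra rels) (rb rels)) v →
      T.followT u 0 = T.followT v 0 := by
    intro u v hu hv h
    rw [← hφew u hu, ← hφew v hv, h]
  -- the generators and the subgroup
  have hgen : Subgroup.closure {x : RG rels | ∃ l < T.K, x = lt (ra rels) (rb rels) l} = ⊤ := by
    rw [eq_top_iff, ← closure_gen (rels := rels)]
    apply Subgroup.closure_mono
    rintro _ (rfl | rfl)
    · exact ⟨0, hK0, rfl⟩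
    · exact ⟨2, hK2, rfl⟩
  have hinv' : ∀ l < T.K, lt (ra rels) (rb rels) (T.inv l) = (lt (ra rels) (rb rels) l)⁻¹ :=
    fun l hl => by rw [H.hinv l (by rwa [H.hK] at hl), lt_invl]
  obtain ⟨yR, hyR⟩ : ∃ u, u = ew (lt (ra rels) (rb rels)) y := ⟨_, rfl⟩
  obtain ⟨c4, hc4⟩ : ∃ u, u = ew (lt (ra rels) (rb rels)) cy := ⟨_, rfl⟩
  obtain ⟨κ, hκ⟩ : ∃ u, u = ew (lt (ra rels) (rb rels)) (cmw s 0) := ⟨_, rfl⟩
  have hc4y : c4 = yR ^ p := by rw [hc4, hcy, ew_powW, hyR]
  have hY2 : ew (lt (ra rels) (rb rels)) (y ++ y) = yR * yR := by rw [ew_append, hyR]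
  have hY2p : (yR * yR) ^ p = c4 * c4 := by
    rw [(Commute.refl yR).mul_pow, hc4y]
  have hsubz : ∀ s' ∈ T.subs, ew (lt (ra rels) (rb rels)) s' ∈ Subgroup.zpowers (yR * yR) := by
    intro s' hs'
    rw [H.hsubs, List.mem_singleton] at hs'
    rw [hs', hY2]
    exact Subgroup.mem_zpowers _
  have hHz : Subgroup.zpowers (yR * yR) =
      Subgroup.closure {x : RG rels | ∃ s' ∈ T.subs, x = ew (lt (ra rels) (rb rels)) s'} := by
    rw [Subgroup.zpowers_eq_closure]
    congr 1
    ext x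
    constructor
    · intro hx
      rw [Set.mem_singleton_iff] at hx
      exact ⟨y ++ y, by rw [H.hsubs]; exact List.mem_singleton.mpr rfl, by rw [hx, hY2]⟩
    · rintro ⟨s', hs', rfl⟩
      rw [H.hsubs, List.mem_singleton] at hs'
      rw [hs', hY2]
      exact Set.mem_singleton _
  have hS : T.Sem (Subgroup.zpowers (yR * yR)) (lt (ra rels) (rb rels)) :=
    H.cert.sem hinv' hrel1 hsubz
  have hφl : ∀ l < T.K, φ (lt (ra rels) (rb rels) l) = sigma hP l := by
    intro l hl
    rw [map_lt, hφa, hφb]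
    exact hlt l (by rwa [H.hK] at hl)
  obtain ⟨F, hF1, hF0⟩ := Tabs.main hS hP hgen φ hφl hHz
  have hstab : ∀ x : RG rels, φ x ⟨0, hP.hN⟩ = ⟨0, hP.hN⟩ → x ∈ Subgroup.zpowers (yR * yR) := by
    intro x hx
    have h := hF1 x ⟨0, hP.hN⟩
    rw [hx, hF0, MulAction.Quotient.smul_mk, smul_eq_mul, mul_one] at h
    have h2 := QuotientGroup.eq.mp h
    rwa [inv_one, one_mul] at h2
  -- the central words
  have hcwR : ∀ c ∈ cw, ew (lt (ra rels) (rb rels)) c ∈
      Subgroup.center (RG rels) ⊓ ρ.ker := by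
    intro c hc
    have h0 := hrel1 _ (hcm0 c hc)
    have h2 := hrel1 _ (hcm2 c hc)
    rw [ew_cmw, commutatorElement_eq_one_iff_mul_comm] at h0 h2
    refine Subgroup.mem_inf.mpr ⟨central_of_comm h0 h2, ?_⟩
    rw [MonoidHom.mem_ker, hρew]
    exact H.hcw c hc
  have hc4c : c4 ∈ Subgroup.center (RG rels) := by
    rw [hc4]; exact (Subgroup.mem_inf.mp (hcwR cy hcycw)).1
  have hc4k : ρ c4 = 1 := by
    rw [hc4, hρew]; exact H.hcw cy hcycw
  -- the commutator with the involution
  have hκρ : ρ κ = 1 := by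
    rw [hκ, hρew]; exact H.hkw s H.hs
  have hκκ : κ * κ = 1 := by
    have h := hrel1 _ hsq
    unfold sqW at h
    rw [ew_append, ← hκ] at h
    exact h
  have hc4E : c4 ^ E = 1 := by
    have h := hrelR (powW E cy) (by rw [hrels]; exact List.mem_cons_self)
    rw [ew_powW, ← hc4] at h
    exact h
  -- the square of the central word is trivial
  have hyQ : orderOf (ew (lt (f 0) (f 1)) y) = p := by
    apply orderOf_eq_prime
    · have h := H.hcw cy hcycw
      rw [hcy, ew_powW] at h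
      exact h
    · exact H.hy1
  have hc4sq : c4 * c4 = 1 := by
    have hx0 : φ (ew (lt (ra rels) (rb rels)) (cy ++ invw (cmw s 0))) ⟨0, hP.hN⟩ =
        ⟨0, hP.hN⟩ := by
      apply Fin.ext
      rw [hφew _ (happK _ _ hcyK hikK)]
      have h := H.htk
      rw [← hcy] at h
      exact h
    obtain ⟨i, hi⟩ := Subgroup.mem_zpowers_iff.mp (hstab _ hx0)
    rw [ew_append, ew_invw, ← hc4, ← hκ] at hi
    -- hi : (yR * yR) ^ i = c4 * κ⁻¹
    have hi2 := congrArg ρ hi
    rw [map_zpow, map_mul, map_mul, map_inv, hc4k, hκρ, inv_one, mul_one, hyR, hρew] at hi2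
    have hi3 : ew (lt (f 0) (f 1)) y ^ ((2 : ℤ) * i) = 1 := by
      rw [zpow_mul, zpow_ofNat, pow_two]
      exact hi2
    have hdvd : (p : ℤ) ∣ 2 * i := by
      rw [← hyQ]
      exact orderOf_dvd_iff_zpow_eq_one.mpr hi3
    have hpi : (p : ℤ) ∣ i := by
      rcases (Nat.prime_iff_prime_int.mp H.hp).dvd_or_dvd hdvd with h | h
      · exfalso
        have h' : p ∣ 2 := by exact_mod_cast h
        exact H.hp2 ((Nat.prime_dvd_prime_iff_eq H.hp Nat.prime_two).mp h')
      · exact h
    obtain ⟨i', rfl⟩ := hpi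
    have hd : (c4 * c4) ^ i' = c4 * κ⁻¹ := by
      rw [← hi, zpow_mul, zpow_natCast, hY2p]
    have hcc : c4 * c4 = c4 ^ (2 : ℤ) := by rw [zpow_ofNat, pow_two]
    rw [hcc, ← zpow_mul] at hd
    have hκe : κ = c4 ^ (1 - 2 * i') := by
      have h1 : κ = (c4 ^ (2 * i'))⁻¹ * c4 := by rw [hd]; group
      rw [h1, ← zpow_neg, ← zpow_add_one]
      congr 1
      ring
    have hodd : (c4 ^ 2) ^ (1 - 2 * i') = 1 := by
      have h1 := hκκ
      rw [hκe, ← zpow_add] at h1
      rw [← zpow_natCast c4 2, ← zpow_mul]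
      have e : ((2 : ℕ) : ℤ) * (1 - 2 * i') = 1 - 2 * i' + (1 - 2 * i') := by push_cast; ring
      rw [e]
      exact h1
    have htwo : (c4 ^ 2) ^ E = 1 := by
      rw [← pow_mul, mul_comm, pow_mul, hc4E, one_pow]
    obtain ⟨k, hk⟩ := H.hE
    have ho1 : orderOf (c4 ^ 2) ∣ 2 ^ k := by
      rw [← hk]; exact orderOf_dvd_of_pow_eq_one htwo
    have ho2 : (orderOf (c4 ^ 2) : ℤ) ∣ 1 - 2 * i' := orderOf_dvd_iff_zpow_eq_one.mpr hodd
    obtain ⟨j, -, hj⟩ := (Nat.dvd_prime_pow Nat.prime_two).mp ho1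
    have hj0 : j = 0 := by
      by_contra hne
      have h2 : (2 : ℕ) ∣ orderOf (c4 ^ 2) := by
        rw [hj]; exact dvd_pow_self 2 hne
      have h3 : (2 : ℤ) ∣ 1 - 2 * i' := dvd_trans (by exact_mod_cast h2) ho2
      omega
    rw [hj0, pow_zero, orderOf_eq_one_iff] at hj
    rw [← pow_two]
    exact hj
  -- the order of the group
  have hY2p' : (yR * yR) ^ p = 1 := by rw [hY2p, hc4sq]
  have hfo : IsOfFinOrder (yR * yR) := isOfFinOrder_iff_pow_eq_one.mpr ⟨p, H.hp.pos, hY2p'⟩
  haveI : Finite (Subgroup.zpowers (yR * yR)) := hfo.finite_zpowers.to_subtype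
  obtain ⟨hfinR, hcardR⟩ := card_le_of_cert (G := RG rels) (H := Subgroup.zpowers (yR * yR))
    (g := lt (ra rels) (rb rels)) H.cert hgen hinv' hrel1 hsubz
  haveI : Finite (RG rels) := hfinR
  have hcard4 : Nat.card (RG rels) ≤ 4 * Nat.card Q := by
    calc Nat.card (RG rels) ≤ T.N * Nat.card (Subgroup.zpowers (yR * yR)) := hcardR
      _ ≤ T.N * p := Nat.mul_le_mul_left _ (by
          rw [Nat.card_zpowers]; exact orderOf_le_of_pow_eq_one H.hp.pos hY2p')
      _ = 4 * Nat.card Q := H.hN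
  have hbound : Nat.card ρ.ker ≤ 4 := by
    have h1 : Nat.card ρ.ker * Nat.card Q = Nat.card (RG rels) := by
      have h := Subgroup.card_mul_index ρ.ker
      rw [Subgroup.index_ker, MonoidHom.range_eq_top.mpr hρsurj, Subgroup.card_top] at h
      exact h
    have hpos : 0 < Nat.card Q := Nat.card_pos
    have h2 : Nat.card ρ.ker * Nat.card Q ≤ 4 * Nat.card Q := by rw [h1]; exact hcard4
    exact Nat.le_of_mul_le_mul_right h2 hpos
  -- the four elements
  have hw2K : ∀ x ∈ w2, x < 4 := hcwK w2 H.hw2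
  obtain ⟨z2, hz2def⟩ : ∃ z, z = ew (lt (ra rels) (rb rels)) w2 := ⟨_, rfl⟩
  have hz1c : c4 ∈ Subgroup.center (RG rels) := hc4c
  have hz2c : z2 ∈ Subgroup.center (RG rels) := by
    rw [hz2def]; exact (Subgroup.mem_inf.mp (hcwR w2 H.hw2)).1
  have hz1K : c4 ∈ ρ.ker := MonoidHom.mem_ker.mpr hc4k
  have hz2K : z2 ∈ ρ.ker := by
    rw [hz2def]; exact (Subgroup.mem_inf.mp (hcwR w2 H.hw2)).2
  have n1 : c4 ≠ 1 := by
    intro h
    apply H.ht1
    have h3 := htrace cy [] hcyK hnil (by rw [← hc4, h]; rfl)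
    rw [hcy] at h3
    exact h3
  have n2 : z2 ≠ 1 := by
    intro h
    apply H.ht2
    exact htrace w2 [] hw2K hnil (by rw [← hz2def, h]; rfl)
  have n12 : c4 ≠ z2 := by
    intro h
    apply H.ht12
    have h3 := htrace cy w2 hcyK hw2K (by rw [← hc4, ← hz2def, h])
    rw [hcy] at h3
    exact h3
  have np : c4 * z2 ≠ 1 := by
    intro h
    apply H.htp
    have h3 := htrace (cy ++ w2) [] (happK cy w2 hcyK hw2K) hnil
      (by rw [ew_append, ← hc4, ← hz2def, h]; rfl)
    rw [hcy] at h3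
    exact h3
  have ns2 : z2 * z2 ≠ c4 := by
    intro h
    apply H.hts2
    have h3 := htrace (w2 ++ w2) cy (happK w2 w2 hw2K hw2K) hcyK
      (by rw [ew_append, ← hc4, ← hz2def, h])
    rw [hcy] at h3
    exact h3
  classical
  have hS4 : ({1, c4, z2, c4 * z2} : Finset (RG rels)).card = 4 := by
    rw [Finset.card_insert_of_notMem, Finset.card_insert_of_notMem,
      Finset.card_insert_of_notMem, Finset.card_singleton]
    · rw [Finset.mem_singleton]
      intro h
      exact n1 (by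
        have h' : 1 * z2 = c4 * z2 := by rw [one_mul]; exact h
        exact (mul_right_cancel h').symm)
    · rw [Finset.mem_insert, Finset.mem_singleton]
      rintro (h | h)
      · exact n12 h
      · exact n2 (by
          have h' : c4 * 1 = c4 * z2 := by rw [mul_one]; exact h
          exact (mul_left_cancel h').symm)
    · rw [Finset.mem_insert, Finset.mem_insert, Finset.mem_singleton]
      rintro (h | h | h)
      · exact n1 h.symm
      · exact n2 h.symm
      · exact np h.symm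
  have hsubK : (({1, c4, z2, c4 * z2} : Finset (RG rels)) : Set (RG rels)) ⊆
      ((ρ.ker : Subgroup (RG rels)) : Set (RG rels)) := by
    intro x hx
    rw [Finset.mem_coe, Finset.mem_insert, Finset.mem_insert, Finset.mem_insert,
      Finset.mem_singleton] at hx
    rcases hx with rfl | rfl | rfl | rfl
    · exact Subgroup.one_mem _
    · exact hz1K
    · exact hz2K
    · exact Subgroup.mul_mem _ hz1K hz2K
  have hseteq : (({1, c4, z2, c4 * z2} : Finset (RG rels)) : Set (RG rels)) =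
      ((ρ.ker : Subgroup (RG rels)) : Set (RG rels)) := by
    apply Set.eq_of_subset_of_ncard_le hsubK
    rw [Set.ncard_coe_finset, hS4]
    exact hbound
  have hcases : ∀ g ∈ ρ.ker, g = 1 ∨ g = c4 ∨ g = z2 ∨ g = c4 * z2 := by
    intro g hg
    have hg' : g ∈ (({1, c4, z2, c4 * z2} : Finset (RG rels)) : Set (RG rels)) := by
      rw [hseteq]; exact hg
    rw [Finset.mem_coe, Finset.mem_insert, Finset.mem_insert, Finset.mem_insert,
      Finset.mem_singleton] at hg'
    exact hg'
  have hcardK : Nat.card ρ.ker = 4 := by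
    have h : Nat.card ρ.ker = ((ρ.ker : Subgroup (RG rels)) : Set (RG rels)).ncard := rfl
    rw [h, ← hseteq, Set.ncard_coe_finset, hS4]
  have sq2 : z2 * z2 = 1 := by
    rcases hcases (z2 * z2) (Subgroup.mul_mem _ hz2K hz2K) with h | h | h | h
    · exact h
    · exact absurd h ns2
    · exact absurd (by
        have h' : z2 * z2 = z2 * 1 := by rw [mul_one]; exact h
        exact mul_left_cancel h') n2
    · exact absurd (mul_right_cancel h) n12.symm
  have hcomm12 : c4 * z2 = z2 * c4 := (Subgroup.mem_center_iff.mp hz1c z2).symm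
  have hsqall : ∀ g ∈ ρ.ker, g * g = 1 := by
    intro g hg
    rcases hcases g hg with rfl | rfl | rfl | rfl
    · exact one_mul 1
    · exact hc4sq
    · exact sq2
    · calc c4 * z2 * (c4 * z2) = c4 * (z2 * c4) * z2 := by group
        _ = c4 * (c4 * z2) * z2 := by rw [hcomm12]
        _ = (c4 * c4) * (z2 * z2) := by group
        _ = 1 := by rw [hc4sq, sq2, one_mul]
  have hker : ρ.ker ≤ Subgroup.center (RG rels) := by
    intro g hg
    rcases hcases g hg with rfl | rfl | rfl | rfl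
    · exact Subgroup.one_mem _
    · exact hz1c
    · exact hz2c
    · exact Subgroup.mul_mem _ hz1c hz2c
  have hklein : IsKleinFour ↥(ρ.ker) := by
    refine ⟨hcardK, ?_⟩
    have hdvd : Monoid.exponent ↥(ρ.ker) ∣ 2 := by
      rw [Monoid.exponent_dvd_iff_forall_pow_eq_one]
      rintro ⟨g, hg⟩
      apply Subtype.ext
      show g ^ 2 = 1
      rw [pow_two]
      exact hsqall g hg
    rcases (Nat.dvd_prime Nat.prime_two).mp hdvd with h | h
    · exfalso
      rw [Monoid.exp_eq_one_iff] at h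
      have : Nat.card ↥(ρ.ker) ≤ 1 := Finite.card_le_one_iff_subsingleton.mpr h
      omega
    · exact h
  -- the multiplier
  obtain ⟨θ, hθ⟩ := exists_inj5 f cw v0 v1 pw kw E cy rels hrels H.hq0 H.hcw H.hv0 H.hv1
    (fun c hc => H.hcw c (H.hpw c hc)) (H.hcw cy hcycw) H.hkw H.hd0 H.hd1 H.hexp ρ hρa hρb hker
  obtain ⟨q, hq⟩ := exists_surj_M H.hf ρ hρsurj hker
  have hc2 : Nat.card ↥(ρ.ker ⊓ commutator (RG rels)) ≤ Nat.card (M f) :=
    Nat.card_le_card_of_surjective q hq
  have hbij : Function.Bijective θ := hθ.bijective_of_nat_card_le hc2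
  let e1' : M f ≃* ↥(ρ.ker ⊓ commutator (RG rels)) := MulEquiv.ofBijective θ hbij
  have hcomm : ρ.ker ⊓ commutator (RG rels) = ρ.ker := by rw [hperf, inf_top_eq]
  have hklein' : IsKleinFour ↥(ρ.ker ⊓ commutator (RG rels)) := by
    rw [hcomm]; exact hklein
  obtain ⟨e2'⟩ : Nonempty (↥(ρ.ker ⊓ commutator (RG rels)) ≃*
      Multiplicative (ZMod 2 × ZMod 2)) := IsKleinFour.nonempty_mulEquiv
  exact hasSchurMultiplier_congr (hasSchurMultiplier_Mf f H.hf) (e1'.trans e2')

end Cfsg.Agent.Lib.Helper56.Relax
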