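import Mathlib
import Cfsg.Prelude.Def_SporCoxeter
import Cfsg.Agent.Lib.Helper56.TC
import Cfsg.Agent.Lib.Helper56.TCCox

set_option autoImplicit false

/-!
Variants of the final statements of `TC` and `TCCox` that also give distinctness of the orbits.
-/

namespace Cfsg.Agent.Lib.Helper56.TC

open Cfsg.Spor

namespace Tabs

section main2

variable {T : Tabs} {G : Type*} [Group G] {H : Subgroup G} {g : ℕ → G}

/-- The orbit of the coset of a representative: the final names with the same label. -/
theorem orbit_eq (hP : T.P1) (φ : G →* Equiv.Perm (Fin T.N))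
    (hφ : ∀ l < T.K, φ (g l) = sigma hP l)
    (hH : H = Subgroup.closure {x | ∃ s ∈ T.subs, x = ew g s})
    (hO : ∀ v < T.N, T.chkO v = true)
    (f : Fin T.N ≃ G ⧸ H) (hf : ∀ (x : G) (v : Fin T.N), f (φ x v) = x • f v)
    (c : ℕ) (hc : T.orep c < T.N) (hc2 : T.ol (T.orep c) = c) :
    MulAction.orbit H (f ⟨T.orep c, hc⟩) = f '' {v : Fin T.N | Nat.beq (T.ol v) c = true} := by
  have hφw : ∀ w : List ℕ, (∀ a ∈ w, a < T.K) → φ (ew g w) = ew (sigma hP) w := by
    intro w hw
    rw [map_ew]
    exact ew_congr _ _ _ (fun a ha => hφ a (hw a ha))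
  have hsubH : ∀ s ∈ T.subs, ew g s ∈ H := by
    intro s hs
    rw [hH]
    exact Subgroup.subset_closure ⟨s, hs, rfl⟩
  have hsubv : ∀ s ∈ T.subs, ∀ v : Fin T.N, ((φ (ew g s) v : Fin T.N) : ℕ) = T.followT s v := by
    intro s hs v
    rw [hφw s (hP.hsubK s hs), ew_sigma hP s (hP.hsubK s hs)]
  have hinvar : ∀ h ∈ H, ∀ v : Fin T.N, T.ol (φ h v) = T.ol v := by
    intro h hh
    rw [hH] at hh
    induction hh using Subgroup.closure_induction with
    | mem x hx =>
      obtain ⟨s, hs, rfl⟩ := hx
      intro v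
      rw [hsubv s hs v]
      have h1 := hO v v.2
      unfold chkO at h1
      simp only [Bool.and_eq_true] at h1
      exact beq_true ((allW_iff _ _).mp h1.1 s hs)
    | one => intro v; rw [map_one]; rfl
    | mul x y _ _ hx hy =>
      intro v
      rw [map_mul, Equiv.Perm.mul_apply, hx, hy]
    | inv x _ hx =>
      intro v
      have h1 := hx ((φ x)⁻¹ v)
      rw [perm_apply_inv] at h1
      rw [map_inv, h1]
  have hreach : ∀ n : ℕ, ∀ v : Fin T.N, T.odep v = n → ∀ r : Fin T.N,
      (r : ℕ) = T.orep (T.ol v) → ∃ h ∈ H, φ h r = v := by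
    intro n
    induction n using Nat.strong_induction_on with
    | _ n ih =>
      intro v hn r hr
      have h1 := hO v v.2
      unfold chkO at h1
      simp only [Bool.and_eq_true, Bool.or_eq_true] at h1
      rcases h1.2 with h0 | ⟨h2, h3, h4⟩
      · refine ⟨1, H.one_mem, ?_⟩
        rw [map_one]
        apply Fin.ext
        show (r : ℕ) = v
        rw [hr, ← beq_true h0]
      · have h2 := blt_true h2
        have h3 := blt_true h3
        have h4 := beq_true h4
        have hsmem : nthL T.subs (T.oc v) ∈ T.subs := by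
          rw [nthL_eq]
          by_cases hlt : T.oc v < T.subs.length
          · rw [List.getD_eq_getElem _ _ hlt]; exact List.getElem_mem hlt
          · rw [nthL_eq, List.getD_eq_default _ _ (by omega)] at h4
            rw [followT_nil] at h4
            rw [h4] at h3
            omega
        set s := nthL T.subs (T.oc v) with hs
        have h5 : ((φ (ew g s) ⟨T.op v, h2⟩ : Fin T.N) : ℕ) = v := by
          rw [hsubv s hsmem]; exact h4
        have h6 : T.ol v = T.ol (T.op v) := by
          have := hinvar _ (hsubH s hsmem) ⟨T.op v, h2⟩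
          rw [h5] at this
          exact this
        obtain ⟨h', hh', hr'⟩ := ih (T.odep (T.op v)) (by rw [← hn]; exact h3) ⟨T.op v, h2⟩ rfl r
          (by rw [hr, h6])
        refine ⟨ew g s * h', H.mul_mem (hsubH s hsmem) hh', ?_⟩
        rw [map_mul, Equiv.Perm.mul_apply, hr']
        exact Fin.ext h5
  ext q
  constructor
  · rintro ⟨h, rfl⟩
    refine ⟨φ (h : G) ⟨T.orep c, hc⟩, ?_, ?_⟩
    · show Nat.beq (T.ol (φ (h : G) ⟨T.orep c, hc⟩)) c = true
      rw [hinvar _ h.2 ⟨T.orep c, hc⟩]
      show Nat.beq (T.ol (T.orep c)) c = true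
      rw [hc2]
      exact Nat.beq_refl c
    · rw [hf]
      rfl
  · rintro ⟨v, hv, rfl⟩
    have hv' : T.ol v = c := beq_true hv
    obtain ⟨h, hh, hr⟩ := hreach _ v rfl ⟨T.orep c, hc⟩ (by rw [hv'])
    refine ⟨⟨h, hh⟩, ?_⟩
    show (h : G) • f ⟨T.orep c, hc⟩ = f v
    rw [← hf, hr]

/-- The final statement with distinctness: index, orbit sizes, and distinct orbits. -/
theorem final2 (hC : T.Cert)
    (hgen : Subgroup.closure {x | ∃ l < T.K, x = g l} = ⊤)
    (hinv : ∀ l < T.K, g (T.inv l) = (g l)⁻¹)
    (hrel : ∀ w ∈ T.rels1, ew g w = 1)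
    (hH : H = Subgroup.closure {x | ∃ s ∈ T.subs, x = ew g s})
    (hlift : ∀ hP : T.P1, ∃ φ : G →* Equiv.Perm (Fin T.N), ∀ l < T.K, φ (g l) = sigma hP l) :
    H.index = T.N ∧ ∃ q : ℕ → G ⧸ H, ∀ c, T.orep c < T.N → T.ol (T.orep c) = c →
      ((MulAction.orbit H (q c)).ncard = countLt (fun v => Nat.beq (T.ol v) c) T.N ∧
        ∀ c', T.orep c' < T.N → T.ol (T.orep c') = c' → c ≠ c' →
          MulAction.orbit H (q c) ≠ MulAction.orbit H (q c')) := by
  have hP := hC.p1
  obtain ⟨φ, hφ⟩ := hlift hP
  have hS : T.Sem H g :=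
    { hNN := hP.hNN
      hinvK := hP.hinvK
      hinv := hinv
      hsubH := fun s hs => by
        rw [hH]; exact Subgroup.subset_closure ⟨s, hs, rfl⟩
      hsubK := hP.hsubK
      hrel := hrel
      hrelK := hP.hrelK
      hrx := hC.hrx
      hchk := hC.hname
      hfin := fun v hv => by
        have h := hC.hV v hv
        unfold chkV at h
        simp only [Bool.and_eq_true] at h
        exact h.1 }
  have hO : ∀ v < T.N, T.chkO v = true := fun v hv => by
    have h := hC.hV v hv
    unfold chkV at h
    simp only [Bool.and_eq_true] at h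
    exact h.2.2
  obtain ⟨f, hf, -⟩ := main hS hP hgen φ hφ hH
  refine ⟨index_eq hS hP hgen φ hφ hH,
    fun c => if h : T.orep c < T.N then f ⟨T.orep c, h⟩ else f ⟨0, hP.hN⟩, ?_⟩
  intro c hc hc2
  have he : ∀ d (hd : T.orep d < T.N), T.ol (T.orep d) = d →
      MulAction.orbit H (if h : T.orep d < T.N then f ⟨T.orep d, h⟩ else f ⟨0, hP.hN⟩) =
        f '' {v : Fin T.N | Nat.beq (T.ol v) d = true} := by
    intro d hd hd2
    rw [dif_pos hd]
    exact orbit_eq hP φ hφ hH hO f hf d hd hd2
  constructor
  · show (MulAction.orbit H (if h : T.orep c < T.N then f ⟨T.orep c, h⟩ else f ⟨0, hP.hN⟩)).ncard = _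
    rw [he c hc hc2, Set.ncard_image_of_injective _ f.injective]
    exact ncard_fin_eq_countLt T.N (fun v => Nat.beq (T.ol v) c)
  · intro c' hc' hc2' hne heq
    have h1 : MulAction.orbit H (if h : T.orep c < T.N then f ⟨T.orep c, h⟩ else f ⟨0, hP.hN⟩) =
        MulAction.orbit H (if h : T.orep c' < T.N then f ⟨T.orep c', h⟩ else f ⟨0, hP.hN⟩) := heq
    rw [he c hc hc2, he c' hc' hc2'] at h1
    have h2 : f ⟨T.orep c, hc⟩ ∈ f '' {v : Fin T.N | Nat.beq (T.ol v) c = true} :=
      ⟨⟨T.orep c, hc⟩, by
        show Nat.beq (T.ol (T.orep c)) c = true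
        rw [hc2]; exact Nat.beq_refl c, rfl⟩
    rw [h1] at h2
    obtain ⟨v, hv, hfv⟩ := h2
    have h3 : v = ⟨T.orep c, hc⟩ := f.injective hfv
    rw [h3] at hv
    have h4 : T.ol (T.orep c) = c' := beq_true hv
    rw [hc2] at h4
    exact hne h4

end main2

end Tabs

section cox2

variable {α : Type} [DecidableEq α]

/-- Index, orbit sizes and distinctness of orbits from a certificate, for a Coxeter-style
presentation on involutions. -/
theorem cox_main2 (edges : List (α × ℕ × α)) (extra : List (FreeGroup α))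
    (T : Tabs) (gens : List α) (subL : List (FreeGroup α))
    (hC : T.Cert)
    (hK : T.K = gens.length) (hnd : gens.Nodup) (hall : ∀ x : α, x ∈ gens)
    (hnode : ∀ x ∈ gens, x ∈ coxNodes edges)
    (hinv : ∀ l < T.K, T.inv l = l)
    (hrels : T.rels1 = coxW edges gens ++ extra.map (wordOf gens))
    (hsubs : T.subs = subL.map (wordOf gens)) :
    (((Subgroup.closure {r | r ∈ subL}).map
      (PresentedGroup.mk (coxRelators edges ∪ {r | r ∈ extra}))).index = T.N) ∧
    ∃ q : ℕ → PresentedGroup (coxRelators edges ∪ {r | r ∈ extra}) ⧸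
          ((Subgroup.closure {r | r ∈ subL}).map
            (PresentedGroup.mk (coxRelators edges ∪ {r | r ∈ extra}))),
      ∀ c, T.orep c < T.N → T.ol (T.orep c) = c →
        ((MulAction.orbit ((Subgroup.closure {r | r ∈ subL}).map
            (PresentedGroup.mk (coxRelators edges ∪ {r | r ∈ extra}))) (q c)).ncard =
          countLt (fun v => Nat.beq (T.ol v) c) T.N ∧
        ∀ c', T.orep c' < T.N → T.ol (T.orep c') = c' → c ≠ c' →
          MulAction.orbit ((Subgroup.closure {r | r ∈ subL}).map
            (PresentedGroup.mk (coxRelators edges ∪ {r | r ∈ extra}))) (q c) ≠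
          MulAction.orbit ((Subgroup.closure {r | r ∈ subL}).map
            (PresentedGroup.mk (coxRelators edges ∪ {r | r ∈ extra}))) (q c')) := by
  set rels := coxRelators edges ∪ {r | r ∈ extra} with hrelsdef
  let γ : α → PresentedGroup rels := fun x => PresentedGroup.of x
  let g : ℕ → PresentedGroup rels := fun l =>
    match gens[l]? with
    | some x => γ x
    | none => 1
  have hidx : ∀ x, gens.idxOf x < gens.length := fun x => List.idxOf_lt_length_of_mem (hall x)
  have hg : ∀ x, g (gens.idxOf x) = γ x := by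
    intro x
    show (match gens[gens.idxOf x]? with
      | some x => γ x
      | none => 1) = γ x
    rw [List.getElem?_eq_getElem (hidx x), List.getElem_idxOf (hidx x)]
  have hgl : ∀ l (hl : l < gens.length), g l = γ gens[l] := by
    intro l hl
    show (match gens[l]? with
      | some x => γ x
      | none => 1) = γ gens[l]
    rw [List.getElem?_eq_getElem hl]
  have hsq : ∀ x, γ x * γ x = 1 := by
    intro x
    have hx := hnode x (hall x)
    have hmem : (FreeGroup.of x * FreeGroup.of x) ^ coxLabel edges x x ∈ rels :=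
      Or.inl ⟨x, hx, x, hx, rfl⟩
    have h1 : coxLabel edges x x = 1 := by unfold coxLabel; rw [if_pos rfl]
    rw [h1, pow_one] at hmem
    have h2 := PresentedGroup.one_of_mem hmem
    rw [map_mul] at h2
    exact h2
  have hγinv : ∀ x, (γ x)⁻¹ = γ x := fun x => inv_eq_of_mul_eq_one_right (hsq x)
  have hmkl : PresentedGroup.mk rels = FreeGroup.lift γ :=
    FreeGroup.ext_hom _ _ (fun a => by rw [FreeGroup.lift_apply_of]; rfl)
  have hmk : ∀ r : FreeGroup α, PresentedGroup.mk rels r = ew g (wordOf gens r) := by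
    intro r
    rw [hmkl]
    exact lift_eq_ew gens γ g hg hγinv r
  have hgen : Subgroup.closure {x | ∃ l < T.K, x = g l} = ⊤ := by
    rw [eq_top_iff, ← PresentedGroup.closure_range_of rels]
    apply Subgroup.closure_mono
    rintro _ ⟨x, rfl⟩
    exact ⟨gens.idxOf x, by rw [hK]; exact hidx x, (hg x).symm⟩
  have hinvg : ∀ l < T.K, g (T.inv l) = (g l)⁻¹ := by
    intro l hl
    rw [hinv l hl, hgl l (by rw [← hK]; exact hl)]
    exact (hγinv _).symm
  have hrel : ∀ w ∈ T.rels1, ew g w = 1 := by
    intro w hw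
    rw [hrels] at hw
    rcases List.mem_append.mp hw with h | h
    · obtain ⟨x, hx, y, hy, -, rfl⟩ := (mem_coxW edges gens w).mp h
      rw [ew_rep, ew_cons, ew_cons, ew_nil, mul_one, hg, hg]
      have hmem : (FreeGroup.of x * FreeGroup.of y) ^ coxLabel edges x y ∈ rels :=
        Or.inl ⟨x, hnode x hx, y, hnode y hy, rfl⟩
      have h2 := PresentedGroup.one_of_mem hmem
      rw [map_pow, map_mul] at h2
      exact h2
    · obtain ⟨r, hr, rfl⟩ := List.mem_map.mp h
      rw [← hmk r]
      exact PresentedGroup.one_of_mem (Or.inr hr)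
  have hH : (Subgroup.closure {r | r ∈ subL}).map (PresentedGroup.mk rels) =
      Subgroup.closure {x | ∃ s ∈ T.subs, x = ew g s} := by
    rw [MonoidHom.map_closure]
    congr 1
    ext x
    constructor
    · rintro ⟨r, hr, rfl⟩
      exact ⟨wordOf gens r, by rw [hsubs]; exact List.mem_map_of_mem hr, hmk r⟩
    · rintro ⟨s, hs, rfl⟩
      rw [hsubs] at hs
      obtain ⟨r, hr, rfl⟩ := List.mem_map.mp hs
      exact ⟨r, hr, hmk r⟩
  have hlift : ∀ hP : T.P1, ∃ φ : PresentedGroup rels →* Equiv.Perm (Fin T.N),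
      ∀ l < T.K, φ (g l) = Tabs.sigma hP l := by
    intro hP
    let σ' : α → Equiv.Perm (Fin T.N) := fun x => Tabs.sigma hP (gens.idxOf x)
    have hσinv : ∀ x, (σ' x)⁻¹ = σ' x := by
      intro x
      have hl : gens.idxOf x < T.K := by rw [hK]; exact hidx x
      have h1 := Tabs.sigma_inv hP _ hl
      rw [hinv _ hl] at h1
      exact h1.symm
    have hliftw : ∀ r, FreeGroup.lift σ' r = ew (Tabs.sigma hP) (wordOf gens r) :=
      lift_eq_ew gens σ' (Tabs.sigma hP) (fun x => rfl) hσinv
    have hpair : ∀ x y, gens.idxOf x < gens.idxOf y →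
        (σ' x * σ' y) ^ coxLabel edges x y = 1 := by
      intro x y hlt
      have hmem : (List.replicate (coxLabel edges x y) [gens.idxOf x, gens.idxOf y]).flatten ∈
          T.rels1 := by
        rw [hrels]
        exact List.mem_append_left _ ((mem_coxW edges gens _).mpr ⟨x, hall x, y, hall y, hlt, rfl⟩)
      have h1 := Tabs.sigma_rel hP _ hmem
      rw [ew_rep, ew_cons, ew_cons, ew_nil, mul_one] at h1
      exact h1
    have hσrel : ∀ r ∈ rels, FreeGroup.lift σ' r = 1 := by
      rintro r (⟨x, hx, y, hy, rfl⟩ | hr)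
      · rw [map_pow, map_mul, FreeGroup.lift_apply_of, FreeGroup.lift_apply_of]
        rcases lt_trichotomy (gens.idxOf x) (gens.idxOf y) with hlt | heq | hgt
        · exact hpair x y hlt
        · have hxy : x = y := (List.idxOf_inj (hall x)).mp heq
          subst hxy
          have h1 : coxLabel edges x x = 1 := by unfold coxLabel; rw [if_pos rfl]
          rw [h1, pow_one]
          have h2 := hσinv x
          calc σ' x * σ' x = (σ' x)⁻¹ * σ' x := by rw [h2]
            _ = 1 := inv_mul_cancel _
        · rw [coxLabel_comm]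
          exact pow_comm_eq_one _ _ _ (hpair y x hgt)
      · rw [hliftw]
        exact Tabs.sigma_rel hP _ (by
          rw [hrels]; exact List.mem_append_right _ (List.mem_map_of_mem hr))
    refine ⟨PresentedGroup.toGroup hσrel, fun l hl => ?_⟩
    have hl' : l < gens.length := by rw [← hK]; exact hl
    rw [hgl l hl']
    show PresentedGroup.toGroup hσrel (PresentedGroup.of gens[l]) = _
    rw [PresentedGroup.toGroup.of]
    show Tabs.sigma hP (gens.idxOf gens[l]) = _
    rw [List.Nodup.idxOf_getElem hnd]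
  exact Tabs.final2 hC hgen hinvg hrel hH hlift

end cox2

end Cfsg.Agent.Lib.Helper56.TC
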